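/-
Dual frames of a unitary form: expansion of vectors and determinants.
-/
import Cfsg.Agent.Lib.CmaxU.Master

set_option autoImplicit false
set_option linter.unusedSectionVars false
set_option linter.unusedVariables false
set_option linter.style.haveILetI false

namespace Cfsg.Agent.Lib.CmaxX.Dual

open Matrix Module Cfsg Cfsg.Geo Cfsg.Agent.Lib.Geo.Basic Cfsg.Agent.Lib.Geo.UnitaryInSL Cfsg.Agent.Lib.Geo.SUGen
open Cfsg.Agent.Lib.Geo.Centres
open scoped MatrixGroups

variable {F : Type*} [Field F] {σ : F ≃+* F} {n : ℕ} {f : (Fin n → F) → (Fin n → F) → F}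

/-- The matrix with the given columns. -/
def cols (u : Fin n → (Fin n → F)) : Matrix (Fin n) (Fin n) F := fun a b => u b a

theorem cols_mulVec (u : Fin n → (Fin n → F)) (y : Fin n → F) : cols u *ᵥ y = ∑ i, y i • u i := by
  funext a
  simp [cols, Matrix.mulVec, dotProduct, mul_comm]

section
variable (hf : IsUnitaryForm σ f) {u w : Fin n → (Fin n → F)}
  (h : ∀ i j, f (u i) (w j) = if i = j then 1 else 0)
include hf h

/-- The rows of the inverse. -/
theorem rows_mul_cols : (Matrix.of fun j => formVec f (w j)) * cols u = 1 := by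
  ext j k
  rw [Matrix.mul_apply]
  have h1 := formVec_dotProduct hf.add_left hf.smul_left (u k) (w j)
  rw [h k j] at h1
  simp only [Matrix.one_apply, cols, Matrix.of_apply]
  rw [show (if j = k then (1 : F) else 0) = if k = j then 1 else 0 by simp [eq_comm]]
  rw [← h1]
  rfl

theorem expand (x : Fin n → F) : x = ∑ i, f x (w i) • u i := by
  have h1 := mul_eq_one_comm.1 (rows_mul_cols hf h)
  have h2 : cols u *ᵥ ((Matrix.of fun j => formVec f (w j)) *ᵥ x) = x := by
    rw [Matrix.mulVec_mulVec, h1, Matrix.one_mulVec]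
  rw [cols_mulVec] at h2
  conv_lhs => rw [← h2]
  refine Finset.sum_congr rfl fun i _ => ?_
  congr 1
  exact formVec_dotProduct hf.add_left hf.smul_left x (w i)

theorem det_cols_ne : (cols u).det ≠ 0 := by
  intro h0
  have h1 := congrArg Matrix.det (rows_mul_cols hf h)
  rw [Matrix.det_mul, h0, mul_zero, Matrix.det_one] at h1
  exact zero_ne_one h1

/-- The determinant in a frame. -/
theorem det_eq (g C : Matrix (Fin n) (Fin n) F) (hg : ∀ j, g *ᵥ u j = ∑ i, C i j • u i) : g.det = C.det := by
  have h1 : g * cols u = cols u * C := by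
    ext i j
    have h2 := congrFun (hg j) i
    rw [Matrix.mul_apply, Matrix.mul_apply]
    simp only [Matrix.mulVec, dotProduct, Finset.sum_apply, Pi.smul_apply, smul_eq_mul] at h2
    simp only [cols]
    rw [h2]
    exact Finset.sum_congr rfl fun k _ => mul_comm _ _
  have h3 := congrArg Matrix.det h1
  rw [Matrix.det_mul, Matrix.det_mul, mul_comm] at h3
  exact mul_left_cancel₀ (det_cols_ne hf h) h3

end

end Cfsg.Agent.Lib.CmaxX.Dual
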