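/-
`Sp₄(3)`: fast explicit computations with `4 × 4` matrices over the field with three elements: the ten involutions
which commute or anticommute with the matrix `J`.
-/
import Cfsg.Agent.Lib.CmaxS.Master

set_option autoImplicit false
set_option linter.unusedSectionVars false
set_option linter.unusedVariables false
set_option linter.style.haveILetI false
set_option synthInstance.maxSize 2000
set_option synthInstance.maxHeartbeats 0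
set_option maxHeartbeats 2000000

namespace Cfsg.Agent.Lib.CmaxX.Sp4Data

open Matrix

abbrev ι := Fin 2 ⊕ Fin 2
abbrev Z3 := ZMod 3

/-- A `4 × 4` matrix with fast projections, its entries being read modulo three. -/
structure M4 where
  (a00 a01 a02 a03 a10 a11 a12 a13 a20 a21 a22 a23 a30 a31 a32 a33 : ℕ)

namespace M4

/-- The associated matrix. -/
def toM (A : M4) : Matrix ι ι Z3 :=
  fromBlocks !![(A.a00 : Z3), (A.a01 : Z3); (A.a10 : Z3), (A.a11 : Z3)] !![(A.a02 : Z3), (A.a03 : Z3); (A.a12 : Z3), (A.a13 : Z3)] !![(A.a20 : Z3), (A.a21 : Z3); (A.a30 : Z3), (A.a31 : Z3)] !![(A.a22 : Z3), (A.a23 : Z3); (A.a32 : Z3), (A.a33 : Z3)]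

def mul (A B : M4) : M4 := ⟨(A.a00*B.a00+A.a01*B.a10+A.a02*B.a20+A.a03*B.a30)%3, (A.a00*B.a01+A.a01*B.a11+A.a02*B.a21+A.a03*B.a31)%3, (A.a00*B.a02+A.a01*B.a12+A.a02*B.a22+A.a03*B.a32)%3, (A.a00*B.a03+A.a01*B.a13+A.a02*B.a23+A.a03*B.a33)%3, (A.a10*B.a00+A.a11*B.a10+A.a12*B.a20+A.a13*B.a30)%3, (A.a10*B.a01+A.a11*B.a11+A.a12*B.a21+A.a13*B.a31)%3, (A.a10*B.a02+A.a11*B.a12+A.a12*B.a22+A.a13*B.a32)%3, (A.a10*B.a03+A.a11*B.a13+A.a12*B.a23+A.a13*B.a33)%3, (A.a20*B.a00+A.a21*B.a10+A.a22*B.a20+A.a23*B.a30)%3, (A.a20*B.a01+A.a21*B.a11+A.a22*B.a21+A.a23*B.a31)%3, (A.a20*B.a02+A.a21*B.a12+A.a22*B.a22+A.a23*B.a32)%3, (A.a20*B.a03+A.a21*B.a13+A.a22*B.a23+A.a23*B.a33)%3, (A.a30*B.a00+A.a31*B.a10+A.a32*B.a20+A.a33*B.a30)%3, (A.a30*B.a01+A.a31*B.a11+A.a32*B.a21+A.a33*B.a31)%3, (A.a30*B.a02+A.a31*B.a12+A.a32*B.a22+A.a33*B.a32)%3, (A.a30*B.a03+A.a31*B.a13+A.a32*B.a23+A.a33*B.a33)%3⟩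

def tr (A : M4) : M4 := ⟨A.a00, A.a10, A.a20, A.a30, A.a01, A.a11, A.a21, A.a31, A.a02, A.a12, A.a22, A.a32, A.a03, A.a13, A.a23, A.a33⟩

def neg (A : M4) : M4 := ⟨(2*A.a00)%3, (2*A.a01)%3, (2*A.a02)%3, (2*A.a03)%3, (2*A.a10)%3, (2*A.a11)%3, (2*A.a12)%3, (2*A.a13)%3, (2*A.a20)%3, (2*A.a21)%3, (2*A.a22)%3, (2*A.a23)%3, (2*A.a30)%3, (2*A.a31)%3, (2*A.a32)%3, (2*A.a33)%3⟩

def eqv (A B : M4) : Bool := (A.a00%3 == B.a00%3) && (A.a01%3 == B.a01%3) && (A.a02%3 == B.a02%3) && (A.a03%3 == B.a03%3) && (A.a10%3 == B.a10%3) && (A.a11%3 == B.a11%3) && (A.a12%3 == B.a12%3) && (A.a13%3 == B.a13%3) && (A.a20%3 == B.a20%3) && (A.a21%3 == B.a21%3) && (A.a22%3 == B.a22%3) && (A.a23%3 == B.a23%3) && (A.a30%3 == B.a30%3) && (A.a31%3 == B.a31%3) && (A.a32%3 == B.a32%3) && (A.a33%3 == B.a33%3)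

def one : M4 := ⟨1, 0, 0, 0, 0, 1, 0, 0, 0, 0, 1, 0, 0, 0, 0, 1⟩

/-- The matrix `J`. -/
def jj : M4 := ⟨0, 0, 2, 0, 0, 0, 0, 2, 1, 0, 0, 0, 0, 1, 0, 0⟩

theorem three : ((3 : ℕ) : Z3) = 0 := by decide

theorem cast_mod (n : ℕ) : ((n % 3 : ℕ) : Z3) = (n : Z3) := ZMod.natCast_mod n 3

theorem toM_mul (A B : M4) : toM (mul A B) = toM A * toM B := by
  ext i j
  rcases i with i | i <;> rcases j with j | j <;> fin_cases i <;> fin_cases j <;>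
    simp [toM, mul, Matrix.mul_apply, Fintype.sum_sum_type, Fin.sum_univ_two] <;> ring

theorem toM_tr (A : M4) : toM (tr A) = (toM A)ᵀ := by
  ext i j
  rcases i with i | i <;> rcases j with j | j <;> fin_cases i <;> fin_cases j <;>
    simp [toM, tr]

theorem two_mul_eq (n : ℕ) : (((2 * n) % 3 : ℕ) : Z3) = -(n : Z3) := by
  rw [cast_mod]
  have h : ((3 : ℕ) : Z3) = 0 := three
  push_cast at h ⊢
  linear_combination (n : Z3) * h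

theorem two_mul' (x : Z3) : 2 * x = -x := by
  have h : (3 : Z3) = 0 := by decide
  linear_combination x * h

theorem toM_neg (A : M4) : toM (neg A) = -toM A := by
  ext i j
  rcases i with i | i <;> rcases j with j | j <;> fin_cases i <;> fin_cases j <;>
    simp [toM, neg, two_mul']

theorem toM_one : toM one = 1 := by
  ext i j
  rcases i with i | i <;> rcases j with j | j <;> fin_cases i <;> fin_cases j <;>
    simp [toM, one]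

theorem toM_jj : toM jj = Matrix.J (Fin 2) Z3 := by
  ext i j
  rcases i with i | i <;> rcases j with j | j <;> fin_cases i <;> fin_cases j <;>
    simp [toM, jj, Matrix.J] <;> decide

theorem cast_eq_iff (a b : ℕ) : (a : Z3) = (b : Z3) ↔ a % 3 = b % 3 := ZMod.natCast_eq_natCast_iff' a b 3

theorem eqv_iff (A B : M4) : toM A = toM B ↔ eqv A B = true := by
  constructor
  · intro h
    have e : ∀ i j, toM A i j = toM B i j := fun i j => by rw [h]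
    have h00 := (cast_eq_iff _ _).1 (by simpa [toM] using e (Sum.inl 0) (Sum.inl 0) : (A.a00 : Z3) = (B.a00 : Z3))
    have h01 := (cast_eq_iff _ _).1 (by simpa [toM] using e (Sum.inl 0) (Sum.inl 1) : (A.a01 : Z3) = (B.a01 : Z3))
    have h02 := (cast_eq_iff _ _).1 (by simpa [toM] using e (Sum.inl 0) (Sum.inr 0) : (A.a02 : Z3) = (B.a02 : Z3))
    have h03 := (cast_eq_iff _ _).1 (by simpa [toM] using e (Sum.inl 0) (Sum.inr 1) : (A.a03 : Z3) = (B.a03 : Z3))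
    have h10 := (cast_eq_iff _ _).1 (by simpa [toM] using e (Sum.inl 1) (Sum.inl 0) : (A.a10 : Z3) = (B.a10 : Z3))
    have h11 := (cast_eq_iff _ _).1 (by simpa [toM] using e (Sum.inl 1) (Sum.inl 1) : (A.a11 : Z3) = (B.a11 : Z3))
    have h12 := (cast_eq_iff _ _).1 (by simpa [toM] using e (Sum.inl 1) (Sum.inr 0) : (A.a12 : Z3) = (B.a12 : Z3))
    have h13 := (cast_eq_iff _ _).1 (by simpa [toM] using e (Sum.inl 1) (Sum.inr 1) : (A.a13 : Z3) = (B.a13 : Z3))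
    have h20 := (cast_eq_iff _ _).1 (by simpa [toM] using e (Sum.inr 0) (Sum.inl 0) : (A.a20 : Z3) = (B.a20 : Z3))
    have h21 := (cast_eq_iff _ _).1 (by simpa [toM] using e (Sum.inr 0) (Sum.inl 1) : (A.a21 : Z3) = (B.a21 : Z3))
    have h22 := (cast_eq_iff _ _).1 (by simpa [toM] using e (Sum.inr 0) (Sum.inr 0) : (A.a22 : Z3) = (B.a22 : Z3))
    have h23 := (cast_eq_iff _ _).1 (by simpa [toM] using e (Sum.inr 0) (Sum.inr 1) : (A.a23 : Z3) = (B.a23 : Z3))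
    have h30 := (cast_eq_iff _ _).1 (by simpa [toM] using e (Sum.inr 1) (Sum.inl 0) : (A.a30 : Z3) = (B.a30 : Z3))
    have h31 := (cast_eq_iff _ _).1 (by simpa [toM] using e (Sum.inr 1) (Sum.inl 1) : (A.a31 : Z3) = (B.a31 : Z3))
    have h32 := (cast_eq_iff _ _).1 (by simpa [toM] using e (Sum.inr 1) (Sum.inr 0) : (A.a32 : Z3) = (B.a32 : Z3))
    have h33 := (cast_eq_iff _ _).1 (by simpa [toM] using e (Sum.inr 1) (Sum.inr 1) : (A.a33 : Z3) = (B.a33 : Z3))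
    simp only [eqv, Bool.and_eq_true, beq_iff_eq]
    simp only [h00, h01, h02, h03, h10, h11, h12, h13, h20, h21, h22, h23, h30, h31, h32, h33, and_self]
  · intro h
    simp only [eqv, Bool.and_eq_true, beq_iff_eq] at h
    obtain ⟨⟨⟨⟨⟨⟨⟨⟨⟨⟨⟨⟨⟨⟨⟨h00, h01⟩, h02⟩, h03⟩, h10⟩, h11⟩, h12⟩, h13⟩, h20⟩, h21⟩, h22⟩, h23⟩, h30⟩, h31⟩, h32⟩, h33⟩ := h
    have e : ∀ {a b : ℕ}, a % 3 = b % 3 → (a : Z3) = (b : Z3) := fun h => (cast_eq_iff _ _).2 h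
    simp only [toM, e h00, e h01, e h02, e h03, e h10, e h11, e h12, e h13, e h20, e h21, e h22, e h23, e h30, e h31, e h32, e h33]

end M4

open M4

/-- The list of the ten involutions. -/
def tlist : List M4 := [
  ⟨0, 0, 0, 1, 0, 0, 2, 0, 0, 2, 0, 0, 1, 0, 0, 0⟩,
  ⟨0, 0, 0, 2, 0, 0, 1, 0, 0, 1, 0, 0, 2, 0, 0, 0⟩,
  ⟨0, 1, 0, 0, 1, 0, 0, 0, 0, 0, 0, 1, 0, 0, 1, 0⟩,
  ⟨0, 1, 0, 1, 2, 0, 2, 0, 0, 1, 0, 2, 2, 0, 1, 0⟩,
  ⟨0, 1, 0, 2, 2, 0, 1, 0, 0, 2, 0, 2, 1, 0, 1, 0⟩,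
  ⟨0, 2, 0, 1, 1, 0, 2, 0, 0, 1, 0, 1, 2, 0, 2, 0⟩,
  ⟨0, 2, 0, 2, 1, 0, 1, 0, 0, 2, 0, 1, 1, 0, 2, 0⟩,
  ⟨0, 2, 0, 0, 2, 0, 0, 0, 0, 0, 0, 2, 0, 0, 2, 0⟩,
  ⟨1, 0, 0, 0, 0, 2, 0, 0, 0, 0, 1, 0, 0, 0, 0, 2⟩,
  ⟨2, 0, 0, 0, 0, 1, 0, 0, 0, 0, 2, 0, 0, 0, 0, 1⟩
]

def memN (t : M4) : Bool := tlist.any (fun M => eqv t M)

theorem memN_iff (t : M4) (h : memN t = true) : ∃ M ∈ tlist, toM t = toM M := by
  obtain ⟨M, hM, h1⟩ := List.any_eq_true.1 h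
  exact ⟨M, hM, (eqv_iff t M).2 h1⟩

/-- Matrices commuting with `J`, with the given first two rows. -/
def mkC (a₀ a₁ a₂ a₃ b₀ b₁ b₂ b₃ : ℕ) : M4 :=
  ⟨a₀, a₁, b₀, b₁, a₂, a₃, b₂, b₃, (2 * b₀) % 3, (2 * b₁) % 3, a₀, a₁, (2 * b₂) % 3, (2 * b₃) % 3, a₂, a₃⟩

/-- Matrices anticommuting with `J`, with the given first two rows. -/
def mkA (a₀ a₁ a₂ a₃ b₀ b₁ b₂ b₃ : ℕ) : M4 :=
  ⟨a₀, a₁, b₀, b₁, a₂, a₃, b₂, b₃, b₀, b₁, (2 * a₀) % 3, (2 * a₁) % 3, b₂, b₃, (2 * a₂) % 3, (2 * a₃) % 3⟩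

/-- The test for the classification. -/
def test (t : M4) : Bool :=
  !(eqv (mul t t) one) || !(eqv (mul (mul (tr t) jj) t) jj) || eqv t one || eqv t (neg one) || memN t

theorem classifyC : ∀ a₀ a₁ a₂ a₃ b₀ b₁ b₂ b₃ : Fin 3, test (mkC a₀ a₁ a₂ a₃ b₀ b₁ b₂ b₃) = true := by
  decide +kernel

theorem classifyA : ∀ a₀ a₁ a₂ a₃ b₀ b₁ b₂ b₃ : Fin 3, test (mkA a₀ a₁ a₂ a₃ b₀ b₁ b₂ b₃) = true := by
  decide +kernel

def y₀ : M4 := ⟨1, 0, 0, 0, 0, 1, 0, 2, 0, 0, 1, 0, 0, 2, 0, 2⟩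
def y₁ : M4 := ⟨1, 0, 0, 0, 0, 2, 0, 1, 0, 0, 1, 0, 0, 1, 0, 1⟩
def s₀ : M4 := ⟨1, 0, 0, 0, 0, 1, 0, 0, 0, 0, 1, 0, 0, 2, 0, 1⟩
def s₁ : M4 := ⟨1, 0, 0, 0, 0, 1, 0, 0, 0, 0, 1, 0, 0, 1, 0, 1⟩
def t₀ : M4 := ⟨0, 0, 0, 1, 0, 0, 2, 0, 0, 2, 0, 0, 1, 0, 0, 0⟩

theorem t₀_mem : t₀ ∈ tlist := List.mem_cons_self
theorem y_mul : eqv (mul y₀ y₁) one = true := by decide +kernel
theorem y_mul' : eqv (mul y₁ y₀) one = true := by decide +kernel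
theorem s_mul : eqv (mul s₀ s₁) one = true := by decide +kernel
theorem s_mul' : eqv (mul s₁ s₀) one = true := by decide +kernel
theorem y_sp : eqv (mul (mul (tr y₀) jj) y₀) jj = true := by decide +kernel
theorem s_sp : eqv (mul (mul (tr s₀) jj) s₀) jj = true := by decide +kernel
theorem y_J1 : eqv (mul y₀ jj) (mul jj y₀) = false := by decide +kernel
theorem y_J2 : eqv (mul y₀ jj) (neg (mul jj y₀)) = false := by decide +kernel
theorem y_conj : ∀ t ∈ tlist, memN (mul (mul y₀ t) y₁) = true := by decide +kernel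
theorem s_conj : memN (mul (mul s₀ t₀) s₁) = false := by decide +kernel
theorem tlist_f1 : ∀ t ∈ tlist, eqv (mul t t) one = true := by decide +kernel
theorem tlist_f2 : ∀ t ∈ tlist, eqv (mul (mul (tr t) jj) t) jj = true := by decide +kernel
theorem tlist_f3 : ∀ t ∈ tlist, eqv (mul t jj) (mul jj t) = true ∨ eqv (mul t jj) (neg (mul jj t)) = true := by decide +kernel
theorem tlist_f4 : ∀ t ∈ tlist, eqv t one = false := by decide +kernel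
theorem tlist_f5 : ∀ t ∈ tlist, eqv t (neg one) = false := by decide +kernel

end Cfsg.Agent.Lib.CmaxX.Sp4Data
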