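/-
`Sp₄(3)`: the subgroup of the elements which commute or anticommute with `J` is not maximal: it lies in the stabiliser of
the ten involutions which commute or anticommute with `J`.
-/
import Cfsg.Agent.Lib.CmaxX.Sp4Data

set_option autoImplicit false
set_option linter.unusedSectionVars false
set_option linter.unusedVariables false
set_option linter.style.haveILetI false

namespace Cfsg.Agent.Lib.CmaxX.Sp4Std

open Matrix Module Cfsg Cfsg.Geo Cfsg.Agent.Lib.Geo.Basic Cfsg.Agent.Lib.CmaxX.Sp4Data Cfsg.Agent.Lib.CmaxX.Sp4Data.M4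
open scoped MatrixGroups

section general
variable {F : Type*} [Field F] {m : ℕ}

theorem form_eq (g : Matrix (Fin m ⊕ Fin m) (Fin m ⊕ Fin m) F) (u v : Fin m ⊕ Fin m → F) :
    sympForm m F (g *ᵥ u) (g *ᵥ v) = u ⬝ᵥ ((gᵀ * Matrix.J (Fin m) F * g) *ᵥ v) := by
  rw [sympForm, ← Matrix.mulVec_mulVec, ← Matrix.mulVec_mulVec, Matrix.dotProduct_mulVec u gᵀ, Matrix.vecMul_transpose]

theorem mem_sp_iff (g : GL (Fin m ⊕ Fin m) F) :
    g ∈ spGL m F ↔ (g : Matrix (Fin m ⊕ Fin m) (Fin m ⊕ Fin m) F)ᵀ * Matrix.J (Fin m) F * (g : Matrix _ _ F) = Matrix.J (Fin m) F := by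
  rw [mem_spGL_iff]
  constructor
  · intro h
    ext i j
    have h1 := h (Pi.single i 1) (Pi.single j 1)
    rw [form_eq, sympForm] at h1
    simpa [Matrix.mulVec_single_one, single_one_dotProduct] using h1
  · intro h u v
    rw [form_eq, h, sympForm]

end general

abbrev Jm : Matrix ι ι Z3 := Matrix.J (Fin 2) Z3

theorem entry_mulJ_inl (t : Matrix ι ι Z3) (i : ι) (j : Fin 2) : (t * Jm) i (Sum.inl j) = t i (Sum.inr j) := by
  simp [Matrix.mul_apply, Jm, Matrix.J, Fintype.sum_sum_type, Fin.sum_univ_two]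
  fin_cases j <;> simp [Matrix.one_apply]

theorem entry_mulJ_inr (t : Matrix ι ι Z3) (i : ι) (j : Fin 2) : (t * Jm) i (Sum.inr j) = - t i (Sum.inl j) := by
  simp [Matrix.mul_apply, Jm, Matrix.J, Fintype.sum_sum_type, Fin.sum_univ_two]
  fin_cases j <;> simp [Matrix.one_apply]

theorem entry_Jmul_inl (t : Matrix ι ι Z3) (i : Fin 2) (j : ι) : (Jm * t) (Sum.inl i) j = - t (Sum.inr i) j := by
  simp [Matrix.mul_apply, Jm, Matrix.J, Fintype.sum_sum_type, Fin.sum_univ_two]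
  fin_cases i <;> simp [Matrix.one_apply]

theorem entry_Jmul_inr (t : Matrix ι ι Z3) (i : Fin 2) (j : ι) : (Jm * t) (Sum.inr i) j = t (Sum.inl i) j := by
  simp [Matrix.mul_apply, Jm, Matrix.J, Fintype.sum_sum_type, Fin.sum_univ_two]
  fin_cases i <;> simp [Matrix.one_apply]

theorem of_test (M : M4) (ht : test M = true) (h1 : toM M * toM M = 1) (h2 : (toM M)ᵀ * Jm * toM M = Jm)
    (h4 : toM M ≠ 1) (h5 : toM M ≠ -1) : ∃ M' ∈ tlist, toM M = toM M' := by
  have e1 : eqv (mul M M) one = true := by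
    rw [← eqv_iff, toM_mul, h1, toM_one]
  have e2 : eqv (mul (mul (tr M) jj) M) jj = true := by
    rw [← eqv_iff, toM_mul, toM_mul, toM_tr, toM_jj, h2]
  have e4 : eqv M one = false := by
    rw [← Bool.not_eq_true, ← eqv_iff, toM_one]
    exact h4
  have e5 : eqv M (neg one) = false := by
    rw [← Bool.not_eq_true, ← eqv_iff, toM_neg, toM_one]
    exact h5
  simp only [test, e1, e2, e4, e5, Bool.not_true, Bool.false_or] at ht
  exact memN_iff M ht

theorem val_cast (x : Z3) : ((x.val : ℕ) : Z3) = x := ZMod.natCast_zmod_val x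

theorem classify (t : Matrix ι ι Z3) (h1 : t * t = 1) (h2 : tᵀ * Jm * t = Jm) (h3 : t * Jm = Jm * t ∨ t * Jm = -(Jm * t))
    (h4 : t ≠ 1) (h5 : t ≠ -1) : ∃ M ∈ tlist, t = toM M := by
  have hlt : ∀ x : Z3, x.val < 3 := fun x => ZMod.val_lt x
  rcases h3 with h3 | h3
  · have hC : ∀ i j, t (Sum.inr i) (Sum.inl j) = - t (Sum.inl i) (Sum.inr j) := by
      intro i j
      have := congrFun (congrFun h3 (Sum.inl i)) (Sum.inl j)
      rw [entry_mulJ_inl, entry_Jmul_inl] at this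
      rw [this, neg_neg]
    have hD : ∀ i j, t (Sum.inr i) (Sum.inr j) = t (Sum.inl i) (Sum.inl j) := by
      intro i j
      have := congrFun (congrFun h3 (Sum.inl i)) (Sum.inr j)
      rw [entry_mulJ_inr, entry_Jmul_inl, neg_inj] at this
      exact this.symm
    set M := mkC (t (Sum.inl 0) (Sum.inl 0)).val (t (Sum.inl 0) (Sum.inl 1)).val (t (Sum.inl 1) (Sum.inl 0)).val
      (t (Sum.inl 1) (Sum.inl 1)).val (t (Sum.inl 0) (Sum.inr 0)).val (t (Sum.inl 0) (Sum.inr 1)).val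
      (t (Sum.inl 1) (Sum.inr 0)).val (t (Sum.inl 1) (Sum.inr 1)).val with hM
    have hE : t = toM M := by
      ext i j
      rcases i with i | i <;> rcases j with j | j <;> fin_cases i <;> fin_cases j <;>
        simp [toM, M, mkC, hC, hD, two_mul']
    have ht : test M = true :=
      classifyC ⟨_, hlt _⟩ ⟨_, hlt _⟩ ⟨_, hlt _⟩ ⟨_, hlt _⟩ ⟨_, hlt _⟩ ⟨_, hlt _⟩ ⟨_, hlt _⟩ ⟨_, hlt _⟩
    obtain ⟨M', hM', h6⟩ := of_test M ht (by rw [← hE]; exact h1) (by rw [← hE]; exact h2) (by rw [← hE]; exact h4)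
      (by rw [← hE]; exact h5)
    exact ⟨M', hM', hE.trans h6⟩
  · have hC : ∀ i j, t (Sum.inr i) (Sum.inl j) = t (Sum.inl i) (Sum.inr j) := by
      intro i j
      have := congrFun (congrFun h3 (Sum.inl i)) (Sum.inl j)
      rw [Matrix.neg_apply, entry_mulJ_inl, entry_Jmul_inl, neg_neg] at this
      exact this.symm
    have hD : ∀ i j, t (Sum.inr i) (Sum.inr j) = - t (Sum.inl i) (Sum.inl j) := by
      intro i j
      have := congrFun (congrFun h3 (Sum.inl i)) (Sum.inr j)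
      rw [Matrix.neg_apply, entry_mulJ_inr, entry_Jmul_inl, neg_neg] at this
      rw [← this]
    set M := mkA (t (Sum.inl 0) (Sum.inl 0)).val (t (Sum.inl 0) (Sum.inl 1)).val (t (Sum.inl 1) (Sum.inl 0)).val
      (t (Sum.inl 1) (Sum.inl 1)).val (t (Sum.inl 0) (Sum.inr 0)).val (t (Sum.inl 0) (Sum.inr 1)).val
      (t (Sum.inl 1) (Sum.inr 0)).val (t (Sum.inl 1) (Sum.inr 1)).val with hM
    have hE : t = toM M := by
      ext i j
      rcases i with i | i <;> rcases j with j | j <;> fin_cases i <;> fin_cases j <;>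
        simp [toM, M, mkA, hC, hD, two_mul']
    have ht : test M = true :=
      classifyA ⟨_, hlt _⟩ ⟨_, hlt _⟩ ⟨_, hlt _⟩ ⟨_, hlt _⟩ ⟨_, hlt _⟩ ⟨_, hlt _⟩ ⟨_, hlt _⟩ ⟨_, hlt _⟩
    obtain ⟨M', hM', h6⟩ := of_test M ht (by rw [← hE]; exact h1) (by rw [← hE]; exact h2) (by rw [← hE]; exact h4)
      (by rw [← hE]; exact h5)
    exact ⟨M', hM', hE.trans h6⟩

/-- The stabiliser of a set of matrices under conjugation. -/
def conjStab (S : Set (Matrix ι ι Z3)) : Subgroup (GL ι Z3) where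
  carrier := {g | ∀ t ∈ S, (g : Matrix ι ι Z3) * t * ((g⁻¹ : GL ι Z3) : Matrix ι ι Z3) ∈ S}
  mul_mem' {a b} ha hb t ht := by
    have := ha _ (hb t ht)
    simpa only [Units.val_mul, _root_.mul_inv_rev, mul_assoc] using this
  one_mem' t ht := by simpa using ht
  inv_mem' {g} hg := by
    have hp : ∀ k : ℕ, ∀ t ∈ S, ((g ^ k : GL ι Z3) : Matrix ι ι Z3) * t * (((g ^ k)⁻¹ : GL ι Z3) : Matrix ι ι Z3) ∈ S := by
      intro k
      induction k with
      | zero => intro t ht; simpa using ht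
      | succ k ih =>
        intro t ht
        have := hg _ (ih t ht)
        simpa only [pow_succ', Units.val_mul, _root_.mul_inv_rev, mul_assoc] using this
    have hfin : IsOfFinOrder g := isOfFinOrder_of_finite g
    have hpos : 0 < orderOf g := hfin.orderOf_pos
    have h1 : g⁻¹ = g ^ (orderOf g - 1) := by
      apply inv_eq_of_mul_eq_one_right
      rw [← pow_succ', Nat.sub_add_cancel hpos, pow_orderOf_eq_one]
    intro t ht
    have h2 := hp (orderOf g - 1) t ht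
    rw [← h1] at h2
    exact h2

theorem conj_J {g ginv t J : Matrix ι ι Z3} (h1 : ginv * g = 1) (h2 : g * ginv = 1) {ε₁ ε₀ : Z3} (hε : ε₁ * ε₁ = 1)
    (hg : g * J = ε₁ • (J * g)) (ht : t * J = ε₀ • (J * t)) :
    (g * t * ginv) * J = ε₀ • (J * (g * t * ginv)) := by
  have hg' : J * g = ε₁ • (g * J) := by
    rw [hg, smul_smul, hε, one_smul]
  have hginv : ginv * J = ε₁ • (J * ginv) := by
    calc ginv * J = ginv * (J * (g * ginv)) := by rw [h2, mul_one]
      _ = ginv * ((J * g) * ginv) := by rw [mul_assoc]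
      _ = ε₁ • (ginv * g * J * ginv) := by
        rw [hg', Matrix.smul_mul, Matrix.mul_smul]
        simp only [mul_assoc]
      _ = ε₁ • (J * ginv) := by rw [h1, one_mul]
  calc (g * t * ginv) * J = g * t * (ginv * J) := by rw [mul_assoc]
    _ = ε₁ • (g * (t * J) * ginv) := by
      rw [hginv, Matrix.mul_smul]
      simp only [mul_assoc]
    _ = (ε₁ * ε₀) • ((g * J) * t * ginv) := by
      rw [ht, Matrix.mul_smul, Matrix.smul_mul, smul_smul]
      simp only [mul_assoc]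
    _ = (ε₁ * ε₀ * ε₁) • (J * g * t * ginv) := by
      rw [hg, Matrix.smul_mul, Matrix.smul_mul, smul_smul]
    _ = ε₀ • (J * (g * t * ginv)) := by
      have : ε₁ * ε₀ * ε₁ = ε₀ := by linear_combination ε₀ * hε
      rw [this]
      simp only [mul_assoc]

theorem pm_iff (A : Matrix ι ι Z3) : (A * Jm = Jm * A ∨ A * Jm = -(Jm * A)) ↔ ∃ ε : Z3, ε * ε = 1 ∧ A * Jm = ε • (Jm * A) := by
  constructor
  · rintro (h | h)
    · exact ⟨1, one_mul 1, by rw [h, one_smul]⟩
    · exact ⟨-1, by ring, by rw [h, neg_smul, one_smul]⟩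
  · rintro ⟨ε, h1, h2⟩
    have key : ∀ ε : Z3, ε * ε = 1 → ε = 1 ∨ ε = -1 := by decide
    have := key ε h1
    rcases this with rfl | rfl
    · left
      rw [h2, one_smul]
    · right
      rw [h2, neg_smul, one_smul]

/-- The set of ten involutions. -/
def setT : Set (Matrix ι ι Z3) := {t | ∃ M ∈ tlist, t = toM M}

theorem std : ∃ K₀ : Subgroup (GL ι Z3), K₀ ≤ spGL 2 Z3 ∧
    (∀ g ∈ spGL 2 Z3, ((g : Matrix ι ι Z3) * Jm = Jm * g ∨ (g : Matrix ι ι Z3) * Jm = -(Jm * g)) → g ∈ K₀) ∧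
    (∃ y ∈ K₀, ¬ ((y : Matrix ι ι Z3) * Jm = Jm * y ∨ (y : Matrix ι ι Z3) * Jm = -(Jm * y))) ∧
    (∃ s ∈ spGL 2 Z3, s ∉ K₀) := by
  let y : GL ι Z3 := ⟨toM y₀, toM y₁, by rw [← toM_mul, (eqv_iff _ _).2 y_mul, toM_one], by rw [← toM_mul, (eqv_iff _ _).2 y_mul', toM_one]⟩
  let s : GL ι Z3 := ⟨toM s₀, toM s₁, by rw [← toM_mul, (eqv_iff _ _).2 s_mul, toM_one], by rw [← toM_mul, (eqv_iff _ _).2 s_mul', toM_one]⟩
  have hysp : y ∈ spGL 2 Z3 := by
    rw [mem_sp_iff]
    change (toM y₀)ᵀ * _ * toM y₀ = _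
    rw [← toM_jj, ← toM_tr, ← toM_mul, ← toM_mul]
    exact (eqv_iff _ _).2 y_sp
  have hssp : s ∈ spGL 2 Z3 := by
    rw [mem_sp_iff]
    change (toM s₀)ᵀ * _ * toM s₀ = _
    rw [← toM_jj, ← toM_tr, ← toM_mul, ← toM_mul]
    exact (eqv_iff _ _).2 s_sp
  refine ⟨conjStab setT ⊓ spGL 2 Z3, inf_le_right, ?_, ⟨y, ⟨?_, hysp⟩, ?_⟩, ⟨s, hssp, ?_⟩⟩
  · intro g hg hJ
    refine ⟨?_, hg⟩
    rintro t ⟨M, hM, rfl⟩
    set ginv : Matrix ι ι Z3 := ((g⁻¹ : GL ι Z3) : Matrix ι ι Z3) with hginv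
    have g1 : ginv * (g : Matrix ι ι Z3) = 1 := by
      rw [hginv, ← Units.val_mul, inv_mul_cancel, Units.val_one]
    have g2 : (g : Matrix ι ι Z3) * ginv = 1 := by
      rw [hginv, ← Units.val_mul, mul_inv_cancel, Units.val_one]
    have f1 : toM M * toM M = 1 := by
      rw [← toM_mul, (eqv_iff _ _).2 (tlist_f1 M hM), toM_one]
    have f2 : (toM M)ᵀ * Jm * toM M = Jm := by
      have := (eqv_iff _ _).2 (tlist_f2 M hM)
      rwa [toM_mul, toM_mul, toM_tr, toM_jj] at this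
    have f3 : toM M * Jm = Jm * toM M ∨ toM M * Jm = -(Jm * toM M) := by
      rcases tlist_f3 M hM with h | h
      · left
        have := (eqv_iff _ _).2 h
        rwa [toM_mul, toM_mul, toM_jj] at this
      · right
        have := (eqv_iff _ _).2 h
        rwa [toM_neg, toM_mul, toM_mul, toM_jj] at this
    have f4 : toM M ≠ 1 := by
      rw [← toM_one, Ne, eqv_iff, tlist_f4 M hM]
      simp
    have f5 : toM M ≠ -1 := by
      rw [← toM_one, ← toM_neg, Ne, eqv_iff, tlist_f5 M hM]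
      simp
    obtain ⟨ε₁, hε₁, hε₁'⟩ := (pm_iff _).1 hJ
    obtain ⟨ε₀, hε₀, hε₀'⟩ := (pm_iff _).1 f3
    obtain ⟨M', hM', h⟩ := classify ((g : Matrix ι ι Z3) * toM M * ginv)
      (by
        calc (g : Matrix ι ι Z3) * toM M * ginv * ((g : Matrix ι ι Z3) * toM M * ginv)
            = (g : Matrix ι ι Z3) * toM M * (ginv * (g : Matrix ι ι Z3)) * toM M * ginv := by simp only [mul_assoc]
          _ = (g : Matrix ι ι Z3) * (toM M * toM M) * ginv := by rw [g1, mul_one]; simp only [mul_assoc]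
          _ = 1 := by rw [f1, mul_one, g2])
      (by
        have hgsp := (mem_sp_iff g).1 hg
        have hgisp := (mem_sp_iff g⁻¹).1 (Subgroup.inv_mem _ hg)
        rw [Matrix.transpose_mul, Matrix.transpose_mul]
        calc ginvᵀ * ((toM M)ᵀ * (g : Matrix ι ι Z3)ᵀ) * Jm * ((g : Matrix ι ι Z3) * toM M * ginv)
            = ginvᵀ * ((toM M)ᵀ * ((g : Matrix ι ι Z3)ᵀ * Jm * (g : Matrix ι ι Z3)) * toM M) * ginv := by
              simp only [mul_assoc]
          _ = ginvᵀ * Jm * ginv := by rw [hgsp, f2]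
          _ = Jm := hgisp)
      ((pm_iff _).2 ⟨ε₀, hε₀, conj_J g1 g2 hε₁ hε₁' hε₀'⟩)
      (by
        intro h
        apply f4
        calc toM M = ginv * (g : Matrix ι ι Z3) * toM M * (ginv * (g : Matrix ι ι Z3)) := by rw [g1, one_mul, mul_one]
          _ = ginv * ((g : Matrix ι ι Z3) * toM M * ginv) * (g : Matrix ι ι Z3) := by simp only [mul_assoc]
          _ = 1 := by rw [h, mul_one, g1])
      (by
        intro h
        apply f5
        calc toM M = ginv * (g : Matrix ι ι Z3) * toM M * (ginv * (g : Matrix ι ι Z3)) := by rw [g1, one_mul, mul_one]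
          _ = ginv * ((g : Matrix ι ι Z3) * toM M * ginv) * (g : Matrix ι ι Z3) := by simp only [mul_assoc]
          _ = -1 := by
            rw [h, Matrix.mul_neg, Matrix.neg_mul, mul_one, g1])
    exact ⟨M', hM', h⟩
  · rintro t ⟨M, hM, rfl⟩
    obtain ⟨M', hM', h⟩ := memN_iff _ (y_conj M hM)
    refine ⟨M', hM', ?_⟩
    rw [← h, toM_mul, toM_mul]
    rfl
  · intro h
    rcases h with h | h
    · have h2 : eqv (mul y₀ jj) (mul jj y₀) = true := by
        rw [← eqv_iff, toM_mul, toM_mul, toM_jj]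
        exact h
      rw [y_J1] at h2
      exact absurd h2 (by simp)
    · have h2 : eqv (mul y₀ jj) (neg (mul jj y₀)) = true := by
        rw [← eqv_iff, toM_neg, toM_mul, toM_mul, toM_jj]
        exact h
      rw [y_J2] at h2
      exact absurd h2 (by simp)
  · rintro ⟨h, -⟩
    obtain ⟨M, hM, h1⟩ := h (toM t₀) ⟨t₀, t₀_mem, rfl⟩
    have h2 : memN (mul (mul s₀ t₀) s₁) = true := by
      refine List.any_eq_true.2 ⟨M, hM, ?_⟩
      rw [← eqv_iff, toM_mul, toM_mul]
      exact h1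
    rw [s_conj] at h2
    exact absurd h2 (by simp)

end Cfsg.Agent.Lib.CmaxX.Sp4Std
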