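/-
`Sp₄(3)`: the normaliser of a quadratic field subalgebra of unitary type is not maximal: it lies in `2^{1+4}.A₅`.
-/
import Cfsg.Agent.Lib.CmaxX.Sp4Std
import Cfsg.Agent.Lib.CmaxS.Proper

set_option autoImplicit false
set_option linter.unusedSectionVars false
set_option linter.unusedVariables false
set_option linter.style.haveILetI false

namespace Cfsg.Agent.Lib.CmaxX.Sp4Field

open Matrix Module Cfsg Cfsg.Geo Cfsg.Agent.Lib.Geo.Basic Cfsg.Agent.Lib.Geo.SpBase
open Cfsg.Agent.Lib.CmaxX.Sp4Data Cfsg.Agent.Lib.CmaxX.Sp4Std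
open scoped MatrixGroups

variable {F : Type*} [Field F] [Fintype F]

theorem J_map (ψ : Z3 ≃+* F) : (Jm).map ψ = Matrix.J (Fin 2) F := by
  ext i j
  rcases i with i | i <;> rcases j with j | j <;> fin_cases i <;> fin_cases j <;>
    simp [Jm, Matrix.J]

theorem transfer (ψ : Z3 ≃+* F) (θ : Matrix ι ι F) (P : GL ι F) (hP : P ∈ spGL 2 F)
    (hθ : θ * (P : Matrix ι ι F) = (P : Matrix ι ι F) * Matrix.J (Fin 2) F)
    {H : Subgroup (GL ι F)} (hHI : H ≤ spGL 2 F)
    (hH : ∀ h ∈ H, (h : Matrix ι ι F) * θ = θ * h ∨ (h : Matrix ι ι F) * θ = -(θ * h)) :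
    ∃ Y : Subgroup (GL ι F), H < Y ∧ Y < spGL 2 F := by
  obtain ⟨K₀, h1, h2, ⟨y, hy, hy'⟩, ⟨s, hs, hs'⟩⟩ := Sp4Std.std
  let Ψ : GL ι Z3 ≃* GL ι F := Units.mapEquiv (ψ.mapMatrix (m := ι)).toMulEquiv
  let Ξ : GL ι Z3 ≃* GL ι F := Ψ.trans (MulAut.conj P)
  have hΨ : ∀ g : GL ι Z3, ((Ψ g : GL ι F) : Matrix ι ι F) = (g : Matrix ι ι Z3).map ψ := fun g => rfl
  have hΞ : ∀ g, Ξ g = P * Ψ g * P⁻¹ := fun g => rfl
  set Pi : Matrix ι ι F := ((P⁻¹ : GL ι F) : Matrix ι ι F) with hPidef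
  have hPi : Pi * (P : Matrix ι ι F) = 1 := by
    rw [hPidef, ← Units.val_mul, inv_mul_cancel, Units.val_one]
  have hPi' : (P : Matrix ι ι F) * Pi = 1 := by
    rw [hPidef, ← Units.val_mul, mul_inv_cancel, Units.val_one]
  have hθ' : θ = (P : Matrix ι ι F) * Matrix.J (Fin 2) F * Pi := by
    rw [← hθ, mul_assoc, hPi', mul_one]
  have hΞv : ∀ g, ((Ξ g : GL ι F) : Matrix ι ι F) = (P : Matrix ι ι F) * (g : Matrix ι ι Z3).map ψ * Pi := by
    intro g
    rw [hΞ, Units.val_mul, Units.val_mul, hΨ]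
  have hmapinj : Function.Injective (fun A : Matrix ι ι Z3 => A.map ψ) := Matrix.map_injective ψ.injective
  have hmapmul : ∀ A B : Matrix ι ι Z3, (A * B).map ψ = A.map ψ * B.map ψ := fun A B => Matrix.map_mul
  -- (A)
  have hA : ∀ g, g ∈ spGL 2 Z3 ↔ Ξ g ∈ spGL 2 F := by
    intro g
    rw [hΞ, Subgroup.mul_mem_cancel_right _ (Subgroup.inv_mem _ hP), Subgroup.mul_mem_cancel_left _ hP, mem_sp_iff, mem_sp_iff, hΨ,
      ← J_map ψ, ← Matrix.transpose_map, ← hmapmul, ← hmapmul]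
    exact (hmapinj.eq_iff).symm
  have e1 : ∀ g : GL ι Z3, ((Ξ g : GL ι F) : Matrix ι ι F) * θ = (P : Matrix ι ι F) * ((g : Matrix ι ι Z3) * Jm).map ψ * Pi := by
    intro g
    rw [hΞv, hθ', hmapmul, J_map]
    calc (P : Matrix ι ι F) * (g : Matrix ι ι Z3).map ψ * Pi * ((P : Matrix ι ι F) * Matrix.J (Fin 2) F * Pi)
        = (P : Matrix ι ι F) * (g : Matrix ι ι Z3).map ψ * (Pi * (P : Matrix ι ι F)) * Matrix.J (Fin 2) F * Pi := by
          simp only [mul_assoc]
      _ = _ := by rw [hPi, mul_one]; simp only [mul_assoc]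
  have e2 : ∀ g : GL ι Z3, θ * ((Ξ g : GL ι F) : Matrix ι ι F) = (P : Matrix ι ι F) * (Jm * (g : Matrix ι ι Z3)).map ψ * Pi := by
    intro g
    rw [hΞv, hθ', hmapmul, J_map]
    calc (P : Matrix ι ι F) * Matrix.J (Fin 2) F * Pi * ((P : Matrix ι ι F) * (g : Matrix ι ι Z3).map ψ * Pi)
        = (P : Matrix ι ι F) * Matrix.J (Fin 2) F * (Pi * (P : Matrix ι ι F)) * (g : Matrix ι ι Z3).map ψ * Pi := by
          simp only [mul_assoc]
      _ = _ := by rw [hPi, mul_one]; simp only [mul_assoc]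
  have inj : ∀ A B : Matrix ι ι Z3, (P : Matrix ι ι F) * A.map ψ * Pi = (P : Matrix ι ι F) * B.map ψ * Pi ↔ A = B := by
    intro A B
    constructor
    · intro h
      apply hmapinj
      calc A.map ψ = Pi * (P : Matrix ι ι F) * A.map ψ * (Pi * (P : Matrix ι ι F)) := by rw [hPi, one_mul, mul_one]
        _ = Pi * ((P : Matrix ι ι F) * A.map ψ * Pi) * (P : Matrix ι ι F) := by simp only [mul_assoc]
        _ = Pi * ((P : Matrix ι ι F) * B.map ψ * Pi) * (P : Matrix ι ι F) := by rw [h]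
        _ = Pi * (P : Matrix ι ι F) * B.map ψ * (Pi * (P : Matrix ι ι F)) := by simp only [mul_assoc]
        _ = B.map ψ := by rw [hPi, one_mul, mul_one]
    · rintro rfl
      rfl
  have negm : ∀ B : Matrix ι ι Z3, -((P : Matrix ι ι F) * B.map ψ * Pi) = (P : Matrix ι ι F) * (-B).map ψ * Pi := by
    intro B
    have : (-B).map ψ = -(B.map ψ) := by
      ext i j
      simp
    rw [this, Matrix.mul_neg, Matrix.neg_mul]
  have hB : ∀ g : GL ι Z3, ((Ξ g : GL ι F) : Matrix ι ι F) * θ = θ * ((Ξ g : GL ι F) : Matrix ι ι F) ∨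
      ((Ξ g : GL ι F) : Matrix ι ι F) * θ = -(θ * ((Ξ g : GL ι F) : Matrix ι ι F)) →
      ((g : Matrix ι ι Z3) * Jm = Jm * g ∨ (g : Matrix ι ι Z3) * Jm = -(Jm * g)) := by
    rintro g (h | h)
    · left
      rw [e1, e2] at h
      exact (inj _ _).1 h
    · right
      rw [e1, e2, negm] at h
      exact (inj _ _).1 h
  let Y : Subgroup (GL ι F) := K₀.map Ξ.toMonoidHom
  have hYI : Y ≤ spGL 2 F := by
    rintro _ ⟨k, hk, rfl⟩
    exact (hA k).1 (h1 hk)
  refine ⟨Y, lt_of_le_of_ne ?_ ?_, lt_of_le_of_ne hYI ?_⟩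
  · intro h hh
    refine ⟨Ξ.symm h, ?_, Ξ.apply_symm_apply h⟩
    apply h2
    · rw [hA, Ξ.apply_symm_apply]
      exact hHI hh
    · apply hB
      rw [Ξ.apply_symm_apply]
      exact hH h hh
  · intro he
    have : Ξ y ∈ Y := ⟨y, hy, rfl⟩
    rw [← he] at this
    exact hy' (hB y (hH _ this))
  · intro he
    have : Ξ s ∈ spGL 2 F := (hA s).1 hs
    rw [← he] at this
    obtain ⟨k, hk, hks⟩ := this
    have : k = s := Ξ.injective hks
    exact hs' (this ▸ hk)

theorem pm_of_ne (hF : Fintype.card F = 3) (c : F) (hc : c ≠ 0) : c = 1 ∨ c = -1 := by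
  let ψ : Z3 ≃+* F := FiniteField.ringEquivOfCardEq (by rw [ZMod.card, hF])
  have key : ∀ x : Z3, x = 0 ∨ x = 1 ∨ x = -1 := by decide
  rcases key (ψ.symm c) with h | h | h
  · exact absurd (by simpa using congrArg ψ h) hc
  · left
    simpa using congrArg ψ h
  · right
    simpa using congrArg ψ h

theorem three_zero (hF : Fintype.card F = 3) : (3 : F) = 0 := by
  let ψ : Z3 ≃+* F := FiniteField.ringEquivOfCardEq (by rw [ZMod.card, hF])
  have key : (3 : Z3) = 0 := by decide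
  calc (3 : F) = ψ 3 := (map_ofNat ψ 3).symm
    _ = ψ 0 := by rw [key]
    _ = 0 := map_zero ψ

theorem two_ne (hF : Fintype.card F = 3) : (2 : F) ≠ 0 := by
  intro h
  have h3 := three_zero hF
  have : (1 : F) = 0 := by linear_combination h3 - h
  exact one_ne_zero this

theorem mat_of_form {m : ℕ} (g : Matrix (Fin m ⊕ Fin m) (Fin m ⊕ Fin m) F)
    (h : ∀ u v, sympForm m F (g *ᵥ u) (g *ᵥ v) = sympForm m F u v) : gᵀ * Matrix.J (Fin m) F * g = Matrix.J (Fin m) F := by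
  ext i j
  have h1 := h (Pi.single i 1) (Pi.single j 1)
  rw [form_eq, sympForm] at h1
  simpa [Matrix.mulVec_single_one, single_one_dotProduct] using h1

theorem sympForm_expand (x y : ι → F) : sympForm 2 F x y =
    -(x (Sum.inl 0) * y (Sum.inr 0)) - x (Sum.inl 1) * y (Sum.inr 1) + x (Sum.inr 0) * y (Sum.inl 0) + x (Sum.inr 1) * y (Sum.inl 1) := by
  simp [sympForm, Matrix.mulVec, dotProduct, Matrix.J, Fintype.sum_sum_type, Fin.sum_univ_two, Matrix.one_apply]
  ring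

theorem mulJ_inl (t : Matrix ι ι F) (i : ι) (j : Fin 2) : (t * Matrix.J (Fin 2) F) i (Sum.inl j) = t i (Sum.inr j) := by
  simp [Matrix.mul_apply, Matrix.J, Fintype.sum_sum_type, Fin.sum_univ_two]
  fin_cases j <;> simp [Matrix.one_apply]

theorem mulJ_inr (t : Matrix ι ι F) (i : ι) (j : Fin 2) : (t * Matrix.J (Fin 2) F) i (Sum.inr j) = - t i (Sum.inl j) := by
  simp [Matrix.mul_apply, Matrix.J, Fintype.sum_sum_type, Fin.sum_univ_two]
  fin_cases j <;> simp [Matrix.one_apply]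

section frame

variable {f : (ι → F) → (ι → F) → F}

/-- A vector of norm one in a `θ`-stable set which is not totally isotropic. -/
theorem exists_unit (hF : Fintype.card F = 3) (hf : IsSymplecticForm f) {θ : Matrix ι ι F} (hθ2 : ∀ x, θ *ᵥ (θ *ᵥ x) = -x)
    (hadj : ∀ x y, f (θ *ᵥ x) y = - f x (θ *ᵥ y)) (W : (ι → F) → Prop) (hadd : ∀ x y, W x → W y → W (x + y))
    (hθW : ∀ x, W x → W (θ *ᵥ x)) {w z : ι → F} (hw : W w) (hz : W z) (hwz : f (θ *ᵥ w) z ≠ 0) :
    ∃ u, W u ∧ f (θ *ᵥ u) u = 1 := by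
  have hB := hf.bilinear
  have hsymm : ∀ x y, f (θ *ᵥ x) y = f (θ *ᵥ y) x := by
    intro x y
    rw [hadj, hf.skew x]
    ring
  have h3 := three_zero hF
  have h2 := two_ne hF
  have hx : ∃ x, W x ∧ f (θ *ᵥ x) x ≠ 0 := by
    by_cases h1 : f (θ *ᵥ w) w = 0
    · by_cases h4 : f (θ *ᵥ z) z = 0
      · refine ⟨w + z, hadd _ _ hw hz, ?_⟩
        rw [Matrix.mulVec_add, hB.add_left, hB.add_right, hB.add_right, h1, h4, hsymm z w]
        intro h
        have : 2 * f (θ *ᵥ w) z = 0 := by linear_combination h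
        exact (mul_ne_zero h2 hwz) this
      · exact ⟨z, hz, h4⟩
    · exact ⟨w, hw, h1⟩
  obtain ⟨x, hxW, hx0⟩ := hx
  rcases pm_of_ne hF _ hx0 with h | h
  · exact ⟨x, hxW, h⟩
  · refine ⟨x + θ *ᵥ x, hadd _ _ hxW (hθW _ hxW), ?_⟩
    rw [Matrix.mulVec_add, hθ2, hB.add_left, hB.add_right, hB.add_right, hf.alternating (θ *ᵥ x), h]
    have e1 : f (-x) x = 0 := by
      have : -x = (-1 : F) • x := by simp
      rw [this, hB.smul_left, hf.alternating]
      ring
    have e2 : f (-x) (θ *ᵥ x) = f (θ *ᵥ x) x := by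
      have : -x = (-1 : F) • x := by simp
      rw [this, hB.smul_left, hf.skew x]
      ring
    rw [e1, e2, h]
    linear_combination (-1 : F) * h3

end frame

theorem exists_frame (hF : Fintype.card F = 3) {θ : Matrix ι ι F} (hθ2 : θ * θ = -1)
    (hadj : ∀ x y, sympForm 2 F (θ *ᵥ x) y = - sympForm 2 F x (θ *ᵥ y)) :
    ∃ P : GL ι F, P ∈ spGL 2 F ∧ θ * (P : Matrix ι ι F) = (P : Matrix ι ι F) * Matrix.J (Fin 2) F := by
  classical
  have hf := isSymplecticForm_sympForm (F := F) 2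
  set f := sympForm 2 F with hfdef
  have hB := hf.bilinear
  have hθθ : ∀ x, θ *ᵥ (θ *ᵥ x) = -x := by
    intro x
    rw [Matrix.mulVec_mulVec, hθ2, Matrix.neg_mulVec, Matrix.one_mulVec]
  have hinj : ∀ x, x ≠ 0 → θ *ᵥ x ≠ 0 := by
    intro x hx h
    apply hx
    have := hθθ x
    rw [h, Matrix.mulVec_zero] at this
    simpa using this.symm
  have hneg : ∀ x y, f (-x) y = - f x y := by
    intro x y
    have : -x = (-1 : F) • x := by simp
    rw [this, hB.smul_left]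
    ring
  have hnegr : ∀ x y, f x (-y) = - f x y := by
    intro x y
    have : -y = (-1 : F) • y := by simp
    rw [this, hB.smul_right]
    ring
  have hiso : ∀ x y, f (θ *ᵥ x) (θ *ᵥ y) = f x y := by
    intro x y
    rw [hadj, hθθ, hnegr, neg_neg]
  -- the first vector
  have he : (Pi.single (Sum.inl 0) 1 : ι → F) ≠ 0 := by
    intro h
    have := congrFun h (Sum.inl 0)
    simp at this
  obtain ⟨z₀, hz₀⟩ := (hf.nondegenerate _ (hinj _ he)).2
  obtain ⟨u₀, -, hu₀⟩ := exists_unit hF hf hθθ hadj (fun _ => True) (fun _ _ _ _ => trivial) (fun _ _ => trivial) trivial trivial hz₀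
  -- the second vector
  obtain ⟨w, hw0, hw1, hw2⟩ := Cfsg.Agent.Lib.CmaxS.Proper.exists_perp_pair hf (by simp) u₀ θ
  obtain ⟨z, hz⟩ := (hf.nondegenerate _ (hinj _ hw0)).2
  set β : F := - f z u₀ with hβ
  set α : F := - f (θ *ᵥ z) u₀ with hα
  set z' : ι → F := z + α • u₀ + β • θ *ᵥ u₀ with hz'
  have hθz' : θ *ᵥ z' = θ *ᵥ z + α • θ *ᵥ u₀ - β • u₀ := by
    rw [hz', Matrix.mulVec_add, Matrix.mulVec_add, Matrix.mulVec_smul, Matrix.mulVec_smul, hθθ]
    simp [sub_eq_add_neg]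
  have hz'1 : f z' u₀ = 0 := by
    rw [hz', hB.add_left, hB.add_left, hB.smul_left, hB.smul_left, hf.alternating, hu₀, hβ]
    ring
  have hz'2 : f (θ *ᵥ z') u₀ = 0 := by
    have hsub : ∀ x y v, f (x - y) v = f x v - f y v := by
      intro x y v
      rw [sub_eq_add_neg, hB.add_left, hneg]
      ring
    rw [hθz', hsub, hB.add_left, hB.smul_left, hB.smul_left, hf.alternating, hu₀, hα]
    ring
  have hz'3 : f (θ *ᵥ w) z' ≠ 0 := by
    rw [hz', hB.add_right, hB.add_right, hB.smul_right, hB.smul_right, hiso, hw1, hw2]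
    simpa using hz
  obtain ⟨u₁, ⟨hu₁a, hu₁b⟩, hu₁⟩ := exists_unit hF hf hθθ hadj (fun y => f y u₀ = 0 ∧ f (θ *ᵥ y) u₀ = 0)
    (fun x y hx hy => ⟨by rw [hB.add_left, hx.1, hy.1, add_zero], by rw [Matrix.mulVec_add, hB.add_left, hx.2, hy.2, add_zero]⟩)
    (fun x hx => ⟨hx.2, by rw [hθθ, hneg, hx.1, neg_zero]⟩) ⟨hw1, hw2⟩ ⟨hz'1, hz'2⟩ hz'3
  -- the table
  have t1 : f u₀ (θ *ᵥ u₀) = -1 := by
    rw [hf.skew, hu₀]
  have t2 : f u₁ (θ *ᵥ u₁) = -1 := by
    rw [hf.skew, hu₁]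
  have t3 : f u₀ u₁ = 0 := by
    rw [hf.skew, hu₁a, neg_zero]
  have t4 : f u₁ (θ *ᵥ u₀) = 0 := by
    have := hadj u₁ u₀
    rw [hu₁b] at this
    linear_combination this
  have t5 : f u₀ (θ *ᵥ u₁) = 0 := by
    rw [hf.skew, hu₁b, neg_zero]
  have t6 : f (θ *ᵥ u₀) (θ *ᵥ u₁) = 0 := by
    rw [hiso, t3]
  have t7 : f (θ *ᵥ u₁) (θ *ᵥ u₀) = 0 := by
    rw [hiso, hu₁a]
  have t8 : f (θ *ᵥ u₀) u₁ = 0 := by
    rw [hf.skew, t4, neg_zero]
  have hexp : ∀ x y, f x y = -(x (Sum.inl 0) * y (Sum.inr 0)) - x (Sum.inl 1) * y (Sum.inr 1) + x (Sum.inr 0) * y (Sum.inl 0) +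
      x (Sum.inr 1) * y (Sum.inl 1) := sympForm_expand
  let col : ι → (ι → F) := Sum.elim ![u₀, u₁] ![θ *ᵥ u₀, θ *ᵥ u₁]
  let Pm : Matrix ι ι F := Matrix.of fun i j => col j i
  have hPv : ∀ x, Pm *ᵥ x = x (Sum.inl 0) • u₀ + x (Sum.inl 1) • u₁ + x (Sum.inr 0) • θ *ᵥ u₀ + x (Sum.inr 1) • θ *ᵥ u₁ := by
    intro x
    funext i
    simp [Pm, col, Matrix.mulVec, dotProduct, Fintype.sum_sum_type, Fin.sum_univ_two, mul_comm]
    ring
  have hform : ∀ x y, f (Pm *ᵥ x) (Pm *ᵥ y) = f x y := by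
    intro x y
    rw [hPv, hPv, hexp x y]
    simp only [hB.add_left, hB.add_right, hB.smul_left, hB.smul_right, hf.alternating, t1, t2, t3, t4, t5, t6, t7, t8, hu₀, hu₁, hu₁a, hu₁b]
    ring
  have hmat := mat_of_form Pm hform
  have hinv : (-Matrix.J (Fin 2) F * Pmᵀ * Matrix.J (Fin 2) F) * Pm = 1 := by
    calc (-Matrix.J (Fin 2) F * Pmᵀ * Matrix.J (Fin 2) F) * Pm = -Matrix.J (Fin 2) F * (Pmᵀ * Matrix.J (Fin 2) F * Pm) := by
          simp only [mul_assoc]
      _ = -Matrix.J (Fin 2) F * Matrix.J (Fin 2) F := by rw [hmat]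
      _ = 1 := by rw [Matrix.neg_mul, Matrix.J_squared, neg_neg]
  let P : GL ι F := ⟨Pm, _, mul_eq_one_comm.1 hinv, hinv⟩
  refine ⟨P, (mem_sp_iff P).2 hmat, ?_⟩
  change θ * Pm = Pm * Matrix.J (Fin 2) F
  ext i j
  have hcol : ∀ j, (θ * Pm) i j = (θ *ᵥ col j) i := fun j => rfl
  rw [hcol]
  rcases j with j | j
  · rw [mulJ_inl]
    fin_cases j <;> rfl
  · rw [mulJ_inr]
    fin_cases j
    · change (θ *ᵥ (θ *ᵥ u₀)) i = - u₀ i
      rw [hθθ]
      rfl
    · change (θ *ᵥ (θ *ᵥ u₁)) i = - u₁ i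
      rw [hθθ]
      rfl

/-- The element `θ` of a field subalgebra of unitary type, over the field with three elements. -/
theorem exists_theta (hF : Fintype.card F = 3) {K : Subalgebra F (Matrix ι ι F)} (hK : IsFieldSubalgebra 2 K)
    (hcl : IsAdjointClosedFor (sympForm 2 F) K) (hns : ¬ IsSelfAdjointFor (sympForm 2 F) K) :
    ∃ θ ∈ K, θ * θ = -1 ∧ ∀ x y, sympForm 2 F (θ *ᵥ x) y = - sympForm 2 F x (θ *ᵥ y) := by
  classical
  have hf := isSymplecticForm_sympForm (F := F) 2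
  set f := sympForm 2 F with hfdef
  have hB := hf.bilinear
  have h2 := two_ne hF
  have hsubl : ∀ x y v, f (x - y) v = f x v - f y v := by
    intro x y v
    have : -y = (-1 : F) • y := by simp
    rw [sub_eq_add_neg, hB.add_left, this, hB.smul_left]
    ring
  have hsubr : ∀ x y v, f v (x - y) = f v x - f v y := by
    intro x y v
    have : -y = (-1 : F) • y := by simp
    rw [sub_eq_add_neg, hB.add_right, this, hB.smul_right]
    ring
  simp only [IsSelfAdjointFor, not_forall] at hns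
  obtain ⟨k, hk, u, v, huv⟩ := hns
  obtain ⟨k', hk', hadjk⟩ := hcl k hk
  set θ := k - k' with hθdef
  have hθK : θ ∈ K := K.sub_mem hk hk'
  have hadj : ∀ x y, f (θ *ᵥ x) y = - f x (θ *ᵥ y) := by
    intro x y
    rw [hθdef, Matrix.sub_mulVec, Matrix.sub_mulVec, hsubl, hsubr, hadjk, hf.skew (k' *ᵥ x) y, ← hadjk y x, hf.skew (k *ᵥ y) x]
    ring
  have hθ0 : θ ≠ 0 := by
    intro h
    have hkk : k' = k := (sub_eq_zero.1 h).symm
    apply huv
    have := hadjk u v
    rw [hkk] at this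
    exact this
  have hnd : ∀ a b : F, (∀ x y : ι → F, a * f x y = b * f x y) → a = b := by
    intro a b h
    by_contra hab
    have hex : (Pi.single (Sum.inl 0) 1 : ι → F) ≠ 0 := by
      intro h
      have := congrFun h (Sum.inl 0)
      simp at this
    obtain ⟨z, hz⟩ := (hf.nondegenerate _ hex).2
    exact hz (mul_left_cancel₀ (sub_ne_zero.2 hab) (by linear_combination h _ z))
  have hsc : ∀ c : F, θ ≠ c • 1 := by
    intro c hc
    apply hθ0
    have hc0 : c = 0 := by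
      have h1 : c = -c := hnd _ _ (fun x y => by
        have := hadj x y
        rw [hc, Matrix.smul_mulVec, Matrix.smul_mulVec, Matrix.one_mulVec, Matrix.one_mulVec, hB.smul_left, hB.smul_right] at this
        linear_combination this)
      have h3 : 2 * c = 0 := by linear_combination h1
      exact (mul_eq_zero.1 h3).resolve_left h2
    rw [hc, hc0, zero_smul]
  have hzd : ∀ x ∈ K, ∀ y ∈ K, x * y = 0 → x = 0 ∨ y = 0 := by
    intro x hx y hy hxy
    by_cases h0 : x = 0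
    · exact Or.inl h0
    · right
      obtain ⟨x', hx', h1⟩ := hK.inv x hx h0
      have : x' * x = 1 := by rw [hK.comm x' hx' x hx]; exact h1
      calc y = x' * x * y := by rw [this, one_mul]
        _ = x' * (x * y) := by rw [mul_assoc]
        _ = 0 := by rw [hxy, mul_zero]
  -- the expansion of the square
  have hexp : ∃ a b : F, θ * θ = a • 1 + b • θ := by
    let bs : Fin 2 → K := ![1, ⟨θ, hθK⟩]
    have hli : LinearIndependent F bs := by
      rw [LinearIndependent.pair_iff]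
      intro s t hst
      have h1 : s • (1 : Matrix ι ι F) + t • θ = 0 := by
        have := congrArg (Subtype.val) hst
        simpa using this
      have ht : t = 0 := by
        by_contra ht
        apply hsc (-(t⁻¹ * s))
        have h3 : t • θ = -(s • 1) := eq_neg_of_add_eq_zero_right h1
        have : θ = t⁻¹ • (t • θ) := by rw [smul_smul, inv_mul_cancel₀ ht, one_smul]
        rw [this, h3, smul_neg, smul_smul, neg_smul]
      refine ⟨?_, ht⟩
      rw [ht, zero_smul, add_zero] at h1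
      have hne : (1 : Matrix ι ι F) ≠ 0 := one_ne_zero
      exact (smul_eq_zero.1 h1).resolve_right hne
    have hsp := hli.span_eq_top_of_card_eq_finrank' (by rw [hK.finrank_eq]; simp)
    have hmem : (⟨θ * θ, K.mul_mem hθK hθK⟩ : K) ∈ Submodule.span F (Set.range bs) := by
      rw [hsp]
      trivial
    obtain ⟨c, hc⟩ := (Submodule.mem_span_range_iff_exists_fun F).1 hmem
    refine ⟨c 0, c 1, ?_⟩
    have := congrArg (Subtype.val) hc
    simpa [Fin.sum_univ_two, bs] using this.symm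
  obtain ⟨a, b, hab⟩ := hexp
  have hself : ∀ x y, f ((θ * θ) *ᵥ x) y = f x ((θ * θ) *ᵥ y) := by
    intro x y
    rw [← Matrix.mulVec_mulVec, ← Matrix.mulVec_mulVec, hadj, hadj, neg_neg]
  have hb : b = 0 := by
    by_contra hb
    have hall : ∀ x y, f x (θ *ᵥ y) = 0 := by
      intro x y
      have h3 := hself x y
      rw [hab, Matrix.add_mulVec, Matrix.add_mulVec, Matrix.smul_mulVec, Matrix.smul_mulVec, Matrix.smul_mulVec, Matrix.smul_mulVec,
        Matrix.one_mulVec, Matrix.one_mulVec, hB.add_left, hB.add_right, hB.smul_left, hB.smul_left, hB.smul_right, hB.smul_right, hadj] at h3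
      have h4 : (2 * b) * f x (θ *ᵥ y) = 0 := by linear_combination -h3
      exact (mul_eq_zero.1 h4).resolve_left (mul_ne_zero h2 hb)
    apply hθ0
    apply Matrix.mulVec_injective
    funext y
    rw [Matrix.zero_mulVec]
    by_contra hy
    obtain ⟨z, hz⟩ := (hf.nondegenerate _ hy).1
    exact hz (hall z y)
  rw [hb, zero_smul, add_zero] at hab
  have ha0 : a ≠ 0 := by
    rintro rfl
    rw [zero_smul] at hab
    rcases hzd θ hθK θ hθK hab with h | h <;> exact hθ0 h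
  rcases pm_of_ne hF a ha0 with rfl | rfl
  · exfalso
    have h1 : (θ - 1) * (θ + 1) = 0 := by
      rw [one_smul] at hab
      rw [sub_mul, mul_add, mul_add, hab, mul_one, one_mul, one_mul]
      abel
    rcases hzd _ (K.sub_mem hθK K.one_mem) _ (K.add_mem hθK K.one_mem) h1 with h | h
    · apply hsc 1
      rw [one_smul]
      exact sub_eq_zero.1 h
    · apply hsc (-1)
      rw [neg_smul, one_smul]
      exact eq_neg_of_add_eq_zero_left h
  · refine ⟨θ, hθK, ?_, hadj⟩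
    rw [hab, neg_smul, one_smul]

/-- **The normaliser of a field of unitary type is not maximal in `Sp₄(3)`.** -/
theorem field_not_maximal (hF : Fintype.card F = 3) {K : Subalgebra F (Matrix ι ι F)} (hK : IsFieldSubalgebra 2 K)
    (hcl : IsAdjointClosedFor (sympForm 2 F) K) (hns : ¬ IsSelfAdjointFor (sympForm 2 F) K) :
    ∃ Y : Subgroup (GL ι F), subalgebraNormalizer K ⊓ spGL 2 F < Y ∧ Y < spGL 2 F := by
  classical
  let ψ : Z3 ≃+* F := FiniteField.ringEquivOfCardEq (by rw [ZMod.card, hF])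
  obtain ⟨θ, hθK, hθ2, hadj⟩ := exists_theta hF hK hcl hns
  obtain ⟨P, hP, hθP⟩ := exists_frame hF hθ2 hadj
  refine transfer ψ θ P hP hθP inf_le_right ?_
  rintro h ⟨hN, -⟩
  set hi : Matrix ι ι F := ((h⁻¹ : GL ι F) : Matrix ι ι F) with hhi
  have h1 : (h : Matrix ι ι F) * hi = 1 := by
    rw [hhi, ← Units.val_mul, mul_inv_cancel, Units.val_one]
  have h2 : hi * (h : Matrix ι ι F) = 1 := by
    rw [hhi, ← Units.val_mul, inv_mul_cancel, Units.val_one]
  set τ := (h : Matrix ι ι F) * θ * hi with hτ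
  have hτK : τ ∈ K := (hN θ).1 hθK
  have hτ2 : τ * τ = -1 := by
    calc τ * τ = (h : Matrix ι ι F) * θ * (hi * (h : Matrix ι ι F)) * θ * hi := by rw [hτ]; simp only [mul_assoc]
      _ = (h : Matrix ι ι F) * (θ * θ) * hi := by rw [h2, mul_one]; simp only [mul_assoc]
      _ = -1 := by rw [hθ2, Matrix.mul_neg, Matrix.neg_mul, mul_one, h1]
  have hhτ : (h : Matrix ι ι F) * θ = τ * h := by
    rw [hτ, mul_assoc _ hi, h2, mul_one]
  have hz : (τ - θ) * (τ + θ) = 0 := by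
    rw [sub_mul, mul_add, mul_add, hτ2, hθ2, hK.comm θ hθK τ hτK]
    abel
  have hzd : ∀ x ∈ K, ∀ y ∈ K, x * y = 0 → x = 0 ∨ y = 0 := by
    intro x hx y hy hxy
    by_cases h0 : x = 0
    · exact Or.inl h0
    · right
      obtain ⟨x', hx', h1⟩ := hK.inv x hx h0
      have : x' * x = 1 := by rw [hK.comm x' hx' x hx]; exact h1
      calc y = x' * x * y := by rw [this, one_mul]
        _ = x' * (x * y) := by rw [mul_assoc]
        _ = 0 := by rw [hxy, mul_zero]
  rcases hzd _ (K.sub_mem hτK hθK) _ (K.add_mem hτK hθK) hz with h3 | h3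
  · left
    rw [hhτ, sub_eq_zero.1 h3]
  · right
    rw [hhτ, eq_neg_of_add_eq_zero_left h3, Matrix.neg_mul]

end Cfsg.Agent.Lib.CmaxX.Sp4Field
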