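/-
`Sp₄(3)`: the stabiliser of a pair of totally isotropic planes is not maximal: it preserves a second alternating
form up to scalars.
-/
import Cfsg.Agent.Lib.CmaxS.Master

set_option autoImplicit false
set_option linter.unusedSectionVars false
set_option linter.unusedVariables false
set_option linter.style.haveILetI false

namespace Cfsg.Agent.Lib.CmaxX.Sp4Pair

open Matrix Module Cfsg Cfsg.Geo Cfsg.Agent.Lib.Geo.Basic Cfsg.Agent.Lib.Geo.SympInSL Cfsg.Agent.Lib.Geo.SpBase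
open Cfsg.Agent.Lib.CmaxS.Proper
open scoped MatrixGroups

variable {ι : Type} [Fintype ι] [DecidableEq ι] {F : Type*} [Field F] {f : (ι → F) → (ι → F) → F}

/-- A wedge of two linear functionals. -/
def wedge (f : (ι → F) → (ι → F) → F) (p q x y : ι → F) : F := f x p * f y q - f x q * f y p

theorem wedge_comb (hf : IsSymplecticForm f) {u₀ u₁ v₀ v₁ : ι → F} {c₀₀ c₁₀ c₀₁ c₁₁ : F}
    (h0 : u₀ = c₀₀ • v₀ + c₁₀ • v₁) (h1 : u₁ = c₀₁ • v₀ + c₁₁ • v₁) (x y : ι → F) :
    wedge f u₀ u₁ x y = (c₀₀ * c₁₁ - c₀₁ * c₁₀) * wedge f v₀ v₁ x y := by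
  subst h0 h1
  simp only [wedge, hf.bilinear.add_right, hf.bilinear.smul_right]
  ring

/-- A vector orthogonal to all the members of a decomposition is zero. -/
theorem eq_zero_of_orth (hf : IsSymplecticForm f) {t m : ℕ} {D : Fin t → Submodule F (ι → F)} (hD : IsMDecomposition m D)
    {v : ι → F} (h : ∀ i, ∀ x ∈ D i, f x v = 0) : v = 0 := by
  by_contra hv
  obtain ⟨y, hy⟩ := (hf.nondegenerate v hv).1
  have key : ∀ y, y ∈ iSup D → f y v = 0 := by
    intro y hy'
    induction hy' using Submodule.iSup_induction' with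
    | mem i x hx => exact h i x hx
    | zero => simpa using hf.bilinear.smul_left 0 0 v
    | add a b _ _ ha hb => rw [hf.bilinear.add_left, ha, hb, add_zero]
  apply hy
  apply key
  rw [hD.iSup_eq_top]
  trivial

/-- A dual basis to a pair of complementary isotropic planes. -/
theorem exists_basis (hf : IsSymplecticForm f) {D : Fin 2 → Submodule F (ι → F)} (hD : IsMDecomposition 2 D)
    (hDs : ∀ i, IsTotallySingularFor f (D i)) :
    ∃ a b : Fin 2 → (ι → F), (∀ i, a i ∈ D 0) ∧ (∀ i, b i ∈ D 1) ∧ (∀ i j, f (a i) (b j) = if i = j then 1 else 0) ∧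
      (∀ x ∈ D 0, x = f x (b 0) • a 0 + f x (b 1) • a 1) ∧ (∀ y ∈ D 1, y = f (a 0) y • b 0 + f (a 1) y • b 1) := by
  classical
  have hB := hf.bilinear
  let B := Module.finBasisOfFinrankEq F (D 0) (hD.finrank_eq 0)
  let a : Fin 2 → (ι → F) := fun i => ((B i : D 0) : ι → F)
  have ha : ∀ i, a i ∈ D 0 := fun i => (B i).2
  let L : (D 1) →ₗ[F] (Fin 2 → F) :=
    { toFun := fun y i => f (a i) y.1
      map_add' := fun x y => by
        funext i
        exact hB.add_right _ _ _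
      map_smul' := fun c x => by
        funext i
        exact hB.smul_right _ _ _ }
  have hsum : ∀ x ∈ D 0, ∃ c : Fin 2 → F, x = ∑ i, c i • a i := by
    intro x hx
    refine ⟨fun i => B.repr ⟨x, hx⟩ i, ?_⟩
    have h1 : x = ((∑ i, B.repr ⟨x, hx⟩ i • B i : D 0) : ι → F) := by rw [B.sum_repr]
    refine h1.trans ?_
    rw [Submodule.coe_sum]
    exact Finset.sum_congr rfl fun i _ => rfl
  have hs0 : ∀ y : ι → F, (∀ i, f (a i) y = 0) → y ∈ D 1 → y = 0 := by
    intro y hyi hy1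
    apply eq_zero_of_orth hf hD
    intro i x hx
    fin_cases i
    · obtain ⟨c, rfl⟩ := hsum x hx
      simp only [Fin.sum_univ_two, hB.add_left, hB.smul_left, hyi, mul_zero, add_zero]
    · exact hDs 1 x hx y hy1
  have hinj : Function.Injective L := by
    rw [← LinearMap.ker_eq_bot, LinearMap.ker_eq_bot']
    intro y hy
    have hyi : ∀ i, f (a i) y.1 = 0 := fun i => congrFun hy i
    exact Subtype.ext (hs0 y.1 hyi y.2)
  have hsurj : Function.Surjective L := by
    refine (LinearMap.injective_iff_surjective_of_finrank_eq_finrank ?_).1 hinj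
    rw [hD.finrank_eq 1]
    simp
  have hb : ∀ j : Fin 2, ∃ y : D 1, L y = fun i => if i = j then 1 else 0 := fun j => hsurj _
  choose b hb using hb
  have hd : ∀ i j, f (a i) (b j).1 = if i = j then 1 else 0 := fun i j => congrFun (hb j) i
  refine ⟨a, fun j => (b j).1, ha, fun j => (b j).2, hd, ?_, ?_⟩
  · intro x hx
    obtain ⟨c, rfl⟩ := hsum x hx
    simp only [Fin.sum_univ_two, hB.add_left, hB.smul_left, hd]
    simp
  · intro y hy
    have hm : y - (f (a 0) y • (b 0).1 + f (a 1) y • (b 1).1) ∈ D 1 :=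
      (D 1).sub_mem hy ((D 1).add_mem ((D 1).smul_mem _ (b 0).2) ((D 1).smul_mem _ (b 1).2))
    have h0 := hs0 _ (fun i => ?_) hm
    · exact sub_eq_zero.1 h0
    · have hsub : ∀ x y z : ι → F, f x (y - z) = f x y - f x z := by
        intro x y z
        rw [sub_eq_add_neg, hB.add_right, show -z = (-1 : F) • z by simp, hB.smul_right]
        ring
      rw [hsub, hB.add_right, hB.smul_right, hB.smul_right, hd, hd]
      fin_cases i <;> simp

theorem not_maximal [Finite F] (hf : IsSymplecticForm f) {I : Subgroup (GL ι F)} (S : IsSpGroup hf I)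
    (hfix : ∀ B : F, B ≠ 0 → B * B = 1)
    {D : Fin 2 → Submodule F (ι → F)} (hD : IsMDecomposition 2 D) (hDs : ∀ i, IsTotallySingularFor f (D i)) :
    ∃ K : Subgroup (GL ι F), decompositionStabilizer D ⊓ I < K ∧ K < I := by
  classical
  have hB := hf.bilinear
  obtain ⟨a, b, ha, hb, hab, hexp0, hexp1⟩ := exists_basis hf hD hDs
  set a₀ := a 0 with ha₀
  set a₁ := a 1 with ha₁
  set b₀ := b 0 with hb₀
  set b₁ := b 1 with hb₁
  have haa : ∀ x ∈ D 0, ∀ y ∈ D 0, f x y = 0 := fun x hx y hy => hDs 0 x hx y hy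
  have hbb : ∀ x ∈ D 1, ∀ y ∈ D 1, f x y = 0 := fun x hx y hy => hDs 1 x hx y hy
  have ha₀m : a₀ ∈ D 0 := ha 0
  have ha₁m : a₁ ∈ D 0 := ha 1
  have hb₀m : b₀ ∈ D 1 := hb 0
  have hb₁m : b₁ ∈ D 1 := hb 1
  have a0b0 : f a₀ b₀ = 1 := by simpa using hab 0 0
  have a0b1 : f a₀ b₁ = 0 := by simpa using hab 0 1
  have a1b0 : f a₁ b₀ = 0 := by simpa using hab 1 0
  have a1b1 : f a₁ b₁ = 1 := by simpa using hab 1 1
  have b0a0 : f b₀ a₀ = -1 := by rw [hf.skew, a0b0]
  have b0a1 : f b₀ a₁ = 0 := by rw [hf.skew, a1b0, neg_zero]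
  have b1a0 : f b₁ a₀ = 0 := by rw [hf.skew, a0b1, neg_zero]
  have b1a1 : f b₁ a₁ = -1 := by rw [hf.skew, a1b1]
  have a0a0 : f a₀ a₀ = 0 := hf.alternating _
  have a1a1 : f a₁ a₁ = 0 := hf.alternating _
  have b0b0 : f b₀ b₀ = 0 := hf.alternating _
  have b1b1 : f b₁ b₁ = 0 := hf.alternating _
  have a0a1 : f a₀ a₁ = 0 := haa _ ha₀m _ ha₁m
  have a1a0 : f a₁ a₀ = 0 := haa _ ha₁m _ ha₀m
  have b0b1 : f b₀ b₁ = 0 := hbb _ hb₀m _ hb₁m
  have b1b0 : f b₁ b₀ = 0 := hbb _ hb₁m _ hb₀m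
  -- the form
  let ω : (ι → F) → (ι → F) → F := fun x y => wedge f b₀ b₁ x y + wedge f a₀ a₁ x y
  have hK : decompositionStabilizer D ⊓ I ≤ similarityGroup ω ⊓ I := by
    rintro g ⟨hg1, hg2⟩
    refine ⟨?_, hg2⟩
    have hgI := (S.mem_iff g).1 hg2
    set h := g⁻¹ with hh
    have hhI := (S.mem_iff h).1 (I.inv_mem hg2)
    have hadj : ∀ x y, f ((g : Matrix _ _ F) *ᵥ x) y = f x ((h : Matrix _ _ F) *ᵥ y) := by
      intro x y
      have h1 := hgI x ((h : Matrix _ _ F) *ᵥ y)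
      rw [Matrix.mulVec_mulVec, ← Units.val_mul, hh, mul_inv_cancel, Units.val_one, Matrix.one_mulVec] at h1
      exact h1
    have hwedge : ∀ p q x y, wedge f p q ((g : Matrix _ _ F) *ᵥ x) ((g : Matrix _ _ F) *ᵥ y) =
        wedge f ((h : Matrix _ _ F) *ᵥ p) ((h : Matrix _ _ F) *ᵥ q) x y := by
      intro p q x y
      simp only [wedge, hadj]
    obtain ⟨τ, hτ⟩ := (Subgroup.inv_mem _ hg1 : h ∈ decompositionStabilizer D)
    have hτ' : ∀ i, ∀ x ∈ D i, (h : Matrix _ _ F) *ᵥ x ∈ D (τ i) := by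
      intro i x hx
      rw [← hτ i]
      exact ⟨x, hx, rfl⟩
    have hfin : ∀ P R : F, P * R = 1 → P = R ∧ R ≠ 0 := by
      intro P R h2
      have hR : R ≠ 0 := right_ne_zero_of_mul_eq_one h2
      have h4 := hfix R hR
      have h5 : P = R := by
        calc P = P * (R * R) := by rw [h4, mul_one]
          _ = (P * R) * R := by ring
          _ = R := by rw [h2, one_mul]
      exact ⟨h5, hR⟩
    have hτ0 : (τ 0 = 0 ∧ τ 1 = 1) ∨ (τ 0 = 1 ∧ τ 1 = 0) := by
      have hinj := τ.injective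
      have h01 : τ 0 ≠ τ 1 := fun h => absurd (hinj h) (by decide)
      have hall : ∀ x y : Fin 2, x ≠ y → (x = 0 ∧ y = 1) ∨ (x = 1 ∧ y = 0) := by decide
      exact hall _ _ h01
    have hform : ∀ c₀ c₁ d₀ d₁ : F, f (c₀ • a₀ + c₁ • a₁) (d₀ • b₀ + d₁ • b₁) = c₀ * d₀ + c₁ * d₁ := by
      intro c₀ c₁ d₀ d₁
      simp only [hB.add_left, hB.smul_left, hB.add_right, hB.smul_right, a0b0, a0b1, a1b0, a1b1]
      ring
    rcases hτ0 with ⟨ht0, ht1⟩ | ⟨ht0, ht1⟩
    · -- no swap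
      have m0 : ∀ x ∈ D 0, (h : Matrix _ _ F) *ᵥ x ∈ D 0 := fun x hx => by
        have := hτ' 0 x hx
        rwa [ht0] at this
      have m1 : ∀ x ∈ D 1, (h : Matrix _ _ F) *ᵥ x ∈ D 1 := fun x hx => by
        have := hτ' 1 x hx
        rwa [ht1] at this
      have ea0 := hexp0 _ (m0 a₀ ha₀m)
      have ea1 := hexp0 _ (m0 a₁ ha₁m)
      have eb0 := hexp1 _ (m1 b₀ hb₀m)
      have eb1 := hexp1 _ (m1 b₁ hb₁m)
      set p00 := f ((h : Matrix _ _ F) *ᵥ a₀) b₀
      set p10 := f ((h : Matrix _ _ F) *ᵥ a₀) b₁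
      set p01 := f ((h : Matrix _ _ F) *ᵥ a₁) b₀
      set p11 := f ((h : Matrix _ _ F) *ᵥ a₁) b₁
      set r00 := f a₀ ((h : Matrix _ _ F) *ᵥ b₀)
      set r10 := f a₁ ((h : Matrix _ _ F) *ᵥ b₀)
      set r01 := f a₀ ((h : Matrix _ _ F) *ᵥ b₁)
      set r11 := f a₁ ((h : Matrix _ _ F) *ᵥ b₁)
      have e00 : p00 * r00 + p10 * r10 = 1 := by
        rw [← hform, ← ea0, ← eb0, hhI, a0b0]
      have e01 : p00 * r01 + p10 * r11 = 0 := by
        rw [← hform, ← ea0, ← eb1, hhI, a0b1]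
      have e10 : p01 * r00 + p11 * r10 = 0 := by
        rw [← hform, ← ea1, ← eb0, hhI, a1b0]
      have e11 : p01 * r01 + p11 * r11 = 1 := by
        rw [← hform, ← ea1, ← eb1, hhI, a1b1]
      have hPR : (p00 * p11 - p01 * p10) * (r00 * r11 - r01 * r10) = 1 := by
        linear_combination (p01 * r01 + p11 * r11) * e00 + e11 - (p01 * r00 + p11 * r10) * e01
      obtain ⟨h1, h3⟩ := hfin _ _ hPR
      refine ⟨Units.mk0 _ h3, fun x y => ?_⟩
      simp only [ω, Units.val_mk0]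
      rw [hwedge, hwedge, wedge_comb hf eb0 eb1, wedge_comb hf ea0 ea1, h1]
      ring
    · -- swap
      have m0 : ∀ x ∈ D 0, (h : Matrix _ _ F) *ᵥ x ∈ D 1 := fun x hx => by
        have := hτ' 0 x hx
        rwa [ht0] at this
      have m1 : ∀ x ∈ D 1, (h : Matrix _ _ F) *ᵥ x ∈ D 0 := fun x hx => by
        have := hτ' 1 x hx
        rwa [ht1] at this
      have ea0 := hexp1 _ (m0 a₀ ha₀m)
      have ea1 := hexp1 _ (m0 a₁ ha₁m)
      have eb0 := hexp0 _ (m1 b₀ hb₀m)
      have eb1 := hexp0 _ (m1 b₁ hb₁m)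
      set r00 := f a₀ ((h : Matrix _ _ F) *ᵥ a₀)
      set r10 := f a₁ ((h : Matrix _ _ F) *ᵥ a₀)
      set r01 := f a₀ ((h : Matrix _ _ F) *ᵥ a₁)
      set r11 := f a₁ ((h : Matrix _ _ F) *ᵥ a₁)
      set p00 := f ((h : Matrix _ _ F) *ᵥ b₀) b₀
      set p10 := f ((h : Matrix _ _ F) *ᵥ b₀) b₁
      set p01 := f ((h : Matrix _ _ F) *ᵥ b₁) b₀
      set p11 := f ((h : Matrix _ _ F) *ᵥ b₁) b₁
      have e00 : p00 * r00 + p10 * r10 = -1 := by
        rw [← hform, ← ea0, ← eb0, hhI, b0a0]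
      have e01 : p00 * r01 + p10 * r11 = 0 := by
        rw [← hform, ← ea1, ← eb0, hhI, b0a1]
      have e10 : p01 * r00 + p11 * r10 = 0 := by
        rw [← hform, ← ea0, ← eb1, hhI, b1a0]
      have e11 : p01 * r01 + p11 * r11 = -1 := by
        rw [← hform, ← ea1, ← eb1, hhI, b1a1]
      have hPR : (p00 * p11 - p01 * p10) * (r00 * r11 - r01 * r10) = 1 := by
        linear_combination (p01 * r01 + p11 * r11) * e00 - e11 - (p01 * r00 + p11 * r10) * e01
      obtain ⟨h1, h3⟩ := hfin _ _ hPR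
      refine ⟨Units.mk0 _ h3, fun x y => ?_⟩
      simp only [ω, Units.val_mk0]
      rw [hwedge, hwedge, wedge_comb hf eb0 eb1, wedge_comb hf ea0 ea1, h1]
      ring
  -- the two transvections
  set v : ι → F := a₀ + b₁ with hv
  have hωv : ∀ x, ω x v = - f x v := by
    intro x
    have hf1 : f x v = f x a₀ + f x b₁ := by
      rw [hv, hB.add_right]
    have e1 : f v b₀ = 1 := by
      rw [hv, hB.add_left, a0b0, b1b0, add_zero]
    have e2 : f v b₁ = 0 := by
      rw [hv, hB.add_left, a0b1, b1b1, add_zero]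
    have e3 : f v a₀ = 0 := by
      rw [hv, hB.add_left, a0a0, b1a0, add_zero]
    have e4 : f v a₁ = -1 := by
      rw [hv, hB.add_left, a0a1, b1a1, zero_add]
    simp only [ω, wedge, e1, e2, e3, e4]
    rw [hf1]
    ring
  have hωa : ∀ x y, ω x y = - ω y x := by
    intro x y
    simp only [ω, wedge]
    ring
  have hωal : ∀ x y z, ω (x + y) z = ω x z + ω y z := by
    intro x y z
    simp only [ω, wedge, hB.add_left]
    ring
  have hωsl : ∀ (c : F) x z, ω (c • x) z = c * ω x z := by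
    intro c x z
    simp only [ω, wedge, hB.smul_left]
    ring
  have hωar : ∀ x y z, ω x (y + z) = ω x y + ω x z := by
    intro x y z
    simp only [ω, wedge, hB.add_left]
    ring
  have hωsr : ∀ (c : F) x z, ω x (c • z) = c * ω x z := by
    intro c x z
    simp only [ω, wedge, hB.smul_left]
    ring
  have hωself : ∀ x, ω x x = 0 := by
    intro x
    simp only [ω, wedge]
    ring
  have hLt : decompositionStabilizer D ⊓ I < similarityGroup ω ⊓ I := by
    refine lt_of_le_of_ne hK ?_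
    intro he
    have ht : sympT hf v 1 ∈ similarityGroup ω ⊓ I := by
      refine ⟨⟨1, fun x y => ?_⟩, sympT_mem_I S v 1⟩
      rw [sympT_mulVec, sympT_mulVec, smul_smul, smul_smul]
      simp only [hωal, hωar, hωsl, hωsr, hωself, hωv, Units.val_one]
      rw [hωa v y, hωv]
      ring
    rw [← he] at ht
    obtain ⟨τ, hτ⟩ := ht.1
    have h1 : (sympT hf v 1 : Matrix _ _ F) *ᵥ a₁ ∈ D (τ 0) := by
      rw [← hτ 0]
      exact ⟨a₁, ha₁m, rfl⟩
    rw [sympT_mulVec] at h1
    set y : ι → F := a₁ + f a₁ v • (1 : F) • v with hy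
    have hfa : f a₁ v = 1 := by
      rw [hv, hB.add_right, a1a0, a1b1, zero_add]
    have e1 : f y a₁ = -1 := by
      rw [hy, hB.add_left, hB.smul_left, hB.smul_left, a1a1, hfa, hv, hB.add_left, a0a1, b1a1]
      ring
    have e2 : f y b₁ = 1 := by
      rw [hy, hB.add_left, hB.smul_left, hB.smul_left, a1b1, hfa, hv, hB.add_left, a0b1, b1b1]
      ring
    generalize τ 0 = t at h1
    fin_cases t
    · have := haa y h1 a₁ ha₁m
      rw [e1] at this
      exact one_ne_zero (neg_eq_zero.1 this)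
    · have := hbb y h1 b₁ hb₁m
      rw [e2] at this
      exact one_ne_zero this
  have hLt2 : similarityGroup ω ⊓ I < I := by
    refine lt_of_le_of_ne inf_le_right ?_
    intro he
    have ht : sympT hf a₀ 1 ∈ similarityGroup ω ⊓ I := by
      rw [he]
      exact sympT_mem_I S a₀ 1
    obtain ⟨⟨κ, hκ⟩, -⟩ := ht
    have h1 := hκ b₀ a₁
    rw [sympT_mulVec, sympT_mulVec, a1a0, b0a0] at h1
    simp only [zero_smul, add_zero, one_smul, neg_smul] at h1
    have e1 : ω a₀ a₁ = 1 := by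
      simp only [ω, wedge, a0b0, a0b1, a1b0, a1b1, a0a0, a0a1, a1a0, a1a1]
      ring
    have e2 : ω b₀ a₁ = 0 := by
      simp only [ω, wedge, a1b0, a1b1, b0a0, b0a1, b0b0, b0b1, a1a0, a1a1]
      ring
    have e3 : ω (b₀ + -a₀) a₁ = -1 := by
      have : (b₀ + -a₀) = b₀ + (-1 : F) • a₀ := by simp
      rw [this, hωal, hωsl, e1, e2]
      ring
    rw [e3, e2, mul_zero] at h1
    exact one_ne_zero (neg_eq_zero.1 h1)
  exact ⟨_, hLt, hLt2⟩

end Cfsg.Agent.Lib.CmaxX.Sp4Pair
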