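/-
The list of maximal subgroups of `Sp₄(q)`, `q` odd, given Aschbacher's theorem for the symplectic groups.
-/
import Cfsg.Agent.Lib.CmaxS.Master
import Cfsg.Agent.Lib.CmaxS.Arith
import Cfsg.Agent.Lib.CmaxX.Sp4Pair
import Cfsg.Agent.Lib.CmaxX.Sp4Field

set_option autoImplicit false
set_option linter.unusedVariables false
set_option maxHeartbeats 1000000

namespace Cfsg.Agent.Lib.CmaxX.RowS4

universe u_1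

theorem s5787 {F : Type*} [Field F] [Fintype F] (hodd : Odd (Fintype.card F)) (H : Subgroup (Matrix.GeneralLinearGroup (Fin 2 ⊕ Fin 2) F)) (hH : Cfsg.Geo.IsMaximalIn (Cfsg.spGL 2 F) H)
    (hA : (∃ M, Cfsg.Geo.InSymplecticClass 2 F M ∧ H ≤ M) ∨ Cfsg.Geo.InSymplecticResidualClass H) :
    (∃ W : Submodule F (Fin 2 ⊕ Fin 2 → F), W ≠ ⊥ ∧ Cfsg.Geo.IsTotallySingularFor (Cfsg.sympForm 2 F) W ∧ H = Cfsg.Geo.subspaceStabilizer W ⊓ Cfsg.spGL 2 F) ∨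
    (∃ D : Fin 2 → Submodule F (Fin 2 ⊕ Fin 2 → F), Cfsg.Geo.IsNondegenerateMDecomposition (Cfsg.sympForm 2 F) 2 D ∧ H = Cfsg.Geo.decompositionStabilizer D ⊓ Cfsg.spGL 2 F) ∨
    (5 ≤ Fintype.card F ∧ ∃ D : Fin 2 → Submodule F (Fin 2 ⊕ Fin 2 → F), Cfsg.Geo.IsMDecomposition 2 D ∧ (∀ i, Cfsg.Geo.IsTotallySingularFor (Cfsg.sympForm 2 F) (D i)) ∧ H = Cfsg.Geo.decompositionStabilizer D ⊓ Cfsg.spGL 2 F) ∨
    (∃ K : Subalgebra F (Matrix (Fin 2 ⊕ Fin 2) (Fin 2 ⊕ Fin 2) F), Cfsg.Geo.IsFieldSubalgebra 2 K ∧ Cfsg.Geo.IsSelfAdjointFor (Cfsg.sympForm 2 F) K ∧ (∀ k ∈ K, ∀ v : (Fin 2 ⊕ Fin 2 → F), (Cfsg.sympForm 2 F) (Matrix.mulVec k v) v = 0) ∧ H = Cfsg.Geo.subalgebraNormalizer K ⊓ Cfsg.spGL 2 F) ∨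
    (5 ≤ Fintype.card F ∧ ∃ K : Subalgebra F (Matrix (Fin 2 ⊕ Fin 2) (Fin 2 ⊕ Fin 2) F), Cfsg.Geo.IsFieldSubalgebra 2 K ∧ Cfsg.Geo.IsAdjointClosedFor (Cfsg.sympForm 2 F) K ∧ ¬ Cfsg.Geo.IsSelfAdjointFor (Cfsg.sympForm 2 F) K ∧ H = Cfsg.Geo.subalgebraNormalizer K ⊓ Cfsg.spGL 2 F) ∨
    (∃ (F₀ : Subfield F) (r : ℕ) (P : Matrix.GeneralLinearGroup (Fin 2 ⊕ Fin 2) F) (ζ : F), r.Prime ∧ Fintype.card F = Nat.card F₀ ^ r ∧ ζ ≠ 0 ∧ Cfsg.Geo.IsFormRationalStructure (Cfsg.sympForm 2 F) F₀ ζ P ∧ H = Cfsg.Geo.subfieldSubgroup F₀ P ⊓ Cfsg.spGL 2 F) ∨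
    (∃ (p : ℕ) (R : Subgroup (Matrix.GeneralLinearGroup (Fin 2 ⊕ Fin 2) F)), p.Prime ∧ Fintype.card F = p ∧ Cfsg.Geo.IsSymplecticTypeGroup 2 R ∧ Cfsg.Geo.ActsAbsolutelyIrreducibly (Cfsg.Geo.matrixSet R) ∧ R ≤ Cfsg.Geo.similarityGroup (Cfsg.sympForm 2 F) ∧ Nat.card R = 32 ∧ Nat.card (Subgroup.center R) = 2 ∧ Cfsg.Geo.IsOfMinusType 2 R ∧ H = Cfsg.Geo.subgroupNormalizer R ⊓ Cfsg.spGL 2 F) ∨
    Cfsg.Geo.InSymplecticResidualClass H := by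
  have hc2 : 2 ≤ Fintype.card F := Fintype.one_lt_card
  have hc3 : 3 ≤ Fintype.card F := by
    obtain ⟨a, ha⟩ := hodd
    omega
  have h35 : Fintype.card F ≠ 3 → 5 ≤ Fintype.card F := by
    intro h
    obtain ⟨a, ha⟩ := hodd
    omega
  have hq : (2 : ℕ) = 2 → 3 ≤ Fintype.card F := fun _ => hc3
  rcases Cfsg.Agent.Lib.CmaxS.Master.master (by norm_num) hq H hH hA with
    ⟨W, h0, hW, hE⟩ | ⟨W, h0, hW, hlt, hE⟩ | ⟨t, k, D, hD, htk, hev, hk2, hE⟩ | ⟨D, hodd', hD, hDs, hE⟩ |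
    ⟨r, K, hr, hrm, hK, hsa, halt, hE⟩ | ⟨K, hodd', hK, hcl, hns, hE⟩ |
    ⟨n₁, n₂, e, P, f₁, f₂, hodd', hn₂, hcn, hev, hn₁, hq5, hf₁, hf₂, hT, hE⟩ |
    ⟨k, t, e, P, f₁, hodd', htodd, ht3, hcn, hev, hne, hf₁, hT, hE⟩ |
    ⟨F₀, r, P, ζ, hr, hc, hζ, hrat, hE⟩ |
    ⟨R, p, k, hR, hRA, hRs, hp, hpo, hpc, hRc, hZc, hmin, h2k, hE⟩ |
    ⟨Q, heven', hQ, hpol, hE⟩ | hres
  · exact Or.inl ⟨W, h0, hW, hE⟩
  · exact (Cfsg.Agent.Lib.CmaxS.Arith.nondeg_small (Cfsg.Agent.Lib.Geo.SpBase.isSymplecticForm_sympForm (F := F) 2) h0 hW (by omega)).elim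
  · obtain ⟨rfl, rfl⟩ := Cfsg.Agent.Lib.CmaxS.Arith.tk_2 htk hev hD.decomp.two_le
    exact Or.inr <| Or.inl ⟨D, hD, hE⟩
  · by_cases h3 : Fintype.card F = 3
    · exact (Cfsg.Agent.Lib.CmaxS.Master.no_between hH hE
        (Cfsg.Agent.Lib.CmaxX.Sp4Pair.not_maximal (Cfsg.Agent.Lib.Geo.SpBase.isSymplecticForm_sympForm (F := F) 2)
          (Cfsg.Agent.Lib.Geo.SpBase.isSpGroup_spGL (F := F) 2)
          (fun B hB => by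
            rcases Cfsg.Agent.Lib.CmaxX.Sp4Field.pm_of_ne h3 B hB with rfl | rfl <;> ring)
          hD hDs)).elim
    · exact Or.inr <| Or.inr <| Or.inl ⟨h35 h3, D, hD, hDs, hE⟩
  · obtain rfl : r = 2 := (Nat.prime_dvd_prime_iff_eq hr Nat.prime_two).1 hrm
    exact Or.inr <| Or.inr <| Or.inr <| Or.inl ⟨K, hK, hsa, halt, hE⟩
  · by_cases h3 : Fintype.card F = 3
    · exact (Cfsg.Agent.Lib.CmaxS.Master.no_between hH hE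
        (Cfsg.Agent.Lib.CmaxX.Sp4Field.field_not_maximal h3 hK hcl hns)).elim
    · exact Or.inr <| Or.inr <| Or.inr <| Or.inr <| Or.inl ⟨h35 h3, K, hK, hcl, hns, hE⟩
  · exact (Cfsg.Agent.Lib.CmaxS.Arith.tens_2 hcn hev hn₁ hn₂).elim
  · exact (Cfsg.Agent.Lib.CmaxS.Arith.wr_4 hcn hev ht3).elim
  · exact Or.inr <| Or.inr <| Or.inr <| Or.inr <| Or.inr <| Or.inl ⟨F₀, r, P, ζ, hr, hc, hζ, hrat, hE⟩
  · obtain rfl := Cfsg.Agent.Lib.CmaxS.Arith.pw_4 h2k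
    exact Or.inr <| Or.inr <| Or.inr <| Or.inr <| Or.inr <| Or.inr <| Or.inl ⟨p, R, hp, hpc, hR, hRA, hRs, by rw [hRc]; norm_num, hZc, hmin, hE⟩
  · exact absurd hodd heven'
  · exact Or.inr <| Or.inr <| Or.inr <| Or.inr <| Or.inr <| Or.inr <| Or.inr <| hres

end Cfsg.Agent.Lib.CmaxX.RowS4
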