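/-
`Sp₂(q) ⊗ O₄⁺(q)` in `Sp₈(q)`, `q` odd, is not maximal: it stabilises the set of pure tensors of three factors.
-/
import Cfsg.Agent.Lib.CmaxS.Master
import Cfsg.Agent.Lib.NotMax.Tensor

set_option autoImplicit false
set_option linter.unusedSectionVars false
set_option linter.unusedVariables false
set_option linter.style.haveILetI false

namespace Cfsg.Agent.Lib.CmaxX.Sp8

open Matrix Module Cfsg Cfsg.Geo Cfsg.Agent.Lib.Geo.Basic Cfsg.Agent.Lib.Geo.SympInSL Cfsg.Agent.Lib.Geo.SpBase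
open Cfsg.Agent.Lib.NotMax.Tensor Cfsg.Agent.Lib.NotMax.SetStab
open scoped MatrixGroups Kronecker

variable {F : Type*} [Field F]

theorem two_ne_zero_of_odd [Fintype F] (hodd : Odd (Fintype.card F)) : (2 : F) ≠ 0 := by
  intro h
  have hF : ringChar F = 2 := by
    haveI : CharP F 2 := by
      obtain ⟨p, hp⟩ := CharP.exists F
      have h3 : ((2 : ℕ) : F) = 0 := by exact_mod_cast h
      have h4 := (CharP.cast_eq_zero_iff F p 2).1 h3
      have h5 : p.Prime := CharP.char_is_prime F p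
      have h6 : p = 2 := (Nat.prime_dvd_prime_iff_eq h5 Nat.prime_two).1 h4
      rw [h6] at hp
      exact hp
    exact ringChar.eq F 2
  have h7 := FiniteField.even_card_of_char_two hF
  rw [Nat.odd_iff] at hodd
  omega

/-- The Gram matrix of the two-dimensional alternating form. -/
def omegaZ : Fin 2 → Fin 2 → ℤ := ![![0, 1], ![-1, 0]]

/-- The Gram matrix of the tensor square of the alternating form. -/
def gZ : Fin 4 → Fin 4 → ℤ := ![![0, 0, 0, 1], ![0, 0, -1, 0], ![0, -1, 0, 0], ![1, 0, 0, 0]]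

/-- The cyclic permutation of the three tensor factors of `Fin 2 × (Fin 2 × Fin 2)`. -/
def tau : Equiv.Perm (Fin 2 × Fin 4) where
  toFun a := (⟨a.2.val % 2, by omega⟩, ⟨2 * a.1.val + a.2.val / 2, by omega⟩)
  invFun a := (⟨a.2.val / 2, by omega⟩, ⟨2 * (a.2.val % 2) + a.1.val, by omega⟩)
  left_inv := by decide
  right_inv := by decide

theorem tau_inv : ∀ a b : Fin 2 × Fin 4, omegaZ (tau a).1 (tau b).1 * gZ (tau a).2 (tau b).2 =
    omegaZ a.1 b.1 * gZ a.2 b.2 := by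
  decide

/-- Rank one tensors. -/
def pure2 (b d : Fin 2 → F) : Fin 4 → F := ![b 0 * d 0, b 0 * d 1, b 1 * d 0, b 1 * d 1]

theorem pure_tau (x b d : Fin 2 → F) (a : Fin 2 × Fin 4) :
    pureT x (pure2 b d) (tau a) = pureT b (pure2 d x) a := by
  rcases a with ⟨i, j⟩
  fin_cases i <;> fin_cases j <;> simp [pureT, pure2, tau] <;> ring

theorem exists_pure2 (y : Fin 4 → F) (h : y 0 * y 3 = y 1 * y 2) : ∃ b d : Fin 2 → F, y = pure2 b d := by
  by_cases h0 : y 0 = 0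
  · by_cases h1 : y 1 = 0
    · refine ⟨![0, 1], ![y 2, y 3], ?_⟩
      funext j
      fin_cases j <;> simp [pure2, h0, h1]
    · have h2 : y 2 = 0 := by
        have : y 1 * y 2 = 0 := by rw [← h, h0, zero_mul]
        exact (mul_eq_zero.1 this).resolve_left h1
      refine ⟨![1, y 3 / y 1], ![0, y 1], ?_⟩
      funext j
      fin_cases j <;> simp [pure2, h0, h2]
      field_simp
  · refine ⟨![y 0, y 2], ![1, y 1 / y 0], ?_⟩
    funext j
    fin_cases j <;> simp [pure2]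
    · field_simp
    · field_simp
      linear_combination h

/-- Linear functionals are represented by a non-degenerate form. -/
theorem exists_rep {κ : Type} [Fintype κ] [DecidableEq κ] {f : (κ → F) → (κ → F) → F} (hb : IsBilinearForm f)
    (hn : IsNondegenerateForm f) (φ : (κ → F) →ₗ[F] F) : ∃ v, ∀ x, φ x = f x v := by
  let L : (κ → F) →ₗ[F] Module.Dual F (κ → F) :=
    { toFun := fun v =>
        { toFun := fun x => f x v
          map_add' := fun x y => hb.add_left x y v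
          map_smul' := fun c x => by simpa using hb.smul_left c x v }
      map_add' := fun v w => LinearMap.ext fun x => by
        simpa using hb.add_right x v w
      map_smul' := fun c v => LinearMap.ext fun x => by
        simpa using hb.smul_right c x v }
  have hinj : Function.Injective L := by
    rw [← LinearMap.ker_eq_bot, LinearMap.ker_eq_bot']
    intro v hv
    by_contra h0
    obtain ⟨⟨x, hx⟩, -⟩ := hn v h0
    apply hx
    have := congrArg (fun l : Module.Dual F (κ → F) => l x) hv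
    simpa [L] using this
  have hsurj : Function.Surjective L := by
    refine (LinearMap.injective_iff_surjective_of_finrank_eq_finrank ?_).1 hinj
    exact (Subspace.dual_finrank_eq).symm
  obtain ⟨v, hv⟩ := hsurj φ
  refine ⟨v, fun x => ?_⟩
  rw [← hv]
  rfl

/-- Dual vectors to a pair of independent vectors. -/
theorem exists_dual {κ : Type} [Fintype κ] [DecidableEq κ] {f : (κ → F) → (κ → F) → F} (hb : IsBilinearForm f)
    (hn : IsNondegenerateForm f) {a b : κ → F} (hab : a ∉ Submodule.span F {b}) :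
    ∃ v, f a v = 1 ∧ f b v = 0 := by
  obtain ⟨φ, h1, h2⟩ := Submodule.exists_dual_map_eq_bot_of_notMem hab inferInstance
  have hb0 : φ b = 0 := by
    have : φ b ∈ (Submodule.span F {b}).map φ :=
      Submodule.mem_map_of_mem (Submodule.mem_span_singleton_self b)
    rw [h2] at this
    simpa using this
  obtain ⟨v, hv⟩ := exists_rep hb hn ((φ a)⁻¹ • φ)
  refine ⟨v, ?_, ?_⟩
  · rw [← hv]
    simp [h1]
  · rw [← hv]
    simp [hb0]

/-- A hyperbolic basis for a symmetric form of plus type in four variables. -/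
theorem exists_hyp (h2 : (2 : F) ≠ 0) {f₂ : (Fin 4 → F) → (Fin 4 → F) → F} (hf₂ : IsSymmetricForm f₂)
    (hplus : IsPlusTypeOn (fun v => f₂ v v) ⊤) [Finite F] :
    ∃ u : Fin 4 → (Fin 4 → F), ∀ i j, f₂ (u i) (u j) = (gZ i j : F) := by
  obtain ⟨U, -, hU, hd⟩ := hplus
  have hB := hf₂.bilinear
  have hfr : finrank F U = 2 := by
    rw [finrank_top] at hd
    simp at hd
    omega
  let B := Module.finBasisOfFinrankEq F U hfr
  have hli := B.linearIndependent
  set a : Fin 4 → F := ((B 0 : U) : Fin 4 → F) with ha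
  set b : Fin 4 → F := ((B 1 : U) : Fin 4 → F) with hb
  have haU : a ∈ U := (B 0).2
  have hbU : b ∈ U := (B 1).2
  have hz : ∀ v, f₂ 0 v = 0 := fun v => by simpa using hB.smul_left 0 0 v
  have hzr : ∀ v, f₂ v 0 = 0 := fun v => by simpa using hB.smul_right 0 v 0
  have haa : f₂ a a = 0 := hU a haU
  have hbb : f₂ b b = 0 := hU b hbU
  have hab : f₂ a b = 0 := by
    have h1 := hU (a + b) (U.add_mem haU hbU)
    simp only [hB.add_left, hB.add_right, haa, hbb, hf₂.symm b a] at h1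
    have : (2 : F) * f₂ a b = 0 := by linear_combination h1
    exact (mul_eq_zero.1 this).resolve_left h2
  have hnd : ∀ i : Fin 2, ∀ c : F, ((B i : Fin 4 → F)) ≠ c • ((B (1 - i)) : Fin 4 → F) := by
    intro i c h
    have h3 : (B i) = c • (B (1 - i)) := Subtype.ext h
    have hne : i ≠ 1 - i := by
      fin_cases i <;> decide
    have := hli.ne_zero
    have h4 := (Fintype.linearIndependent_iff.1 hli) (fun j => if j = i then 1 else -c) (by
      rw [Fin.sum_univ_two]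
      fin_cases i <;> simp at h3 ⊢ <;> first | (rw [h3]; simp) | skip) i
    simp at h4
  have hn1 : a ∉ Submodule.span F {b} := by
    intro h
    obtain ⟨c, hc⟩ := Submodule.mem_span_singleton.1 h
    exact hnd 0 c (by simpa [ha, hb] using hc.symm)
  have hn2 : b ∉ Submodule.span F {a} := by
    intro h
    obtain ⟨c, hc⟩ := Submodule.mem_span_singleton.1 h
    exact hnd 1 c (by simpa [ha, hb] using hc.symm)
  obtain ⟨a', h1, h3⟩ := exists_dual hB hf₂.nondegenerate hn1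
  obtain ⟨b', h4, h5⟩ := exists_dual hB hf₂.nondegenerate hn2
  set a'' : Fin 4 → F := a' + (-(f₂ a' a') / 2) • a with ha''
  set b'' : Fin 4 → F := b' + (-(f₂ b' b') / 2) • b + (-(f₂ a'' b')) • a with hb''
  have sm := hB.smul_left
  have sr := hB.smul_right
  have al := hB.add_left
  have ar := hB.add_right
  have ss := hf₂.symm
  have e1 : f₂ a a'' = 1 := by
    rw [ha'', ar, sr, haa, h1]; ring
  have e2 : f₂ b a'' = 0 := by
    rw [ha'', ar, sr, ss b a, hab, h3]; ring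
  have e3 : f₂ a'' a'' = 0 := by
    rw [ha'', ar, al, al, sm, sr, sr, sm, haa, ss a' a, h1]
    field_simp
    ring
  have e4 : f₂ a b'' = 0 := by
    rw [hb'', ar, ar, sr, sr, haa, hab, ss a b', ss b' a]
    have : f₂ a b' = 0 := h5
    rw [this]; ring
  have e5 : f₂ b b'' = 1 := by
    rw [hb'', ar, ar, sr, sr, hbb, ss b a, hab, h4]; ring
  have e6 : f₂ a'' b'' = 0 := by
    rw [hb'', ar, ar, sr, sr, ss a'' b, e2, ss a'' a, e1]; ring
  have e7 : f₂ b'' b'' = 0 := by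
    have hb'a : f₂ b' a = 0 := by rw [ss]; exact h5
    have hb'b : f₂ b' b = 1 := by rw [ss]; exact h4
    have : f₂ b'' b'' = f₂ b' b' + 2 * (-(f₂ b' b') / 2) * f₂ b' b + 2 * (-(f₂ a'' b')) * f₂ b' a +
        (-(f₂ b' b') / 2) ^ 2 * f₂ b b + 2 * (-(f₂ b' b') / 2) * (-(f₂ a'' b')) * f₂ a b + (-(f₂ a'' b')) ^ 2 * f₂ a a := by
      rw [hb'']
      simp only [al, ar, sm, sr, ss b' b, ss b' a, ss b a]
      ring
    rw [this, hb'a, hb'b, hbb, hab, haa]
    field_simp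
    ring
  refine ⟨![a, b, -b'', a''], ?_⟩
  have sneg : ∀ x y, f₂ (-x) y = - f₂ x y := fun x y => by
    have := sm (-1) x y
    simpa using this
  have sneg' : ∀ x y, f₂ x (-y) = - f₂ x y := fun x y => by
    have := sr (-1) x y
    simpa using this
  intro i j
  fin_cases i <;> fin_cases j <;> simp [gZ, sneg, sneg', haa, hab, hbb, e1, e2, e3, e4, e5, e6, e7, ss b a, ss b'' a, ss a'' a, ss b'' b, ss a'' b, ss b'' a'']

section Main

variable {ι : Type} [Fintype ι] [DecidableEq ι] {f : (ι → F) → (ι → F) → F}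

/-- The matrix with the given columns. -/
def colM (u : Fin 4 → (Fin 4 → F)) : Matrix (Fin 4) (Fin 4) F := fun a b => u b a

theorem colM_mulVec (u : Fin 4 → (Fin 4 → F)) (y : Fin 4 → F) : colM u *ᵥ y = ∑ i, y i • u i := by
  funext a
  simp [colM, Matrix.mulVec, dotProduct, mul_comm]

theorem colM_single (u : Fin 4 → (Fin 4 → F)) (i : Fin 4) : colM u *ᵥ Pi.single i 1 = u i := by
  rw [colM_mulVec, Finset.sum_eq_single i]
  · simp
  · intro j _ hj
    simp [Pi.single_eq_of_ne hj]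
  · simp

theorem form_colM {f₂ : (Fin 4 → F) → (Fin 4 → F) → F} (hf₂ : IsBilinearForm f₂) {u : Fin 4 → (Fin 4 → F)}
    (hu : ∀ i j, f₂ (u i) (u j) = (gZ i j : F)) (y y' : Fin 4 → F) :
    f₂ (colM u *ᵥ y) (colM u *ᵥ y') = y 0 * y' 3 + y 3 * y' 0 - y 1 * y' 2 - y 2 * y' 1 := by
  rw [colM_mulVec, colM_mulVec]
  simp only [Fin.sum_univ_four, hf₂.add_left, hf₂.add_right, hf₂.smul_left, hf₂.smul_right, hu]
  simp [gZ]
  ring

set_option maxHeartbeats 2000000 in
/-- The main construction. -/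
theorem plus_not_maximal [Finite F] (h2 : (2 : F) ≠ 0) (hf : IsSymplecticForm f) {I : Subgroup (GL ι F)} (S : IsSpGroup hf I)
    (e : ι ≃ Fin 2 × Fin 4) (P : GL ι F) {f₁ : (Fin 2 → F) → (Fin 2 → F) → F} {f₂ : (Fin 4 → F) → (Fin 4 → F) → F}
    (hf₁ : IsSymplecticForm f₁) (hf₂ : IsSymmetricForm f₂) (hplus : IsPlusTypeOn (fun v => f₂ v v) ⊤)
    (hT : IsTensorFormStructure id f f₁ f₂ e P) :
    ∃ K : Subgroup (GL ι F), tensorProductSubgroup 2 4 e P ⊓ I < K ∧ K < I := by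
  classical
  obtain ⟨c, hc, hTc⟩ := hT
  obtain ⟨u, hu⟩ := exists_hyp h2 hf₂ hplus
  have hB₂ := hf₂.bilinear
  set Q := colM u with hQ
  have hform₂ : ∀ y y' : Fin 4 → F, f₂ (Q *ᵥ y) (Q *ᵥ y') = y 0 * y' 3 + y 3 * y' 0 - y 1 * y' 2 - y 2 * y' 1 :=
    form_colM hB₂ hu
  -- `Q` is invertible
  have hQinj : Function.Injective (fun y => Q *ᵥ y) := by
    intro y y' h
    have h'' : Q *ᵥ y = Q *ᵥ y' := h
    have hy : ∀ z, f₂ (Q *ᵥ y) (Q *ᵥ z) = f₂ (Q *ᵥ y') (Q *ᵥ z) := fun z => by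
      rw [h'']
    have h0 := hy (Pi.single 0 1)
    have h1 := hy (Pi.single 1 1)
    have h2' := hy (Pi.single 2 1)
    have h3 := hy (Pi.single 3 1)
    simp only [hform₂] at h0 h1 h2' h3
    funext i
    fin_cases i
    · simpa using h3
    · simpa using h2'
    · simpa using h1
    · simpa using h0
  have hQu : IsUnit Q := Matrix.mulVec_injective_iff_isUnit.1 hQinj
  obtain ⟨Q', hQ'⟩ := hQu
  -- the new basis
  let M₀ : GL (Fin 2 × Fin 4) F :=
    ⟨(1 : Matrix (Fin 2) (Fin 2) F) ⊗ₖ (Q' : Matrix (Fin 4) (Fin 4) F),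
     (1 : Matrix (Fin 2) (Fin 2) F) ⊗ₖ ((Q'⁻¹ : GL (Fin 4) F) : Matrix (Fin 4) (Fin 4) F),
     by rw [← Matrix.mul_kronecker_mul, ← Units.val_mul, mul_inv_cancel, Units.val_one, mul_one, Matrix.one_kronecker_one],
     by rw [← Matrix.mul_kronecker_mul, ← Units.val_mul, inv_mul_cancel, Units.val_one, mul_one, Matrix.one_kronecker_one]⟩
  have hM₀ : ∀ x y, (M₀ : Matrix (Fin 2 × Fin 4) (Fin 2 × Fin 4) F) *ᵥ pureT x y = pureT x (Q *ᵥ y) := by
    intro x y
    change ((1 : Matrix (Fin 2) (Fin 2) F) ⊗ₖ (Q' : Matrix (Fin 4) (Fin 4) F)) *ᵥ _ = _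
    rw [kronecker_mulVec_pure, Matrix.one_mulVec, hQ']
  let R : GL ι F := Psi e 1 M₀
  have hR : ∀ z, (R : Matrix ι ι F) *ᵥ (z ∘ e) = ((M₀ : Matrix (Fin 2 × Fin 4) (Fin 2 × Fin 4) F) *ᵥ z) ∘ e := by
    intro z
    have := Psi_mulVec e (1 : GL ι F) M₀ z
    simpa using this
  set P' : GL ι F := P * R with hP'
  have hP'm : ∀ z, (P' : Matrix ι ι F) *ᵥ (z ∘ e) = (P : Matrix ι ι F) *ᵥ (((M₀ : Matrix (Fin 2 × Fin 4) (Fin 2 × Fin 4) F) *ᵥ z) ∘ e) := by
    intro z
    rw [hP', Units.val_mul, ← Matrix.mulVec_mulVec, hR]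
  have hTT : ∀ x y, TT e P' x y = TT e P x (Q *ᵥ y) := by
    intro x y
    unfold TT
    rw [hP'm, hM₀]
  -- the form on pure tensors
  have hf₁g : ∀ x y, formOfGram id (gramMatrix f₁) x y = f₁ x y := formOfGram_bilinear hf₁.bilinear
  have hf₂g : ∀ x y, formOfGram id (gramMatrix f₂) x y = f₂ x y := formOfGram_bilinear hf₂.bilinear
  have hlaw : ∀ x₁ y₁ x₂ y₂, f (TT e P x₁ x₂) (TT e P y₁ y₂) = c * f₁ x₁ y₁ * f₂ x₂ y₂ := fun x₁ y₁ x₂ y₂ =>
    form_T id (fun _ _ => rfl) hTc hf₁g hf₂g x₁ y₁ x₂ y₂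
  -- the alternating form on the first factor
  set e₀ : Fin 2 → F := Pi.single 0 1 with he₀
  set e₁ : Fin 2 → F := Pi.single 1 1 with he₁
  set γ := f₁ e₀ e₁ with hγ
  have hsplit : ∀ x : Fin 2 → F, x = x 0 • e₀ + x 1 • e₁ := by
    intro x
    funext i
    fin_cases i <;> simp [he₀, he₁]
  have hγ0 : γ ≠ 0 := by
    intro h0
    have he0 : e₀ ≠ 0 := by
      intro h
      have := congrFun h 0
      simp [he₀] at this
    obtain ⟨-, x, hx⟩ := hf₁.nondegenerate e₀ he0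
    apply hx
    rw [hsplit x, hf₁.bilinear.add_right, hf₁.bilinear.smul_right, hf₁.bilinear.smul_right, hf₁.alternating, ← hγ, h0]
    ring
  have hω : ∀ i j : Fin 2, f₁ (Pi.single i 1) (Pi.single j 1) = γ * (omegaZ i j : F) := by
    intro i j
    fin_cases i <;> fin_cases j <;> simp [omegaZ]
    · exact hf₁.alternating _
    · exact hγ
    · rw [hγ, he₀, he₁]
      exact hf₁.skew _ _
    · exact hf₁.alternating _
  -- the form in the new coordinates
  let ff : (Fin 2 × Fin 4 → F) → (Fin 2 × Fin 4 → F) → F := fun x y => f ((P' : Matrix ι ι F) *ᵥ (x ∘ e)) ((P' : Matrix ι ι F) *ᵥ (y ∘ e))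
  have hcomp_add : ∀ x y : Fin 2 × Fin 4 → F, (x + y) ∘ e = x ∘ e + y ∘ e := fun x y => rfl
  have hcomp_smul : ∀ (r : F) (x : Fin 2 × Fin 4 → F), (r • x) ∘ e = r • (x ∘ e) := fun r x => rfl
  have hff : IsBilinearForm ff :=
    { add_left := fun x y v => by
        simp only [ff, hcomp_add, Matrix.mulVec_add, hf.bilinear.add_left]
      smul_left := fun r x v => by
        simp only [ff, hcomp_smul, Matrix.mulVec_smul, hf.bilinear.smul_left]
      add_right := fun v x y => by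
        simp only [ff, hcomp_add, Matrix.mulVec_add, hf.bilinear.add_right]
      smul_right := fun r v x => by
        simp only [ff, hcomp_smul, Matrix.mulVec_smul, hf.bilinear.smul_right] }
  have hsingle : ∀ a : Fin 2 × Fin 4, (Pi.single a 1 : Fin 2 × Fin 4 → F) = pureT (Pi.single a.1 1) (Pi.single a.2 1) := by
    rintro ⟨i, j⟩
    funext ⟨k, l⟩
    simp only [pureT, Pi.single_apply, Prod.mk.injEq]
    by_cases h1 : k = i <;> by_cases h3 : l = j <;> simp [h1, h3]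
  have hgram : ∀ a b : Fin 2 × Fin 4, gramMatrix ff a b = c * γ * ((omegaZ a.1 b.1 * gZ a.2 b.2 : ℤ) : F) := by
    intro a b
    change ff (Pi.single a 1) (Pi.single b 1) = _
    simp only [ff]
    rw [hsingle a, hsingle b]
    change f (TT e P' _ _) (TT e P' _ _) = _
    rw [hTT, hTT, hlaw, hω, hQ, colM_single, colM_single, hu]
    push_cast
    ring
  have hffG : ∀ x y, ff x y = ∑ a, ∑ b, x a * gramMatrix ff a b * y b := fun x y => (formOfGram_bilinear hff x y).symm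
  have hinv : ∀ x y : Fin 2 × Fin 4 → F, ff (x ∘ tau) (y ∘ tau) = ff x y := by
    intro x y
    rw [hffG, hffG]
    rw [← Equiv.sum_comp tau (fun a => ∑ b, x a * gramMatrix ff a b * y b)]
    refine Finset.sum_congr rfl fun a _ => ?_
    rw [← Equiv.sum_comp tau (fun b => x (tau a) * gramMatrix ff (tau a) b * y b)]
    refine Finset.sum_congr rfl fun b _ => ?_
    simp only [Function.comp]
    rw [hgram, hgram, tau_inv]
  -- the permutation of factors
  let g₀ : GL (Fin 2 × Fin 4) F :=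
    ⟨tau.toPEquiv.toMatrix, tau.symm.toPEquiv.toMatrix,
     by rw [← PEquiv.toMatrix_trans, ← Equiv.toPEquiv_trans]; simp,
     by rw [← PEquiv.toMatrix_trans, ← Equiv.toPEquiv_trans]; simp⟩
  have hg₀ : ∀ z, (g₀ : Matrix (Fin 2 × Fin 4) (Fin 2 × Fin 4) F) *ᵥ z = z ∘ tau := fun z =>
    PEquiv.toMatrix_toPEquiv_mulVec tau z
  let σ : GL ι F := Psi e P' g₀
  have hσ : ∀ z, (σ : Matrix ι ι F) *ᵥ ((P' : Matrix ι ι F) *ᵥ (z ∘ e)) = (P' : Matrix ι ι F) *ᵥ ((z ∘ tau) ∘ e) := by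
    intro z
    have := Psi_mulVec e P' g₀ z
    rwa [hg₀] at this
  have hsurj : ∀ u : ι → F, ∃ x : Fin 2 × Fin 4 → F, u = (P' : Matrix ι ι F) *ᵥ (x ∘ e) := by
    intro u
    refine ⟨(((P'⁻¹ : GL ι F) : Matrix ι ι F) *ᵥ u) ∘ e.symm, ?_⟩
    have h1 : (((((P'⁻¹ : GL ι F) : Matrix ι ι F) *ᵥ u) ∘ e.symm) ∘ e) = ((P'⁻¹ : GL ι F) : Matrix ι ι F) *ᵥ u := by
      funext i
      simp
    rw [h1, Matrix.mulVec_mulVec, ← Units.val_mul, mul_inv_cancel, Units.val_one, Matrix.one_mulVec]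
  have hinj : ∀ z z' : Fin 2 × Fin 4 → F, (P' : Matrix ι ι F) *ᵥ (z ∘ e) = (P' : Matrix ι ι F) *ᵥ (z' ∘ e) → z = z' := by
    intro z z' h
    have h1 := congrArg (fun v => ((P'⁻¹ : GL ι F) : Matrix ι ι F) *ᵥ v) h
    simp only [inv_mulVec_mulVec] at h1
    funext a
    have := congrFun h1 (e.symm a)
    simpa using this
  have hσI : σ ∈ I := by
    rw [S.mem_iff]
    intro u v
    obtain ⟨x, rfl⟩ := hsurj u
    obtain ⟨y, rfl⟩ := hsurj v
    rw [hσ, hσ]
    exact hinv x y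
  -- the invariant set
  let 𝒮 : Set (ι → F) := {v | ∃ (x : Fin 2 → F) (w : Fin 4 → F), f₂ w w = 0 ∧ v = TT e P x w}
  have hQs : ∀ w : Fin 4 → F, ∃ y, w = Q *ᵥ y := by
    intro w
    refine ⟨((Q'⁻¹ : GL (Fin 4) F) : Matrix (Fin 4) (Fin 4) F) *ᵥ w, ?_⟩
    rw [← hQ', Matrix.mulVec_mulVec, ← Units.val_mul, mul_inv_cancel, Units.val_one, Matrix.one_mulVec]
  have hps : ∀ b d : Fin 2 → F, f₂ (Q *ᵥ pure2 b d) (Q *ᵥ pure2 b d) = 0 := by
    intro b d
    rw [hform₂]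
    simp [pure2]
    ring
  have hσT : ∀ x b d, (σ : Matrix ι ι F) *ᵥ TT e P x (Q *ᵥ pure2 b d) = TT e P b (Q *ᵥ pure2 d x) := by
    intro x b d
    rw [← hTT, ← hTT]
    unfold TT
    rw [hσ]
    congr 2
    funext a
    exact pure_tau x b d a
  have hHS : ∀ h ∈ tensorProductSubgroup 2 4 e P ⊓ I, ∀ x ∈ 𝒮, (h : Matrix ι ι F) *ᵥ x ∈ 𝒮 := by
    rintro h ⟨hh1, hh2⟩ _ ⟨x, w, hw, rfl⟩
    obtain ⟨a, b, hab⟩ := mem_tensor e P hh1
    refine ⟨(a : Matrix _ _ F) *ᵥ x, (b : Matrix _ _ F) *ᵥ w, ?_, hab x w⟩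
    have hiso : ∀ x x' y y', c * f₁ ((a : Matrix _ _ F) *ᵥ x) ((a : Matrix _ _ F) *ᵥ x') * f₂ ((b : Matrix _ _ F) *ᵥ y) ((b : Matrix _ _ F) *ᵥ y') =
        c * f₁ x x' * f₂ y y' := by
      intro x x' y y'
      rw [← hlaw, ← hlaw, ← hab, ← hab]
      exact (S.mem_iff h).1 hh2 _ _
    have hne1 : f₁ e₀ e₁ ≠ 0 := hγ0
    have hne2 : f₂ (u 0) (u 3) ≠ 0 := by
      rw [hu]
      simp [gZ]
    have h3 := hiso e₀ e₁ (u 0) (u 3)
    have h4 : f₁ ((a : Matrix _ _ F) *ᵥ e₀) ((a : Matrix _ _ F) *ᵥ e₁) ≠ 0 := by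
      intro h0
      rw [h0] at h3
      simp only [mul_zero, zero_mul] at h3
      exact mul_ne_zero (mul_ne_zero hc hne1) hne2 h3.symm
    have h5 := hiso e₀ e₁ w w
    rw [hw, mul_zero] at h5
    exact (mul_eq_zero.1 h5).resolve_left (mul_ne_zero hc h4)
  have hwS : ∀ x ∈ 𝒮, (σ : Matrix ι ι F) *ᵥ x ∈ 𝒮 := by
    rintro _ ⟨x, w, hw, rfl⟩
    obtain ⟨y, rfl⟩ := hQs w
    rw [hform₂] at hw
    have hy : y 0 * y 3 = y 1 * y 2 := by
      have h3 : (2 : F) * (y 0 * y 3 - y 1 * y 2) = 0 := by linear_combination hw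
      have := (mul_eq_zero.1 h3).resolve_left h2
      linear_combination this
    obtain ⟨b, d, rfl⟩ := exists_pure2 y hy
    rw [hσT]
    exact ⟨b, _, hps d x, rfl⟩
  have he₀0 : e₀ ≠ 0 := by
    intro h
    have := congrFun h 0
    simp [he₀] at this
  have he₁0 : e₁ ≠ 0 := by
    intro h
    have := congrFun h 1
    simp [he₁] at this
  have hQp0 : ∀ b d : Fin 2 → F, b 0 * d 0 ≠ 0 → Q *ᵥ pure2 b d ≠ 0 := by
    intro b d h0 h
    have h1 := hform₂ (pure2 b d) (Pi.single 3 1)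
    rw [h] at h1
    have h3 : f₂ 0 (Q *ᵥ Pi.single 3 1) = 0 := by simpa using hB₂.smul_left 0 0 (Q *ᵥ Pi.single 3 1)
    rw [h3] at h1
    simp [pure2] at h1
    exact h0 (mul_eq_zero.2 h1)
  have hwH : σ ∉ tensorProductSubgroup 2 4 e P ⊓ I := by
    rintro ⟨hh1, -⟩
    obtain ⟨a, b, hab⟩ := mem_tensor e P hh1
    set x := ((a⁻¹ : GL (Fin 2) F) : Matrix (Fin 2) (Fin 2) F) *ᵥ e₁ with hx
    have hax : (a : Matrix _ _ F) *ᵥ x = e₁ := by
      rw [hx, Matrix.mulVec_mulVec, ← Units.val_mul, mul_inv_cancel, Units.val_one, Matrix.one_mulVec]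
    have h1 := hab x (Q *ᵥ pure2 e₀ e₀)
    rw [hσT, hax] at h1
    have hb0 : (b : Matrix (Fin 4) (Fin 4) F) *ᵥ (Q *ᵥ pure2 e₀ e₀) ≠ 0 := by
      intro h
      have h3 := inv_mulVec_mulVec b (Q *ᵥ pure2 e₀ e₀)
      rw [h, Matrix.mulVec_zero] at h3
      exact hQp0 e₀ e₀ (by simp [he₀]) h3.symm
    obtain ⟨r, -, hr, -⟩ := TT_unique e P he₁0 hb0 h1.symm
    have := congrFun hr 0
    simp [he₀, he₁] at this
  set p₀ : Fin 4 → F := pure2 e₀ e₀ with hp₀
  set p₃ : Fin 4 → F := pure2 e₁ e₁ with hp₃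
  set v : ι → F := TT e P' e₁ p₃ with hv
  set x₀ : ι → F := TT e P' e₀ p₀ with hx₀
  have hx₀S : x₀ ∈ 𝒮 := ⟨e₀, Q *ᵥ p₀, hps e₀ e₀, hTT _ _⟩
  have hκ : f x₀ v = c * γ := by
    rw [hx₀, hv, hTT, hTT, hlaw, hform₂]
    simp [hp₀, hp₃, pure2, he₀, he₁]
    exact Or.inl hγ.symm
  have hs : ((sympT hf v 1 : GL ι F) : Matrix ι ι F) *ᵥ x₀ ∉ 𝒮 := by
    rintro ⟨x, w, hw, hE⟩
    obtain ⟨y, rfl⟩ := hQs w
    rw [← hTT, sympT_mulVec, hκ] at hE
    have hE' : (P' : Matrix ι ι F) *ᵥ ((pureT e₀ p₀ + (c * γ) • pureT e₁ p₃) ∘ e) = (P' : Matrix ι ι F) *ᵥ (pureT x y ∘ e) := by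
      have : (pureT e₀ p₀ + (c * γ) • pureT e₁ p₃) ∘ e = (pureT e₀ p₀) ∘ e + (c * γ) • (pureT e₁ p₃ ∘ e) := rfl
      rw [this, Matrix.mulVec_add, Matrix.mulVec_smul]
      simp only [one_smul] at hE
      exact hE
    have hz := hinj _ _ hE'
    have h0 := congrFun hz (0, 0)
    have h3 := congrFun hz (0, 3)
    have h4 := congrFun hz (1, 3)
    simp [pureT, hp₀, hp₃, pure2, he₀, he₁] at h0 h3 h4
    have hx0 : x 0 ≠ 0 := by
      intro h
      rw [h, zero_mul] at h0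
      exact one_ne_zero h0
    have hy3 : y 3 = 0 := by
      rcases h3 with h3 | h3
      · exact absurd h3 hx0
      · exact h3
    rw [hy3, mul_zero] at h4
    exact mul_ne_zero hc hγ0 h4
  exact not_maximal_of_set 𝒮 inf_le_right hHS σ hσI hwS hwH (sympT hf v 1) ((S.mem_iff _).2 (sympT_similarity hf v 1)) x₀ hx₀S hs

end Main

end Cfsg.Agent.Lib.CmaxX.Sp8
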