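/-
The list of maximal subgroups of `Sp_8(q)`, given Aschbacher's theorem for the symplectic groups.
-/
import Cfsg.Agent.Lib.CmaxS.Arith
import Cfsg.Agent.Lib.CmaxX.Sp8

set_option autoImplicit false
set_option linter.unusedVariables false
set_option maxHeartbeats 1000000

namespace Cfsg.Agent.Lib.CmaxX.RowS8

theorem s5823  {F : Type*} [Field F] [Fintype F] (H : Subgroup (Matrix.GeneralLinearGroup (Fin 4 ⊕ Fin 4) F)) (hH : Cfsg.Geo.IsMaximalIn (Cfsg.spGL 4 F) H)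
    (hA : (∃ M, Cfsg.Geo.InSymplecticClass 4 F M ∧ H ≤ M) ∨ Cfsg.Geo.InSymplecticResidualClass H) :
    (∃ W : Submodule F (Fin 4 ⊕ Fin 4 → F), W ≠ ⊥ ∧ Cfsg.Geo.IsTotallySingularFor (Cfsg.sympForm 4 F) W ∧ H = Cfsg.Geo.subspaceStabilizer W ⊓ Cfsg.spGL 4 F) ∨
    (∃ W : Submodule F (Fin 4 ⊕ Fin 4 → F), W ≠ ⊥ ∧ Cfsg.Geo.IsNondegenerateOn (Cfsg.sympForm 4 F) W ∧ Module.finrank F W < 4 ∧ H = Cfsg.Geo.subspaceStabilizer W ⊓ Cfsg.spGL 4 F) ∨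
    (3 ≤ Fintype.card F ∧ ∃ D : Fin 4 → Submodule F (Fin 4 ⊕ Fin 4 → F), Cfsg.Geo.IsNondegenerateMDecomposition (Cfsg.sympForm 4 F) 2 D ∧ H = Cfsg.Geo.decompositionStabilizer D ⊓ Cfsg.spGL 4 F) ∨
    (∃ D : Fin 2 → Submodule F (Fin 4 ⊕ Fin 4 → F), Cfsg.Geo.IsNondegenerateMDecomposition (Cfsg.sympForm 4 F) 4 D ∧ H = Cfsg.Geo.decompositionStabilizer D ⊓ Cfsg.spGL 4 F) ∨
    (Odd (Fintype.card F) ∧ ∃ D : Fin 2 → Submodule F (Fin 4 ⊕ Fin 4 → F), Cfsg.Geo.IsMDecomposition 4 D ∧ (∀ i, Cfsg.Geo.IsTotallySingularFor (Cfsg.sympForm 4 F) (D i)) ∧ H = Cfsg.Geo.decompositionStabilizer D ⊓ Cfsg.spGL 4 F) ∨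
    (∃ K : Subalgebra F (Matrix (Fin 4 ⊕ Fin 4) (Fin 4 ⊕ Fin 4) F), Cfsg.Geo.IsFieldSubalgebra 2 K ∧ Cfsg.Geo.IsSelfAdjointFor (Cfsg.sympForm 4 F) K ∧ (∀ k ∈ K, ∀ v : (Fin 4 ⊕ Fin 4 → F), (Cfsg.sympForm 4 F) (Matrix.mulVec k v) v = 0) ∧ H = Cfsg.Geo.subalgebraNormalizer K ⊓ Cfsg.spGL 4 F) ∨
    (Odd (Fintype.card F) ∧ ∃ K : Subalgebra F (Matrix (Fin 4 ⊕ Fin 4) (Fin 4 ⊕ Fin 4) F), Cfsg.Geo.IsFieldSubalgebra 2 K ∧ Cfsg.Geo.IsAdjointClosedFor (Cfsg.sympForm 4 F) K ∧ ¬ Cfsg.Geo.IsSelfAdjointFor (Cfsg.sympForm 4 F) K ∧ H = Cfsg.Geo.subalgebraNormalizer K ⊓ Cfsg.spGL 4 F) ∨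
    (Odd (Fintype.card F) ∧ ∃ (e : (Fin 4 ⊕ Fin 4) ≃ Fin 2 × Fin 4) (P : Matrix.GeneralLinearGroup (Fin 4 ⊕ Fin 4) F) (f₁ : (Fin 2 → F) → (Fin 2 → F) → F) (f₂ : (Fin 4 → F) → (Fin 4 → F) → F), Cfsg.Geo.IsSymplecticForm f₁ ∧ Cfsg.Geo.IsSymmetricForm f₂ ∧ ¬ Cfsg.Geo.IsPlusTypeOn (fun v : Fin 4 → F => f₂ v v) ⊤ ∧ Cfsg.Geo.IsTensorFormStructure id (Cfsg.sympForm 4 F) f₁ f₂ e P ∧ H = Cfsg.Geo.tensorProductSubgroup 2 4 e P ⊓ Cfsg.spGL 4 F) ∨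
    (∃ (F₀ : Subfield F) (r : ℕ) (P : Matrix.GeneralLinearGroup (Fin 4 ⊕ Fin 4) F) (ζ : F), r.Prime ∧ Fintype.card F = Nat.card F₀ ^ r ∧ ζ ≠ 0 ∧ Cfsg.Geo.IsFormRationalStructure (Cfsg.sympForm 4 F) F₀ ζ P ∧ H = Cfsg.Geo.subfieldSubgroup F₀ P ⊓ Cfsg.spGL 4 F) ∨
    (∃ (p : ℕ) (R : Subgroup (Matrix.GeneralLinearGroup (Fin 4 ⊕ Fin 4) F)), p.Prime ∧ Odd p ∧ Fintype.card F = p ∧ Cfsg.Geo.IsSymplecticTypeGroup 2 R ∧ Cfsg.Geo.ActsAbsolutelyIrreducibly (Cfsg.Geo.matrixSet R) ∧ R ≤ Cfsg.Geo.similarityGroup (Cfsg.sympForm 4 F) ∧ Nat.card R = 128 ∧ Nat.card (Subgroup.center R) = 2 ∧ Cfsg.Geo.IsOfMinusType 3 R ∧ H = Cfsg.Geo.subgroupNormalizer R ⊓ Cfsg.spGL 4 F) ∨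
    (Odd (Fintype.card F) ∧ 5 ≤ Fintype.card F ∧ ∃ (e : (Fin 4 ⊕ Fin 4) ≃ (Fin 3 → Fin 2)) (P : Matrix.GeneralLinearGroup (Fin 4 ⊕ Fin 4) F) (f₁ : (Fin 2 → F) → (Fin 2 → F) → F), Cfsg.Geo.IsSymplecticForm f₁ ∧ Cfsg.Geo.IsTensorPowerFormStructure id (Cfsg.sympForm 4 F) f₁ e P ∧ H = Cfsg.Geo.tensorWreathSubgroup 2 3 e P ⊓ Cfsg.spGL 4 F) ∨
    (¬ Odd (Fintype.card F) ∧ ∃ Q : (Fin 4 ⊕ Fin 4 → F) → F, Cfsg.Geo.IsNondegenerateQuadraticForm Q ∧ (∀ u v : (Fin 4 ⊕ Fin 4 → F), QuadraticMap.polar Q u v = (Cfsg.sympForm 4 F) u v) ∧ H = Cfsg.Geo.quadSimilarityGroup Q ⊓ Cfsg.spGL 4 F) ∨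
    Cfsg.Geo.InSymplecticResidualClass H := by
  have hq : (4 : ℕ) = 2 → 3 ≤ Fintype.card F := fun h => by omega
  have hH' := hH
  rcases Cfsg.Agent.Lib.CmaxS.Master.master (by norm_num) hq H hH hA with
    ⟨W, h0, hW, hE⟩ | ⟨W, h0, hW, hlt, hE⟩ | ⟨t, k, D, hD, htk, hev, hk2, hE⟩ | ⟨D, hodd, hD, hDs, hE⟩ |
    ⟨r, K, hr, hrm, hK, hsa, halt, hE⟩ | ⟨K, hodd, hK, hcl, hns, hE⟩ |
    ⟨n₁, n₂, e, P, f₁, f₂, hodd, hn₂, hcn, hev, hn₁, hq5, hf₁, hf₂, hT, hE⟩ |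
    ⟨k, t, e, P, f₁, hodd, htodd, ht3, hcn, hev, hne, hf₁, hT, hE⟩ |
    ⟨F₀, r, P, ζ, hr, hc, hζ, hrat, hE⟩ |
    ⟨R, p, k, hR, hRA, hRs, hp, hpo, hpc, hRc, hZc, hmin, h2k, hE⟩ |
    ⟨Q, heven', hQ, hpol, hE⟩ | hres
  · exact Or.inl ⟨W, h0, hW, hE⟩
  · exact Or.inr <| Or.inl ⟨W, h0, hW, hlt, hE⟩
  · rcases Cfsg.Agent.Lib.CmaxS.Arith.tk_4 htk hev hD.decomp.two_le with ⟨rfl, rfl⟩ | ⟨rfl, rfl⟩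
    · exact Or.inr <| Or.inr <| Or.inl ⟨hk2 rfl, D, hD, hE⟩
    · exact Or.inr <| Or.inr <| Or.inr <| Or.inl ⟨D, hD, hE⟩
  · exact Or.inr <| Or.inr <| Or.inr <| Or.inr <| Or.inl ⟨hodd, D, hD, hDs, hE⟩
  · obtain rfl : r = 2 := by
      have h1 : r ∣ 2 ^ 2 := by simpa using hrm
      exact (Nat.prime_dvd_prime_iff_eq hr Nat.prime_two).1 (hr.dvd_of_dvd_pow h1)
    exact Or.inr <| Or.inr <| Or.inr <| Or.inr <| Or.inr <| Or.inl ⟨K, hK, hsa, halt, hE⟩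
  · exact Or.inr <| Or.inr <| Or.inr <| Or.inr <| Or.inr <| Or.inr <| Or.inl ⟨hodd, K, hK, hcl, hns, hE⟩
  · obtain ⟨rfl, rfl⟩ := Cfsg.Agent.Lib.CmaxS.Arith.tens_4 hcn hev hn₁ hn₂
    by_cases hplus : Cfsg.Geo.IsPlusTypeOn (fun v : Fin 4 → F => f₂ v v) ⊤
    · have h2 : (2 : F) ≠ 0 := Cfsg.Agent.Lib.CmaxX.Sp8.two_ne_zero_of_odd hodd
      exact (Cfsg.Agent.Lib.CmaxS.Master.no_between hH' hE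
        (Cfsg.Agent.Lib.CmaxX.Sp8.plus_not_maximal h2 (Cfsg.Agent.Lib.Geo.SpBase.isSymplecticForm_sympForm (F := F) 4)
          (Cfsg.Agent.Lib.Geo.SpBase.isSpGroup_spGL (F := F) 4) e P hf₁ hf₂ hplus hT)).elim
    · exact Or.inr <| Or.inr <| Or.inr <| Or.inr <| Or.inr <| Or.inr <| Or.inr <| Or.inl ⟨hodd, e, P, f₁, f₂, hf₁, hf₂, hplus, hT, hE⟩
  · obtain ⟨rfl, rfl⟩ := Cfsg.Agent.Lib.CmaxS.Arith.wr_8 hcn hev ht3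
    have h5 : 5 ≤ Fintype.card F := by
      have h2 : 2 ≤ Fintype.card F := Fintype.one_lt_card
      obtain ⟨a, ha⟩ := hodd
      by_contra hlt
      have : Fintype.card F = 3 := by omega
      exact hne ⟨this, rfl⟩
    exact Or.inr <| Or.inr <| Or.inr <| Or.inr <| Or.inr <| Or.inr <| Or.inr <| Or.inr <| Or.inr <| Or.inr <| Or.inl ⟨hodd, h5, e, P, f₁, hf₁, hT, hE⟩
  · exact Or.inr <| Or.inr <| Or.inr <| Or.inr <| Or.inr <| Or.inr <| Or.inr <| Or.inr <| Or.inl ⟨F₀, r, P, ζ, hr, hc, hζ, hrat, hE⟩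
  · obtain rfl := Cfsg.Agent.Lib.CmaxS.Arith.pw_8 h2k
    exact Or.inr <| Or.inr <| Or.inr <| Or.inr <| Or.inr <| Or.inr <| Or.inr <| Or.inr <| Or.inr <| Or.inl ⟨p, R, hp, hpo, hpc, hR, hRA, hRs, by rw [hRc]; norm_num, hZc, hmin, hE⟩
  · exact Or.inr <| Or.inr <| Or.inr <| Or.inr <| Or.inr <| Or.inr <| Or.inr <| Or.inr <| Or.inr <| Or.inr <| Or.inr <| Or.inl ⟨heven', Q, hQ, hpol, hE⟩
  · exact Or.inr <| Or.inr <| Or.inr <| Or.inr <| Or.inr <| Or.inr <| Or.inr <| Or.inr <| Or.inr <| Or.inr <| Or.inr <| Or.inr <| hres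

end Cfsg.Agent.Lib.CmaxX.RowS8
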