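/-
The fields with nine and twenty-five elements, coded by numbers `a + p b` standing for `a + b w`, `w² = 2`, with matrices and
vectors of size three, for fast kernel computations on `F³`.
-/
import Cfsg.Agent.Lib.CmaxX.Dual
import Cfsg.Agent.Lib.NotMax.SetStab

set_option autoImplicit false
set_option linter.unusedSectionVars false
set_option linter.unusedVariables false
set_option linter.unusedSimpArgs false
set_option linter.style.haveILetI false

namespace Cfsg.Agent.Lib.CmaxX.SU3Code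

open Matrix Module Cfsg Cfsg.Geo Cfsg.Agent.Lib.Geo.Basic Cfsg.Agent.Lib.Geo.SUGen
open scoped MatrixGroups

/-! ## Codes -/

def addC (p x y : ℕ) : ℕ :=
  Nat.add (Nat.mod (Nat.add (Nat.mod x p) (Nat.mod y p)) p) (Nat.mul p (Nat.mod (Nat.add (Nat.div x p) (Nat.div y p)) p))
def mulC (p x y : ℕ) : ℕ :=
  Nat.add (Nat.mod (Nat.add (Nat.mul (Nat.mod x p) (Nat.mod y p)) (Nat.mul 2 (Nat.mul (Nat.div x p) (Nat.div y p)))) p)
    (Nat.mul p (Nat.mod (Nat.add (Nat.mul (Nat.mod x p) (Nat.div y p)) (Nat.mul (Nat.div x p) (Nat.mod y p))) p))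
def conjC (p x : ℕ) : ℕ := Nat.add (Nat.mod x p) (Nat.mul p (Nat.mod (Nat.mul (Nat.sub p 1) (Nat.div x p)) p))
def negC (p x : ℕ) : ℕ := mulC p (Nat.sub p 1) x

theorem addC_def (p x y : ℕ) : addC p x y = (x % p + y % p) % p + p * ((x / p + y / p) % p) := rfl
theorem mulC_def (p x y : ℕ) : mulC p x y =
    ((x % p) * (y % p) + 2 * ((x / p) * (y / p))) % p + p * (((x % p) * (y / p) + (x / p) * (y % p)) % p) := rfl
theorem conjC_def (p x : ℕ) : conjC p x = x % p + p * (((p - 1) * (x / p)) % p) := rfl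
theorem negC_def (p x : ℕ) : negC p x = mulC p (p - 1) x := rfl

theorem code_mod {p : ℕ} (hp : 0 < p) (A B : ℕ) : (A % p + p * B) % p = A % p := by
  rw [Nat.add_mul_mod_self_left, Nat.mod_mod]

theorem code_div {p : ℕ} (hp : 0 < p) (A B : ℕ) : (A % p + p * B) / p = B := by
  rw [Nat.add_mul_div_left _ _ hp, Nat.div_eq_of_lt (Nat.mod_lt _ hp), zero_add]

theorem code_lt {p : ℕ} (hp : 0 < p) (A B : ℕ) : A % p + p * (B % p) < p * p := by
  have h1 := Nat.mod_lt A hp
  have h2 := Nat.mod_lt B hp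
  calc A % p + p * (B % p) < p + p * (B % p) := by omega
    _ = p * (B % p + 1) := by ring
    _ ≤ p * p := Nat.mul_le_mul_left _ h2

theorem addC_lt {p : ℕ} (hp : 0 < p) (x y : ℕ) : addC p x y < p * p := by
  rw [addC_def]
  exact code_lt hp _ _
theorem mulC_lt {p : ℕ} (hp : 0 < p) (x y : ℕ) : mulC p x y < p * p := by
  rw [mulC_def]
  exact code_lt hp _ _

/-! ## The homomorphism to `F` -/

section F

variable {F : Type*} [Field F]

/-- The value of a code. -/
def φ (p : ℕ) (w : F) (x : ℕ) : F := ((x % p : ℕ) : F) + ((x / p : ℕ) : F) * w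

theorem cast_mod {p : ℕ} (hp0 : (p : F) = 0) (n : ℕ) : ((n % p : ℕ) : F) = (n : F) := by
  have h := Nat.div_add_mod n p
  have h2 := congrArg (Nat.cast : ℕ → F) h
  push_cast at h2
  rw [hp0, zero_mul, zero_add] at h2
  exact h2

/-- The context. -/
structure Ctx (p : ℕ) (w : F) : Prop where
  prime : p.Prime
  two : (2 : F) ≠ 0
  p0 : (p : F) = 0
  sq : w * w = 2
  frob : w ^ p = -w

variable {p : ℕ} {w : F}

theorem Ctx.pos (C : Ctx p w) : 0 < p := C.prime.pos

theorem Ctx.charP (C : Ctx p w) : CharP F p := by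
  obtain ⟨r, hr⟩ := CharP.exists F
  have h1 := (CharP.cast_eq_zero_iff F r p).1 C.p0
  have hr0 : r.Prime := by
    rcases CharP.char_is_prime_or_zero F r with h | h
    · exact h
    · subst h
      exact absurd (Nat.eq_zero_of_zero_dvd h1) C.prime.ne_zero
  have : r = p := (Nat.prime_dvd_prime_iff_eq hr0 C.prime).1 h1
  rw [this] at hr
  exact hr

theorem φ_add (C : Ctx p w) (x y : ℕ) : φ p w (addC p x y) = φ p w x + φ p w y := by
  unfold φ
  rw [addC_def, code_mod C.pos, code_div C.pos, cast_mod C.p0, cast_mod C.p0]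
  push_cast
  ring

theorem φ_mul (C : Ctx p w) (x y : ℕ) : φ p w (mulC p x y) = φ p w x * φ p w y := by
  unfold φ
  rw [mulC_def, code_mod C.pos, code_div C.pos, cast_mod C.p0, cast_mod C.p0]
  push_cast
  linear_combination (-(((x / p : ℕ) : F) * ((y / p : ℕ) : F))) * C.sq

theorem φ_zero (C : Ctx p w) : φ p w 0 = 0 := by
  simp [φ]

theorem φ_one (C : Ctx p w) : φ p w 1 = 1 := by
  have h1 : 1 < p := C.prime.one_lt
  simp [φ, Nat.mod_eq_of_lt h1, Nat.div_eq_of_lt h1]

theorem cast_pred (C : Ctx p w) : ((p - 1 : ℕ) : F) = -1 := by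
  have h1 : 1 ≤ p := C.pos
  rw [Nat.cast_sub h1, C.p0]
  simp

theorem φ_m1 (C : Ctx p w) : φ p w (p - 1) = -1 := by
  have h1 : p - 1 < p := Nat.sub_lt C.pos one_pos
  unfold φ
  rw [Nat.mod_eq_of_lt h1, Nat.div_eq_of_lt h1, cast_pred C]
  simp

theorem φ_neg (C : Ctx p w) (x : ℕ) : φ p w (negC p x) = - φ p w x := by
  rw [negC_def, φ_mul C, φ_m1 C]
  ring

theorem φ_conj (C : Ctx p w) (x : ℕ) : φ p w (conjC p x) = (φ p w x) ^ p := by
  haveI := C.charP
  haveI : Fact p.Prime := ⟨C.prime⟩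
  have hn : ∀ n : ℕ, (n : F) ^ p = (n : F) := by
    intro n
    have := map_natCast (frobenius F p) n
    rwa [frobenius_def] at this
  unfold φ
  rw [conjC_def, code_mod C.pos, code_div C.pos]
  simp only [cast_mod C.p0]
  rw [add_pow_char, mul_pow, hn, hn, C.frob, Nat.cast_mul, cast_pred C]
  ring

theorem φ_two_mul_left (C : Ctx p w) {a b : ℕ} (ha : a < p) (hb : b < p) (h : (a : F) = (b : F)) : a = b := by
  haveI := C.charP
  have h1 := (CharP.natCast_eq_natCast F p).1 h
  exact Nat.ModEq.eq_of_lt_of_lt h1 ha hb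

theorem φ_inj (C : Ctx p w) {x y : ℕ} (hx : x < p * p) (hy : y < p * p) (h : φ p w x = φ p w y) : x = y := by
  have hp := C.pos
  have h1 : φ p w (conjC p x) = φ p w (conjC p y) := by rw [φ_conj C, φ_conj C, h]
  have h2 := C.two
  unfold φ at h1
  unfold φ at h
  rw [conjC_def, conjC_def, code_mod hp, code_div hp, code_mod hp, code_div hp] at h1
  simp only [cast_mod C.p0, Nat.cast_mul, cast_pred C] at h1 h
  have ea : ((x % p : ℕ) : F) = ((y % p : ℕ) : F) := by
    rw [cast_mod C.p0, cast_mod C.p0]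
    have : 2 * (x : F) = 2 * (y : F) := by linear_combination h + h1
    exact mul_left_cancel₀ h2 this
  have eb : ((x / p : ℕ) : F) * w = ((y / p : ℕ) : F) * w := by
    have : 2 * (((x / p : ℕ) : F) * w) = 2 * (((y / p : ℕ) : F) * w) := by linear_combination h - h1
    exact mul_left_cancel₀ h2 this
  have hw : w ≠ 0 := by
    rintro rfl
    have := C.sq
    rw [mul_zero] at this
    exact h2 this.symm
  have eb' := mul_right_cancel₀ hw eb
  have e1 := φ_two_mul_left C (Nat.mod_lt x hp) (Nat.mod_lt y hp) ea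
  have e2 := φ_two_mul_left C (Nat.div_lt_of_lt_mul hx) (Nat.div_lt_of_lt_mul hy) eb'
  rw [← Nat.div_add_mod x p, ← Nat.div_add_mod y p, e1, e2]

theorem φ_surj [Fintype F] (C : Ctx p w) (hF : Fintype.card F = p ^ 2) (k : F) : ∃ x < p * p, φ p w x = k := by
  let f : Fin (p * p) → F := fun x => φ p w x.1
  have hf : Function.Injective f := fun a b h => Fin.ext (φ_inj C a.2 b.2 h)
  have hb : Function.Bijective f := (Fintype.bijective_iff_injective_and_card f).2 ⟨hf, by simp [hF, pow_two]⟩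
  obtain ⟨x, hx⟩ := hb.2 k
  exact ⟨x.1, x.2, hx⟩

end F

/-! ## Vectors and matrices -/

/-- A vector of codes. -/
structure V3 where
  (a b c : ℕ)
  deriving DecidableEq

/-- A matrix of codes. -/
structure M3 where
  (a00 a01 a02 a10 a11 a12 a20 a21 a22 : ℕ)
  deriving DecidableEq

def mv (p : ℕ) (A : M3) (v : V3) : V3 :=
  ⟨addC p (addC p (mulC p A.a00 v.a) (mulC p A.a01 v.b)) (mulC p A.a02 v.c),
   addC p (addC p (mulC p A.a10 v.a) (mulC p A.a11 v.b)) (mulC p A.a12 v.c),
   addC p (addC p (mulC p A.a20 v.a) (mulC p A.a21 v.b)) (mulC p A.a22 v.c)⟩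

def smV (p c : ℕ) (v : V3) : V3 := ⟨mulC p c v.a, mulC p c v.b, mulC p c v.c⟩

def ofCols (u v w : V3) : M3 := ⟨u.a, v.a, w.a, u.b, v.b, w.b, u.c, v.c, w.c⟩

def col0 (A : M3) : V3 := ⟨A.a00, A.a10, A.a20⟩
def col1 (A : M3) : V3 := ⟨A.a01, A.a11, A.a21⟩
def col2 (A : M3) : V3 := ⟨A.a02, A.a12, A.a22⟩

def mm (p : ℕ) (A B : M3) : M3 := ofCols (mv p A (col0 B)) (mv p A (col1 B)) (mv p A (col2 B))

def smM (p c : ℕ) (A : M3) : M3 :=
  ⟨mulC p c A.a00, mulC p c A.a01, mulC p c A.a02, mulC p c A.a10, mulC p c A.a11, mulC p c A.a12, mulC p c A.a20, mulC p c A.a21, mulC p c A.a22⟩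

/-- The conjugate transpose. -/
def ct (p : ℕ) (A : M3) : M3 :=
  ⟨conjC p A.a00, conjC p A.a10, conjC p A.a20, conjC p A.a01, conjC p A.a11, conjC p A.a21, conjC p A.a02, conjC p A.a12, conjC p A.a22⟩

def oneM : M3 := ⟨1, 0, 0, 0, 1, 0, 0, 0, 1⟩

def hC (p : ℕ) (u v : V3) : ℕ :=
  addC p (addC p (mulC p u.a (conjC p v.a)) (mulC p u.b (conjC p v.b))) (mulC p u.c (conjC p v.c))

def detC (p : ℕ) (A : M3) : ℕ :=
  let t (x y z : ℕ) : ℕ := mulC p x (mulC p y z)
  addC p (addC p (addC p (addC p (addC p (t A.a00 A.a11 A.a22) (negC p (t A.a00 A.a12 A.a21))) (negC p (t A.a01 A.a10 A.a22)))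
    (t A.a01 A.a12 A.a20)) (t A.a02 A.a10 A.a21)) (negC p (t A.a02 A.a11 A.a20))

/-- Equality of matrices as a test. -/
def eqM (A B : M3) : Bool :=
  Nat.beq A.a00 B.a00 && Nat.beq A.a01 B.a01 && Nat.beq A.a02 B.a02 && Nat.beq A.a10 B.a10 && Nat.beq A.a11 B.a11 &&
    Nat.beq A.a12 B.a12 && Nat.beq A.a20 B.a20 && Nat.beq A.a21 B.a21 && Nat.beq A.a22 B.a22

theorem eqM_eq {A B : M3} (h : eqM A B = true) : A = B := by
  rcases A with ⟨a00, a01, a02, a10, a11, a12, a20, a21, a22⟩
  rcases B with ⟨b00, b01, b02, b10, b11, b12, b20, b21, b22⟩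
  simp only [eqM, Bool.and_eq_true, Nat.beq_eq] at h
  obtain ⟨⟨⟨⟨⟨⟨⟨⟨h1, h2⟩, h3⟩, h4⟩, h5⟩, h6⟩, h7⟩, h8⟩, h9⟩ := h
  subst_vars
  rfl

theorem eqM_self (A : M3) : eqM A A = true := by
  simp [eqM, Nat.beq_eq]

/-- The test for an element of the special unitary group. -/
def isSU (p : ℕ) (A : M3) : Bool := eqM (mm p (ct p A) A) oneM && Nat.beq (detC p A) 1

theorem isSU_iff (p : ℕ) (A : M3) : isSU p A = true ↔ mm p (ct p A) A = oneM ∧ detC p A = 1 := by
  simp only [isSU, Bool.and_eq_true, Nat.beq_eq]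
  constructor
  · rintro ⟨h1, h2⟩
    exact ⟨eqM_eq h1, h2⟩
  · rintro ⟨h1, h2⟩
    exact ⟨by rw [h1]; exact eqM_self _, h2⟩

section F

variable {F : Type*} [Field F] {p : ℕ} {w : F}

/-- The vector of a code. -/
def toV (p : ℕ) (w : F) (v : V3) : Fin 3 → F := ![φ p w v.a, φ p w v.b, φ p w v.c]

/-- The matrix of a code. -/
def toM (p : ℕ) (w : F) (A : M3) : Matrix (Fin 3) (Fin 3) F :=
  !![φ p w A.a00, φ p w A.a01, φ p w A.a02; φ p w A.a10, φ p w A.a11, φ p w A.a12; φ p w A.a20, φ p w A.a21, φ p w A.a22]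

theorem toM_mulVec (C : Ctx p w) (A : M3) (v : V3) : toM p w A *ᵥ toV p w v = toV p w (mv p A v) := by
  funext i
  fin_cases i <;>
    simp [toM, toV, mv, Matrix.mulVec, dotProduct, Fin.sum_univ_three, φ_add C, φ_mul C]

theorem toV_sm (C : Ctx p w) (c : ℕ) (v : V3) : toV p w (smV p c v) = φ p w c • toV p w v := by
  funext i
  fin_cases i <;> simp [toV, smV, φ_mul C]

theorem toM_cols (C : Ctx p w) (u v t : V3) (i : Fin 3) :
    toM p w (ofCols u v t) *ᵥ (Pi.single i 1) = toV p w (if i = 0 then u else if i = 1 then v else t) := by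
  funext j
  fin_cases i <;> fin_cases j <;> simp [toM, toV, ofCols, Matrix.mulVec, dotProduct, Fin.sum_univ_three]

theorem toM_mm (C : Ctx p w) (A B : M3) : toM p w (mm p A B) = toM p w A * toM p w B := by
  ext i j
  fin_cases i <;> fin_cases j <;>
    simp [toM, mm, ofCols, mv, col0, col1, col2, Matrix.mul_apply, Fin.sum_univ_three, φ_add C, φ_mul C]

theorem toM_sm (C : Ctx p w) (c : ℕ) (A : M3) : toM p w (smM p c A) = φ p w c • toM p w A := by
  ext i j
  fin_cases i <;> fin_cases j <;> simp [toM, smM, φ_mul C]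

theorem toM_one (C : Ctx p w) : toM p w oneM = 1 := by
  ext i j
  fin_cases i <;> fin_cases j <;> simp [toM, oneM, φ_zero C, φ_one C]

theorem toM_ct (C : Ctx p w) (A : M3) (i j : Fin 3) : toM p w (ct p A) i j = (toM p w A j i) ^ p := by
  fin_cases i <;> fin_cases j <;> simp [toM, ct, φ_conj C]

theorem herm_toV (C : Ctx p w) (u v : V3) : hermForm 3 F p (toV p w u) (toV p w v) = φ p w (hC p u v) := by
  simp [hermForm, toV, hC, Fin.sum_univ_three, φ_add C, φ_mul C, φ_conj C]

theorem det_toM (C : Ctx p w) (A : M3) : (toM p w A).det = φ p w (detC p A) := by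
  rw [Matrix.det_fin_three]
  simp only [toM, detC, φ_add C, φ_mul C, φ_neg C]
  simp
  ring

/-- Matrices with an inverse given by the conjugate transpose. -/
theorem iso_of_ct (C : Ctx p w) (A : M3) (h : toM p w (ct p A) * toM p w A = 1) (u v : Fin 3 → F) :
    hermForm 3 F p (toM p w A *ᵥ u) (toM p w A *ᵥ v) = hermForm 3 F p u v := by
  haveI := C.charP
  haveI : Fact p.Prime := ⟨C.prime⟩
  set M := toM p w A with hM
  have hc : ∀ i j, toM p w (ct p A) i j = (M j i) ^ p := toM_ct C A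
  have hs : ∀ j k, ∑ i, (M i j) ^ p * M i k = if j = k then 1 else 0 := by
    intro j k
    have := congrFun (congrFun h j) k
    rw [Matrix.mul_apply, Matrix.one_apply] at this
    simp only [hc] at this
    exact this
  have hs' : ∀ j k, ∑ i, M i k * (M i j) ^ p = if j = k then 1 else 0 := by
    intro j k
    rw [← hs j k]
    exact Finset.sum_congr rfl fun i _ => mul_comm _ _
  simp only [hermForm, Matrix.mulVec, dotProduct, Fin.sum_univ_three, add_pow_char, mul_pow]
  have e00 := hs' 0 0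
  have e01 := hs' 0 1
  have e02 := hs' 0 2
  have e10 := hs' 1 0
  have e11 := hs' 1 1
  have e12 := hs' 1 2
  have e20 := hs' 2 0
  have e21 := hs' 2 1
  have e22 := hs' 2 2
  simp only [Fin.sum_univ_three] at e00 e01 e02 e10 e11 e12 e20 e21 e22
  simp at e00 e01 e02 e10 e11 e12 e20 e21 e22
  linear_combination (u 0 * v 0 ^ p) * e00 + (u 1 * v 0 ^ p) * e01 + (u 2 * v 0 ^ p) * e02 +
    (u 0 * v 1 ^ p) * e10 + (u 1 * v 1 ^ p) * e11 + (u 2 * v 1 ^ p) * e12 +
    (u 0 * v 2 ^ p) * e20 + (u 1 * v 2 ^ p) * e21 + (u 2 * v 2 ^ p) * e22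

/-- The invertible matrix of a code passing the test. -/
def glOfCode (C : Ctx p w) (A : M3) (h : isSU p A = true) : GL (Fin 3) F :=
  ⟨toM p w A, toM p w (ct p A),
    mul_eq_one_comm.1 (by
      have h1 := ((isSU_iff p A).1 h).1
      have := congrArg (toM p w) h1
      rwa [toM_mm C, toM_one C] at this),
    (by
      have h1 := ((isSU_iff p A).1 h).1
      have := congrArg (toM p w) h1
      rwa [toM_mm C, toM_one C] at this)⟩

@[simp] theorem glOfCode_val (C : Ctx p w) (A : M3) (h : isSU p A = true) :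
    ((glOfCode C A h : GL (Fin 3) F) : Matrix (Fin 3) (Fin 3) F) = toM p w A := rfl

theorem glOfCode_mem (C : Ctx p w) (A : M3) (h : isSU p A = true) :
    glOfCode C A h ∈ GU 3 F p ⊓ specialLinear (Fin 3) F := by
  rw [Subgroup.mem_inf, mem_GU_iff, mem_specialLinear_iff]
  constructor
  · intro u v
    have h1 := ((isSU_iff p A).1 h).1
    have h2 := congrArg (toM p w) h1
    rw [toM_mm C, toM_one C] at h2
    exact iso_of_ct C A h2 u v
  · have h1 := ((isSU_iff p A).1 h).2
    change (toM p w A).det = 1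
    rw [det_toM C, h1, φ_one C]

end F

/-! ## Sets of points -/

/-- The test for membership, by a bit mask. -/
def memN (p mask : ℕ) (v : V3) : Bool :=
  Nat.beq (Nat.land (Nat.shiftRight mask (Nat.add v.a (Nat.mul (Nat.mul p p) (Nat.add v.b (Nat.mul (Nat.mul p p) v.c))))) 1) 1

/-- The first non-zero coordinate. -/
def lamOf (v : V3) : ℕ := cond (Nat.beq v.a 0) (cond (Nat.beq v.b 0) v.c v.b) v.a

theorem lamOf_def (v : V3) : lamOf v = if v.a = 0 then (if v.b = 0 then v.c else v.b) else v.a := by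
  unfold lamOf
  by_cases h0 : v.a = 0
  · by_cases h1 : v.b = 0
    · simp [h0, h1, Nat.beq_eq]
    · have h2 : Nat.beq v.b 0 = false := by
        rw [← Bool.not_eq_true, Nat.beq_eq]
        exact h1
      simp [h0, h1, h2]
  · have h2 : Nat.beq v.a 0 = false := by
      rw [← Bool.not_eq_true, Nat.beq_eq]
      exact h0
    simp [h0, h2]

/-- The inverse, by a table. -/
def invC (T x : ℕ) : ℕ := Nat.land (Nat.shiftRight T (Nat.mul 5 x)) 31

/-- The normal form of a vector. -/
def normV (p T : ℕ) (v : V3) : V3 := smV p (invC T (lamOf v)) v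

/-- The test for a vector. -/
def okV (p T mask : ℕ) (v : V3) : Bool := memN p mask (normV p T v)

/-- The test for the closure of a list of points under a matrix. -/
def closedB (p T mask : ℕ) (A : M3) (L : List V3) : Bool := L.all (fun u => okV p T mask (mv p A u))

/-- The data of a list of points and a mask. -/
structure Pts (p T mask : ℕ) (L : List V3) : Prop where
  inv_ok : ∀ x < p * p, x ≠ 0 → mulC p x (invC T x) = 1
  mask_ok : ∀ a < p * p, ∀ b < p * p, ∀ c < p * p, memN p mask ⟨a, b, c⟩ = true → (⟨a, b, c⟩ : V3) ∈ L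

section F

variable {F : Type*} [Field F] {p : ℕ} {w : F}

/-- The cone over a list of points. -/
def cone (p : ℕ) (w : F) (L : List V3) : Set (Fin 3 → F) := {y | ∃ c : F, ∃ u ∈ L, y = c • toV p w u}

theorem okV_sound (C : Ctx p w) {T mask : ℕ} {L : List V3} (P : Pts p T mask L) {v : V3}
    (hv : v.a < p * p ∧ v.b < p * p ∧ v.c < p * p) (h : okV p T mask v = true) :
    ∃ c : F, ∃ u ∈ L, toV p w v = c • toV p w u := by
  have hp := C.pos
  set l := lamOf v with hl
  have hlv : v.a = 0 ∧ v.b = 0 ∧ v.c = 0 ∨ l ≠ 0 ∧ l < p * p ∧ (∀ x, φ p w x = φ p w x) := by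
    by_cases h0 : v.a = 0
    · by_cases h1 : v.b = 0
      · by_cases h2 : v.c = 0
        · exact Or.inl ⟨h0, h1, h2⟩
        · right
          have : l = v.c := by simp [hl, lamOf_def, h0, h1]
          rw [this]
          exact ⟨h2, hv.2.2, fun _ => rfl⟩
      · right
        have : l = v.b := by simp [hl, lamOf_def, h0, h1]
        rw [this]
        exact ⟨h1, hv.2.1, fun _ => rfl⟩
    · right
      have : l = v.a := by
        simp [hl, lamOf_def, h0]
      rw [this]
      exact ⟨h0, hv.1, fun _ => rfl⟩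
  have hmem : normV p T v ∈ L := by
    apply P.mask_ok _ (mulC_lt hp _ _) _ (mulC_lt hp _ _) _ (mulC_lt hp _ _)
    exact h
  rcases hlv with ⟨h0, h1, h2⟩ | ⟨h3, h4, -⟩
  · refine ⟨0, _, hmem, ?_⟩
    funext i
    fin_cases i <;> simp [toV, h0, h1, h2, φ_zero C]
  · refine ⟨φ p w l, _, hmem, ?_⟩
    have h5 := P.inv_ok l h4 h3
    have h6 : φ p w l * φ p w (invC T l) = 1 := by
      rw [← φ_mul C, h5, φ_one C]
    rw [normV, toV_sm C, smul_smul, ← hl, h6, one_smul]

theorem mv_lt (C : Ctx p w) (A : M3) (u : V3) : (mv p A u).a < p * p ∧ (mv p A u).b < p * p ∧ (mv p A u).c < p * p :=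
  ⟨addC_lt C.pos _ _, addC_lt C.pos _ _, addC_lt C.pos _ _⟩

/-- A matrix passing the test stabilises the cone. -/
theorem closed_sound (C : Ctx p w) {T mask : ℕ} {L : List V3} (P : Pts p T mask L) {A : M3}
    (h : closedB p T mask A L = true) : ∀ y ∈ cone p w L, toM p w A *ᵥ y ∈ cone p w L := by
  rintro y ⟨c, u, hu, rfl⟩
  have h1 : okV p T mask (mv p A u) = true := List.all_eq_true.1 h u hu
  obtain ⟨c', u', hu', h2⟩ := okV_sound C P (mv_lt C A u) h1
  refine ⟨c * c', u', hu', ?_⟩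
  rw [Matrix.mulVec_smul, toM_mulVec C, h2, smul_smul]

/-- Scalar multiples of a matrix passing the test stabilise the cone. -/
theorem closed_smul (C : Ctx p w) {T mask : ℕ} {L : List V3} (P : Pts p T mask L) {A : M3}
    (h : closedB p T mask A L = true) (c : F) : ∀ y ∈ cone p w L, (c • toM p w A) *ᵥ y ∈ cone p w L := by
  intro y hy
  obtain ⟨c', u', hu', h2⟩ := closed_sound C P h y hy
  refine ⟨c * c', u', hu', ?_⟩
  rw [Matrix.smul_mulVec, h2, smul_smul]

/-- A vector out of the cone, by an exhaustive test on codes. -/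
theorem not_mem_cone [Fintype F] (C : Ctx p w) (hF : Fintype.card F = p ^ 2) {L : List V3} {v : V3}
    (hv : v.a < p * p ∧ v.b < p * p ∧ v.c < p * p)
    (h : ∀ c < p * p, ∀ u ∈ L, smV p c u ≠ v) : toV p w v ∉ cone p w L := by
  rintro ⟨c, u, hu, h1⟩
  obtain ⟨x, hx, rfl⟩ := φ_surj C hF c
  apply h x hx u hu
  rw [← toV_sm C] at h1
  have e0 := congrFun h1 0
  have e1 := congrFun h1 1
  have e2 := congrFun h1 2
  simp only [toV, Matrix.cons_val_zero, Matrix.cons_val_one, Matrix.cons_val] at e0 e1 e2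
  have hp := C.pos
  have t0 := φ_inj C hv.1 (mulC_lt hp _ _) e0
  have t1 := φ_inj C hv.2.1 (mulC_lt hp _ _) e1
  have t2 := φ_inj C hv.2.2 (mulC_lt hp _ _) e2
  simp only [smV]
  rcases v with ⟨a, b, c⟩
  simp only at t0 t1 t2
  rw [← t0, ← t1, ← t2]

end F

end Cfsg.Agent.Lib.CmaxX.SU3Code
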