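/-
General tools for the exclusions in `SU₃(3)` and `SU₃(5)`: contexts, codes of matrices, and the intermediate
subgroups given by a set of vectors.
-/
import Cfsg.Agent.Lib.CmaxX.SU3Code

set_option autoImplicit false
set_option linter.unusedSectionVars false
set_option linter.unusedVariables false
set_option linter.style.haveILetI false

namespace Cfsg.Agent.Lib.CmaxX.SU3Gen

open Matrix Module Cfsg Cfsg.Geo Cfsg.Agent.Lib.Geo.Basic Cfsg.Agent.Lib.Geo.SUGen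
open Cfsg.Agent.Lib.NotMax.SetStab Cfsg.Agent.Lib.CmaxX.SU3Code
open scoped MatrixGroups

variable {F : Type*} [Field F] [Fintype F]

theorem mem_SU3 {q : ℕ} (hF : Fintype.card F = q ^ 2) (g : GL (Fin 3) F) :
    g ∈ GU 3 F q ⊓ specialLinear (Fin 3) F ↔ IsIso (hermForm 3 F q) g ∧ (g : Matrix (Fin 3) (Fin 3) F).det = 1 := by
  rw [Subgroup.mem_inf, mem_GU_iff, mem_specialLinear_iff]
  rfl

/-- The characteristic. -/
theorem char_eq {p : ℕ} (hp : p.Prime) (hF : Fintype.card F = p ^ 2) : (p : F) = 0 := by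
  obtain ⟨r, hr⟩ := CharP.exists F
  obtain ⟨n, hrp, hc⟩ := FiniteField.card F r
  have h1 : r ∣ p ^ 2 := by
    rw [← hF, hc]
    exact dvd_pow_self r n.ne_zero
  have h2 : r = p := (Nat.prime_dvd_prime_iff_eq hrp hp).1 (hrp.dvd_of_dvd_pow h1)
  subst h2
  exact CharP.cast_eq_zero F r

theorem exists_ctx3 (hF : Fintype.card F = 3 ^ 2) : ∃ w : F, Ctx 3 w := by
  have h3 : (3 : F) = 0 := by exact_mod_cast char_eq Nat.prime_three hF
  have h2 : (2 : F) ≠ 0 := by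
    intro h
    have : (1 : F) = 0 := by linear_combination h3 - h
    exact one_ne_zero this
  have hch : ringChar F ≠ 2 := by
    intro h
    apply h2
    have := ringChar.Nat.cast_ringChar (R := F)
    rw [h] at this
    exact_mod_cast this
  have hsq : IsSquare (2 : F) := by
    rw [FiniteField.isSquare_iff hch h2, hF]
    have : (2 : F) ^ (3 ^ 2 / 2) = 1 := by
      norm_num
      linear_combination 5 * h3
    exact this
  obtain ⟨w, hw⟩ := hsq
  refine ⟨w, ⟨Nat.prime_three, h2, by exact_mod_cast h3, hw.symm, ?_⟩⟩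
  rw [pow_succ, pow_two]
  linear_combination (-w) * hw + w * h3

theorem exists_ctx5 (hF : Fintype.card F = 5 ^ 2) : ∃ w : F, Ctx 5 w := by
  have h5 : (5 : F) = 0 := by exact_mod_cast char_eq Nat.prime_five hF
  have h2 : (2 : F) ≠ 0 := by
    intro h
    have : (1 : F) = 0 := by linear_combination h5 - 2 * h
    exact one_ne_zero this
  have hch : ringChar F ≠ 2 := by
    intro h
    apply h2
    have := ringChar.Nat.cast_ringChar (R := F)
    rw [h] at this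
    exact_mod_cast this
  have hsq : IsSquare (2 : F) := by
    rw [FiniteField.isSquare_iff hch h2, hF]
    have : (2 : F) ^ (5 ^ 2 / 2) = 1 := by
      norm_num
      linear_combination 819 * h5
    exact this
  obtain ⟨w, hw⟩ := hsq
  refine ⟨w, ⟨Nat.prime_five, h2, by exact_mod_cast h5, hw.symm, ?_⟩⟩
  have : w ^ 5 = (w * w) * (w * w) * w := by ring
  rw [this, ← hw]
  linear_combination w * h5

/-! ## Codes of matrices -/

variable {p : ℕ} {w : F}

/-- All the entries are reduced. -/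
def Lt (p : ℕ) (A : M3) : Prop :=
  A.a00 < p * p ∧ A.a01 < p * p ∧ A.a02 < p * p ∧ A.a10 < p * p ∧ A.a11 < p * p ∧ A.a12 < p * p ∧
    A.a20 < p * p ∧ A.a21 < p * p ∧ A.a22 < p * p

/-- All the entries are reduced. -/
def VLt (p : ℕ) (v : V3) : Prop := v.a < p * p ∧ v.b < p * p ∧ v.c < p * p

theorem toM_inj (C : Ctx p w) {A B : M3} (hA : Lt p A) (hB : Lt p B) (h : toM p w A = toM p w B) : A = B := by
  have e : ∀ i j, toM p w A i j = toM p w B i j := fun i j => congrFun (congrFun h i) j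
  rcases A with ⟨a00, a01, a02, a10, a11, a12, a20, a21, a22⟩
  rcases B with ⟨b00, b01, b02, b10, b11, b12, b20, b21, b22⟩
  obtain ⟨h1, h2, h3, h4, h5, h6, h7, h8, h9⟩ := hA
  obtain ⟨k1, k2, k3, k4, k5, k6, k7, k8, k9⟩ := hB
  simp only at h1 h2 h3 h4 h5 h6 h7 h8 h9 k1 k2 k3 k4 k5 k6 k7 k8 k9
  have e00 := φ_inj C h1 k1 (by simpa [toM] using e 0 0)
  have e01 := φ_inj C h2 k2 (by simpa [toM] using e 0 1)
  have e02 := φ_inj C h3 k3 (by simpa [toM] using e 0 2)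
  have e10 := φ_inj C h4 k4 (by simpa [toM] using e 1 0)
  have e11 := φ_inj C h5 k5 (by simpa [toM] using e 1 1)
  have e12 := φ_inj C h6 k6 (by simpa [toM] using e 1 2)
  have e20 := φ_inj C h7 k7 (by simpa [toM] using e 2 0)
  have e21 := φ_inj C h8 k8 (by simpa [toM] using e 2 1)
  have e22 := φ_inj C h9 k9 (by simpa [toM] using e 2 2)
  subst_vars
  rfl

theorem toV_inj (C : Ctx p w) {u v : V3} (hu : VLt p u) (hv : VLt p v) (h : toV p w u = toV p w v) : u = v := by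
  have e : ∀ i, toV p w u i = toV p w v i := fun i => congrFun h i
  rcases u with ⟨a, b, c⟩
  rcases v with ⟨a', b', c'⟩
  obtain ⟨h1, h2, h3⟩ := hu
  obtain ⟨k1, k2, k3⟩ := hv
  have e0 := φ_inj C h1 k1 (by simpa [toV] using e 0)
  have e1 := φ_inj C h2 k2 (by simpa [toV] using e 1)
  have e2 := φ_inj C h3 k3 (by simpa [toV] using e 2)
  simp only at e0 e1 e2
  subst_vars
  rfl

theorem exists_code (C : Ctx p w) (hF : Fintype.card F = p ^ 2) (M : Matrix (Fin 3) (Fin 3) F) :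
    ∃ A : M3, Lt p A ∧ toM p w A = M := by
  obtain ⟨a00, h1, e1⟩ := φ_surj C hF (M 0 0)
  obtain ⟨a01, h2, e2⟩ := φ_surj C hF (M 0 1)
  obtain ⟨a02, h3, e3⟩ := φ_surj C hF (M 0 2)
  obtain ⟨a10, h4, e4⟩ := φ_surj C hF (M 1 0)
  obtain ⟨a11, h5, e5⟩ := φ_surj C hF (M 1 1)
  obtain ⟨a12, h6, e6⟩ := φ_surj C hF (M 1 2)
  obtain ⟨a20, h7, e7⟩ := φ_surj C hF (M 2 0)
  obtain ⟨a21, h8, e8⟩ := φ_surj C hF (M 2 1)
  obtain ⟨a22, h9, e9⟩ := φ_surj C hF (M 2 2)
  refine ⟨⟨a00, a01, a02, a10, a11, a12, a20, a21, a22⟩, ⟨h1, h2, h3, h4, h5, h6, h7, h8, h9⟩, ?_⟩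
  ext i j
  fin_cases i <;> fin_cases j <;> simp [toM, e1, e2, e3, e4, e5, e6, e7, e8, e9]

theorem exists_vcode (C : Ctx p w) (hF : Fintype.card F = p ^ 2) (x : Fin 3 → F) :
    ∃ v : V3, VLt p v ∧ toV p w v = x := by
  obtain ⟨a, h1, e1⟩ := φ_surj C hF (x 0)
  obtain ⟨b, h2, e2⟩ := φ_surj C hF (x 1)
  obtain ⟨c, h3, e3⟩ := φ_surj C hF (x 2)
  refine ⟨⟨a, b, c⟩, ⟨h1, h2, h3⟩, ?_⟩
  funext i
  fin_cases i <;> simp [toV, e1, e2, e3]

theorem vlt_mv (C : Ctx p w) (A : M3) (v : V3) : VLt p (mv p A v) := mv_lt C A v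

theorem lt_ofCols {u v t : V3} (hu : VLt p u) (hv : VLt p v) (ht : VLt p t) : Lt p (ofCols u v t) :=
  ⟨hu.1, hv.1, ht.1, hu.2.1, hv.2.1, ht.2.1, hu.2.2, hv.2.2, ht.2.2⟩

theorem lt_mm (C : Ctx p w) (A B : M3) : Lt p (mm p A B) :=
  lt_ofCols (vlt_mv C _ _) (vlt_mv C _ _) (vlt_mv C _ _)

theorem lt_one (C : Ctx p w) : Lt p oneM := by
  have h0 : 0 < p * p := Nat.mul_pos C.pos C.pos
  have h1 : 1 < p * p := by
    have := C.prime.two_le
    nlinarith
  exact ⟨h1, h0, h0, h0, h1, h0, h0, h0, h1⟩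

theorem detC_lt (C : Ctx p w) (A : M3) : detC p A < p * p := addC_lt C.pos _ _

theorem hC_lt (C : Ctx p w) (u v : V3) : hC p u v < p * p := addC_lt C.pos _ _

theorem matrix_eq_of_cols {M N : Matrix (Fin 3) (Fin 3) F} (h : ∀ j : Fin 3, M *ᵥ Pi.single j 1 = N *ᵥ Pi.single j 1) : M = N := by
  ext i j
  have := congrFun (h j) i
  simpa using this

/-- A special unitary matrix passes the test. -/
theorem isSU_of_mem (C : Ctx p w) (hF : Fintype.card F = p ^ 2) {A : M3} (hA : Lt p A)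
    (hu : ∀ u v : Fin 3 → F, hermForm 3 F p (toM p w A *ᵥ u) (toM p w A *ᵥ v) = hermForm 3 F p u v)
    (hd : (toM p w A).det = 1) : isSU p A = true := by
  have h1 : mm p (ct p A) A = oneM := by
    apply toM_inj C (lt_mm C _ _) (lt_one C)
    rw [toM_mm C, toM_one C]
    ext i j
    have h2 := hu (Pi.single j 1) (Pi.single i 1)
    rw [Matrix.mulVec_single_one, Matrix.mulVec_single_one] at h2
    rw [Matrix.mul_apply, Matrix.one_apply]
    simp only [toM_ct C]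
    have h3 : hermForm 3 F p (Pi.single j 1) (Pi.single i 1) = if i = j then 1 else 0 := by
      haveI : Fact p.Prime := ⟨C.prime⟩
      have hp0 : p ≠ 0 := C.prime.ne_zero
      fin_cases i <;> fin_cases j <;> simp [hermForm, Fin.sum_univ_three, hp0]
    rw [← h3, ← h2]
    simp [hermForm, Fin.sum_univ_three, mul_comm]
  have h2 : detC p A = 1 := by
    have h3 : φ p w (detC p A) = φ p w 1 := by
      rw [← det_toM C, hd, φ_one C]
    have h4 : 1 < p * p := by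
      have := C.prime.two_le
      nlinarith
    exact φ_inj C (detC_lt C A) h4 h3
  exact (isSU_iff p A).2 ⟨h1, h2⟩

/-- A special unitary group element has a code. -/
theorem exists_code_SU (C : Ctx p w) (hF : Fintype.card F = p ^ 2) {g : GL (Fin 3) F}
    (hg : g ∈ GU 3 F p ⊓ specialLinear (Fin 3) F) :
    ∃ A : M3, Lt p A ∧ toM p w A = (g : Matrix (Fin 3) (Fin 3) F) ∧ isSU p A = true := by
  obtain ⟨A, hA, e⟩ := exists_code C hF (g : Matrix (Fin 3) (Fin 3) F)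
  have h := (mem_SU3 hF g).1 hg
  refine ⟨A, hA, e, isSU_of_mem C hF hA ?_ ?_⟩
  · rw [e]
    exact h.1
  · rw [e]
    exact h.2

/-- The element of the group given by a code passing the test stabilises a cone. -/
theorem isSU_mem (C : Ctx p w) {A : M3} (h : isSU p A = true) :
    ∃ g : GL (Fin 3) F, g ∈ GU 3 F p ⊓ specialLinear (Fin 3) F ∧ (g : Matrix (Fin 3) (Fin 3) F) = toM p w A :=
  ⟨glOfCode C A h, glOfCode_mem C A h, rfl⟩

/-! ## Intermediate subgroups -/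

/-- The main criterion: a set of vectors, after a change of orthonormal basis. -/
theorem not_max_conj {q : ℕ} (hF : Fintype.card F = q ^ 2) {H : Subgroup (GL (Fin 3) F)}
    (hHI : H ≤ GU 3 F q ⊓ specialLinear (Fin 3) F) (U : GL (Fin 3) F) (hU : IsIso (hermForm 3 F q) U)
    (S₀ : Set (Fin 3 → F))
    (hH : ∀ h ∈ H, ∀ y ∈ S₀, ((U⁻¹ * h * U : GL (Fin 3) F) : Matrix (Fin 3) (Fin 3) F) *ᵥ y ∈ S₀)
    (W : GL (Fin 3) F) (hW : W ∈ GU 3 F q ⊓ specialLinear (Fin 3) F)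
    (hWS : ∀ y ∈ S₀, (W : Matrix (Fin 3) (Fin 3) F) *ᵥ y ∈ S₀) (hWH : U * W * U⁻¹ ∉ H)
    (T : GL (Fin 3) F) (hT : T ∈ GU 3 F q ⊓ specialLinear (Fin 3) F) (u₀ : Fin 3 → F) (hu₀ : u₀ ∈ S₀)
    (hTu : (T : Matrix (Fin 3) (Fin 3) F) *ᵥ u₀ ∉ S₀) :
    ∃ Y : Subgroup (GL (Fin 3) F), H < Y ∧ Y < GU 3 F q ⊓ specialLinear (Fin 3) F := by
  have hconj : ∀ A : GL (Fin 3) F, A ∈ GU 3 F q ⊓ specialLinear (Fin 3) F → U * A * U⁻¹ ∈ GU 3 F q ⊓ specialLinear (Fin 3) F := by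
    intro A hA
    rw [mem_SU3 hF] at hA ⊢
    refine ⟨(hU.mul hA.1).mul hU.inv, ?_⟩
    have h1 := congrArg Matrix.det (Units.val_mul U (A * U⁻¹))
    rw [Units.val_mul A, Matrix.det_mul, Matrix.det_mul, hA.2, one_mul] at h1
    rw [mul_assoc, h1, ← Matrix.det_mul, ← Units.val_mul]
    simp
  let S : Set (Fin 3 → F) := {v | ((U⁻¹ : GL (Fin 3) F) : Matrix (Fin 3) (Fin 3) F) *ᵥ v ∈ S₀}
  have hginv : ∀ (A : GL (Fin 3) F) (x : Fin 3 → F), ((U⁻¹ : GL (Fin 3) F) : Matrix (Fin 3) (Fin 3) F) *ᵥ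
      (((U * A * U⁻¹ : GL (Fin 3) F) : Matrix (Fin 3) (Fin 3) F) *ᵥ x) =
        (A : Matrix (Fin 3) (Fin 3) F) *ᵥ (((U⁻¹ : GL (Fin 3) F) : Matrix (Fin 3) (Fin 3) F) *ᵥ x) := by
    intro A x
    rw [Matrix.mulVec_mulVec, Matrix.mulVec_mulVec, ← Units.val_mul, ← Units.val_mul]
    congr 2
    group
  have hcancel : ∀ v : Fin 3 → F, ((U⁻¹ : GL (Fin 3) F) : Matrix (Fin 3) (Fin 3) F) *ᵥ ((U : Matrix (Fin 3) (Fin 3) F) *ᵥ v) = v := by
    intro v
    rw [Matrix.mulVec_mulVec, ← Units.val_mul, inv_mul_cancel, Units.val_one, Matrix.one_mulVec]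
  refine not_maximal_of_set S hHI ?_ (U * W * U⁻¹) (hconj _ hW) ?_ hWH
    (U * T * U⁻¹) (hconj _ hT) ((U : Matrix (Fin 3) (Fin 3) F) *ᵥ u₀) ?_ ?_
  · intro h hh x hx
    change _ ∈ S₀
    have h5 : h = U * (U⁻¹ * h * U) * U⁻¹ := by group
    rw [h5, hginv]
    exact hH h hh _ hx
  · intro x hx
    change _ ∈ S₀
    rw [hginv]
    exact hWS _ hx
  · change _ ∈ S₀
    rw [hcancel]
    exact hu₀
  · intro hs
    change _ ∈ S₀ at hs
    rw [hginv, hcancel] at hs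
    exact hTu hs

/-- The outside element, and the inside element, in terms of codes. -/
theorem not_max_code (C : Ctx p w) (hF : Fintype.card F = p ^ 2) {T mask : ℕ} {L : List V3} (Pt : Pts p T mask L)
    {H : Subgroup (GL (Fin 3) F)} (hHI : H ≤ GU 3 F p ⊓ specialLinear (Fin 3) F) (U : GL (Fin 3) F)
    (hU : IsIso (hermForm 3 F p) U)
    (hH : ∀ h ∈ H, ∀ y ∈ cone p w L, ((U⁻¹ * h * U : GL (Fin 3) F) : Matrix (Fin 3) (Fin 3) F) *ᵥ y ∈ cone p w L)
    {W₀ T₀ : M3} (hW₀ : isSU p W₀ = true) (hWc : closedB p T mask W₀ L = true)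
    (hWH : ∀ W : GL (Fin 3) F, (W : Matrix (Fin 3) (Fin 3) F) = toM p w W₀ → U * W * U⁻¹ ∉ H)
    (hT₀ : isSU p T₀ = true) {u₀ : V3} (hu₀ : u₀ ∈ L)
    (hout : ∀ c < p * p, ∀ u ∈ L, smV p c u ≠ mv p T₀ u₀) :
    ∃ Y : Subgroup (GL (Fin 3) F), H < Y ∧ Y < GU 3 F p ⊓ specialLinear (Fin 3) F := by
  refine not_max_conj hF hHI U hU (cone p w L) hH (glOfCode C W₀ hW₀) (glOfCode_mem C W₀ hW₀)
    (closed_sound C Pt hWc) (hWH _ rfl) (glOfCode C T₀ hT₀) (glOfCode_mem C T₀ hT₀) (toV p w u₀)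
    ⟨1, u₀, hu₀, by rw [one_smul]⟩ ?_
  rw [glOfCode_val, toM_mulVec C]
  exact not_mem_cone C hF (mv_lt C _ _) hout

end Cfsg.Agent.Lib.CmaxX.SU3Gen
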