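/-
Data for `SU₃(3)`: the orbit of a subgroup `L₃(2)` on points, with elements inside and outside it.
-/
import Cfsg.Agent.Lib.CmaxX.SU3Gen

set_option autoImplicit false
set_option maxRecDepth 100000
set_option synthInstance.maxSize 2000
set_option synthInstance.maxHeartbeats 0

namespace Cfsg.Agent.Lib.CmaxX.SU3Data3

open Cfsg.Agent.Lib.CmaxX.SU3Code

/-- Inverses. -/
def T3 : ℕ := 7974820186144

/-- The orbit. -/
def L3 : List V3 := [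
  ⟨0, 0, 1⟩, ⟨0, 1, 0⟩, ⟨0, 1, 1⟩, ⟨0, 1, 2⟩, ⟨1, 0, 0⟩, ⟨1, 0, 1⟩, ⟨1, 0, 2⟩, ⟨1, 1, 0⟩,
  ⟨1, 1, 4⟩, ⟨1, 1, 8⟩, ⟨1, 2, 0⟩, ⟨1, 2, 4⟩, ⟨1, 2, 8⟩, ⟨1, 4, 1⟩, ⟨1, 4, 2⟩, ⟨1, 5, 5⟩,
  ⟨1, 5, 7⟩, ⟨1, 7, 5⟩, ⟨1, 7, 7⟩, ⟨1, 8, 1⟩, ⟨1, 8, 2⟩]

/-- The mask of the orbit. -/
def mask3 : ℕ := 613556430274344808186001661774112502160380384173461647670799598112006847304894983283308911631772436520166960150013469224344688790311959107717667635685400462304664664517970865750772392180077955314615810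

theorem pts3 : Pts 3 T3 mask3 L3 := ⟨by decide +kernel, by decide +kernel⟩

/-- An element of the overgroup. -/
def W3 : M3 := ⟨1, 5, 1, 1, 7, 1, 4, 0, 8⟩

/-- An element outside. -/
def Z3 : M3 := ⟨6, 8, 2, 4, 6, 6, 2, 3, 5⟩

/-- A point of the orbit. -/
def u3 : V3 := ⟨0, 0, 1⟩

/-- An element of order seven. -/
def x3 : M3 := ⟨1, 1, 5, 4, 8, 0, 1, 1, 7⟩

/-- A cyclic vector. -/
def w3 : V3 := ⟨1, 0, 0⟩

/-- The inverse of the basis. -/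
def Binv3 : M3 := ⟨1, 2, 3, 0, 0, 1, 0, 8, 6⟩

theorem W3_su : isSU 3 W3 = true := by decide +kernel
theorem W3_cl : closedB 3 T3 mask3 W3 L3 = true := by decide +kernel
theorem Z3_su : isSU 3 Z3 = true := by decide +kernel
theorem u3_mem : u3 ∈ L3 := by decide +kernel
theorem Z3_out : ∀ c < 3 * 3, ∀ u ∈ L3, smV 3 c u ≠ mv 3 Z3 u3 := by decide +kernel
theorem x3_su : isSU 3 x3 = true := by decide +kernel

end Cfsg.Agent.Lib.CmaxX.SU3Data3
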