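/-
Abstract lemmas for the exclusion of the field normaliser in `SU₅(2)`.
-/
import Cfsg.Agent.Lib.CmaxX.Dual
import Cfsg.Agent.Lib.NotMax.SU2

set_option autoImplicit false
set_option linter.unusedSectionVars false
set_option linter.unusedVariables false
set_option linter.style.haveILetI false

namespace Cfsg.Agent.Lib.CmaxX.U5Field

open Matrix Module Cfsg Cfsg.Geo

/-- Roots of unity of prime order in a field. -/
theorem pow_root {L : Type*} [Field L] {p : ℕ} (hp : p.Prime) {ζ u : L} (h1 : ζ ^ p = 1) (h2 : ζ ≠ 1) (hu : u ^ p = 1) :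
    ∃ i < p, ζ ^ i = u := by
  haveI : Fact p.Prime := ⟨hp⟩
  have ho : orderOf ζ = p := orderOf_eq_prime h1 h2
  have hprim : IsPrimitiveRoot ζ p := ho ▸ IsPrimitiveRoot.orderOf ζ
  haveI : NeZero p := ⟨hp.ne_zero⟩
  exact hprim.eq_pow_of_pow_eq_one hu

/-- The adjoint on a field of degree `5` over `𝔽₄` is the power map. -/
theorem adj_eq_pow {E L : Type*} [Field E] [Fintype E] [Field L] [Algebra E L] [FiniteDimensional E L]
    (hE : Fintype.card E = 4) (hL : Module.finrank E L = 5) (a : L →+* L) (haa : ∀ x, a (a x) = x)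
    (hac : ∀ c : E, a (algebraMap E L c) = algebraMap E L (c ^ 2)) (x : L) : a x = x ^ 32 := by
  classical
  haveI : Finite L := Module.finite_of_finite E
  haveI : Fintype L := Fintype.ofFinite L
  have hcardL : Fintype.card L = 1024 := by
    have := Module.card_eq_pow_finrank (K := E) (V := L)
    rw [this, hE, hL]
    norm_num
  have h2E : (2 : E) = 0 := Cfsg.Agent.Lib.NotMax.SU2.two_zero hE
  have h2L : (2 : L) = 0 := by
    have h3 := congrArg (algebraMap E L) h2E
    rw [map_zero, map_ofNat] at h3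
    exact h3
  haveI : CharP L 2 := by
    obtain ⟨p, hp⟩ := CharP.exists L
    have h3 : ((2 : ℕ) : L) = 0 := by exact_mod_cast h2L
    have h4 := (CharP.cast_eq_zero_iff L p 2).1 h3
    have h5 : p.Prime := CharP.char_is_prime L p
    have h6 : p = 2 := (Nat.prime_dvd_prime_iff_eq h5 Nat.prime_two).1 h4
    rw [h6] at hp
    exact hp
  haveI : Fact (Nat.Prime 2) := ⟨Nat.prime_two⟩
  -- the Frobenius power is a ring homomorphism
  let φ : L →+* L := iterateFrobenius L 2 5
  have hφ : ∀ y, φ y = y ^ 32 := fun y => by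
    change (iterateFrobenius L 2 5) y = _
    rw [iterateFrobenius_def]
    norm_num
  have hc4 : ∀ c : E, c ^ 4 = c := fun c => by
    have := FiniteField.pow_card c
    rwa [hE] at this
  let bR : L →+* L := a.comp φ
  have hb : ∀ y, bR y = a (y ^ 32) := fun y => by
    change a (φ y) = _
    rw [hφ]
  have hbc : ∀ c : E, bR (algebraMap E L c) = algebraMap E L c := by
    intro c
    rw [hb, ← map_pow, hac]
    congr 1
    have h1 : (c ^ 32) ^ 2 = (c ^ 4) ^ 16 := by ring
    rw [h1, hc4]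
    have h2 : c ^ 16 = (c ^ 4) ^ 4 := by ring
    rw [h2, hc4, hc4]
  let bA : L →ₐ[E] L := { bR with commutes' := hbc }
  have hbA : ∀ y, bA y = a (y ^ 32) := hb
  have hp : ∀ y : L, y ^ 1024 = y := fun y => by
    have := FiniteField.pow_card y
    rwa [hcardL] at this
  have hbb : ∀ y, bA (bA y) = y := by
    intro y
    rw [hbA, hbA, ← map_pow, haa, ← pow_mul]
    exact hp y
  let bE : L ≃ₐ[E] L := AlgEquiv.ofAlgHom bA bA (AlgHom.ext hbb) (AlgHom.ext hbb)
  have hbE : ∀ y, bE y = bA y := fun y => rfl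
  have hcard : Nat.card (L ≃ₐ[E] L) = 5 := by
    rw [IsGalois.card_aut_eq_finrank, hL]
  have h5 : bE ^ 5 = 1 := by
    have := pow_card_eq_one' (x := bE)
    rwa [hcard] at this
  have h2 : bE ^ 2 = 1 := by
    ext y
    change bE (bE y) = y
    rw [hbE, hbE]
    exact hbb y
  have h1 : bE = 1 := by
    calc bE = bE ^ 5 * ((bE ^ 2) ^ 2)⁻¹ := by group
      _ = 1 := by rw [h5, h2]; simp
  have h3 : a (x ^ 32) = x := by
    have := congrArg (fun t : L ≃ₐ[E] L => t x) h1
    simpa [hbE, hbA] using this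
  calc a x = a (a (x ^ 32)) := by rw [h3]
    _ = x ^ 32 := haa _

/-- Conjugacy of elements of prime order when the Sylow subgroups have prime order. -/
theorem sylow_conj {G : Type*} [Group G] [Finite G] {p : ℕ} (hp : p.Prime) (hp2 : ¬ p ^ 2 ∣ Nat.card G) {a b : G}
    (ha : orderOf a = p) (hb : orderOf b = p) : ∃ g : G, g * a * g⁻¹ ∈ Subgroup.zpowers b := by
  haveI : Fact p.Prime := ⟨hp⟩
  have key : ∀ c : G, orderOf c = p → ∃ Q : Sylow p G, (Q : Subgroup G) = Subgroup.zpowers c := by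
    intro c hc
    have hP : IsPGroup p (Subgroup.zpowers c) := by
      apply IsPGroup.of_card (n := 1)
      rw [Nat.card_zpowers, hc, pow_one]
    obtain ⟨Q, hQ⟩ := hP.exists_le_sylow
    refine ⟨Q, ?_⟩
    have hc1 : Nat.card (Subgroup.zpowers c) = p := by rw [Nat.card_zpowers, hc]
    obtain ⟨k, hk⟩ := IsPGroup.iff_card.1 Q.isPGroup'
    have hdvd : Nat.card Q ∣ Nat.card G := Subgroup.card_subgroup_dvd_card _
    have hk1 : k ≤ 1 := by
      by_contra hlt
      apply hp2
      refine dvd_trans (pow_dvd_pow p (by omega : 2 ≤ k)) ?_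
      rw [← hk]
      exact hdvd
    have hle : Nat.card Q ≤ Nat.card (Subgroup.zpowers c) := by
      rw [hk, hc1]
      calc p ^ k ≤ p ^ 1 := Nat.pow_le_pow_right hp.pos hk1
        _ = p := pow_one p
    exact (Subgroup.eq_of_le_of_card_ge hQ hle).symm
  obtain ⟨Qa, hQa⟩ := key a ha
  obtain ⟨Qb, hQb⟩ := key b hb
  obtain ⟨g, hg⟩ := MulAction.exists_smul_eq G Qa Qb
  refine ⟨g, ?_⟩
  rw [← hQb, ← hg]
  have h1 : a ∈ (Qa : Subgroup G) := by
    rw [hQa]
    exact Subgroup.mem_zpowers a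
  rw [Sylow.coe_subgroup_smul]
  exact Subgroup.mem_map_of_mem _ h1

end Cfsg.Agent.Lib.CmaxX.U5Field
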