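/-
The normaliser of a field of degree three in `SU₃(p)`, in terms of codes.
-/
import Cfsg.Agent.Lib.CmaxX.SU3Gen
import Cfsg.Agent.Lib.CmaxX.U5Field

set_option autoImplicit false
set_option linter.unusedSectionVars false
set_option linter.unusedVariables false
set_option linter.unusedSimpArgs false
set_option linter.style.haveILetI false
set_option maxHeartbeats 1000000

namespace Cfsg.Agent.Lib.CmaxX.SU3Field

open Matrix Module Cfsg Cfsg.Geo Cfsg.Agent.Lib.Geo.Basic Cfsg.Agent.Lib.Geo.SUGen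
open Cfsg.Agent.Lib.Geo.UnitaryInSL
open Cfsg.Agent.Lib.CmaxX.SU3Code Cfsg.Agent.Lib.CmaxX.SU3Gen Cfsg.Agent.Lib.CmaxX.U5Field
open scoped MatrixGroups

/-! ## The adjoint on a field of degree three -/

/-- The adjoint on a field of degree `3` over `𝔽_{p²}` is a power map. -/
theorem adj_eq_pow3 {E L : Type*} [Field E] [Fintype E] [Field L] [Algebra E L] [FiniteDimensional E L] {p : ℕ}
    (hpp : p.Prime) (hE : Fintype.card E = p ^ 2) (hL : Module.finrank E L = 3) (a : L →+* L) (haa : ∀ x, a (a x) = x)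
    (hac : ∀ c : E, a (algebraMap E L c) = algebraMap E L (c ^ p)) (x : L) : a x = x ^ (p ^ 3) := by
  classical
  haveI : Finite L := Module.finite_of_finite E
  haveI : Fintype L := Fintype.ofFinite L
  have hcardL : Fintype.card L = p ^ 6 := by
    have := Module.card_eq_pow_finrank (K := E) (V := L)
    rw [this, hE, hL]
    ring
  have hpE : (p : E) = 0 := char_eq hpp hE
  have hpL : (p : L) = 0 := by
    have h3 := congrArg (algebraMap E L) hpE
    rwa [map_zero, map_natCast] at h3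
  haveI : CharP L p := by
    obtain ⟨r, hr⟩ := CharP.exists L
    have h4 := (CharP.cast_eq_zero_iff L r p).1 hpL
    have h5 : r.Prime := CharP.char_is_prime_or_zero L r |>.resolve_right (by
      rintro rfl
      exact hpp.ne_zero (Nat.eq_zero_of_zero_dvd h4))
    have h6 : r = p := (Nat.prime_dvd_prime_iff_eq h5 hpp).1 h4
    rw [h6] at hr
    exact hr
  haveI : Fact p.Prime := ⟨hpp⟩
  let φ : L →+* L := iterateFrobenius L p 3
  have hφ : ∀ y, φ y = y ^ (p ^ 3) := fun y => by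
    change (iterateFrobenius L p 3) y = _
    rw [iterateFrobenius_def]
  have hc4 : ∀ c : E, c ^ (p ^ 2) = c := fun c => by
    have := FiniteField.pow_card c
    rwa [hE] at this
  let bR : L →+* L := a.comp φ
  have hb : ∀ y, bR y = a (y ^ (p ^ 3)) := fun y => by
    change a (φ y) = _
    rw [hφ]
  have hbc : ∀ c : E, bR (algebraMap E L c) = algebraMap E L c := by
    intro c
    rw [hb, ← map_pow, hac]
    congr 1
    have h1 : (c ^ (p ^ 3)) ^ p = (c ^ (p ^ 2)) ^ (p ^ 2) := by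
      rw [← pow_mul, ← pow_mul]
      congr 1
      ring
    rw [h1, hc4, hc4]
  let bA : L →ₐ[E] L := { bR with commutes' := hbc }
  have hbA : ∀ y, bA y = a (y ^ (p ^ 3)) := hb
  have hp6 : ∀ y : L, y ^ (p ^ 6) = y := fun y => by
    have := FiniteField.pow_card y
    rwa [hcardL] at this
  have hbb : ∀ y, bA (bA y) = y := by
    intro y
    rw [hbA, hbA, ← map_pow, haa, ← pow_mul]
    have : p ^ 3 * p ^ 3 = p ^ 6 := by ring
    rw [this]
    exact hp6 y
  let bE : L ≃ₐ[E] L := AlgEquiv.ofAlgHom bA bA (AlgHom.ext hbb) (AlgHom.ext hbb)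
  have hbE : ∀ y, bE y = bA y := fun y => rfl
  have hcard : Nat.card (L ≃ₐ[E] L) = 3 := by
    rw [IsGalois.card_aut_eq_finrank, hL]
  have h3 : bE ^ 3 = 1 := by
    have := pow_card_eq_one' (x := bE)
    rwa [hcard] at this
  have h2 : bE ^ 2 = 1 := by
    ext y
    change bE (bE y) = y
    rw [hbE, hbE]
    exact hbb y
  have h1 : bE = 1 := by
    calc bE = bE ^ 3 * (bE ^ 2)⁻¹ := by group
      _ = 1 := by rw [h3, h2]; simp
  have h5 : a (x ^ (p ^ 3)) = x := by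
    have := congrArg (fun t : L ≃ₐ[E] L => t x) h1
    simpa [hbE, hbA] using this
  calc a x = a (a (x ^ (p ^ 3))) := by rw [h5]
    _ = x ^ (p ^ 3) := haa _

/-! ## The field -/

variable {F : Type*} [Field F] [Fintype F]

section field

variable {K : Subalgebra F (Matrix (Fin 3) (Fin 3) F)}

theorem isField_of (hK : IsFieldSubalgebra 3 K) : IsField K where
  exists_pair_ne := exists_pair_ne K
  mul_comm := fun x y => Subtype.ext (hK.comm _ x.2 _ y.2)
  mul_inv_cancel := by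
    intro x hx
    obtain ⟨y, hy, hxy⟩ := hK.inv x.1 x.2 (fun h => hx (Subtype.ext h))
    exact ⟨⟨y, hy⟩, Subtype.ext hxy⟩

theorem root_in_K (hK : IsFieldSubalgebra 3 K) {ζ u : Matrix (Fin 3) (Fin 3) F} (hζ : ζ ∈ K) (hu : u ∈ K)
    (h1 : ζ ^ 7 = 1) (h2 : ζ ≠ 1) (h3 : u ^ 7 = 1) : ∃ i < 7, ζ ^ i = u := by
  letI fld : Field K := (isField_of hK).toField
  have h7 : Nat.Prime 7 := by norm_num
  obtain ⟨i, hi, h⟩ := pow_root (L := K) (ζ := ⟨ζ, hζ⟩) (u := ⟨u, hu⟩) h7 (Subtype.ext h1)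
    (fun h => h2 (congrArg Subtype.val h)) (Subtype.ext h3)
  exact ⟨i, hi, congrArg Subtype.val h⟩

theorem adj_unique {p : ℕ} (hF : Fintype.card F = p ^ 2) {k₁ k₂ : Matrix (Fin 3) (Fin 3) F}
    (h : ∀ u v, hermForm 3 F p u (k₁ *ᵥ v) = hermForm 3 F p u (k₂ *ᵥ v)) : k₁ = k₂ := by
  have hu := hermForm_isUnitary 3 hF
  apply Matrix.mulVec_injective
  funext v
  by_contra hne
  have h0 : k₁ *ᵥ v - k₂ *ᵥ v ≠ 0 := sub_ne_zero.2 hne
  obtain ⟨⟨x, hx⟩, -⟩ := hu.nondegenerate _ h0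
  apply hx
  have h1 : k₁ *ᵥ v = (k₁ *ᵥ v - k₂ *ᵥ v) + k₂ *ᵥ v := by abel
  have h2 := h x v
  rw [h1, UForm.add_right hu] at h2
  have h3 : ∀ a b : F, a + b = b → a = 0 := by
    intro a b hab
    simpa using hab
  exact h3 _ _ h2

theorem exists_x {p : ℕ} (hpp : p.Prime) (hF : Fintype.card F = p ^ 2) (h1 : 7 ∣ p ^ 3 + 1) (h2 : Nat.Coprime 7 (p ^ 2 - 1))
    (hK : IsFieldSubalgebra 3 K) (hcl : IsAdjointClosedFor (hermForm 3 F p) K) :
    ∃ X : GL (Fin 3) F, X ∈ GU 3 F p ⊓ specialLinear (Fin 3) F ∧ X ^ 7 = 1 ∧ X ≠ 1 ∧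
      ∀ n : ℕ, ((X ^ n : GL (Fin 3) F) : Matrix (Fin 3) (Fin 3) F) ∈ K := by
  letI fld : Field K := (isField_of hK).toField
  haveI : Finite K := inferInstance
  haveI : FiniteDimensional F K := Module.Finite.of_finite
  letI : Fintype K := Fintype.ofFinite K
  have hcard : Fintype.card K = p ^ 6 := by
    rw [Module.card_eq_pow_finrank (K := F) (V := K), hK.finrank_eq, hF]
    ring
  have hu := hermForm_isUnitary 3 hF
  choose adj hadjK hadj using fun k : K => hcl k.1 k.2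
  let a : K → K := fun k => ⟨adj k, hadjK k⟩
  have ha_spec : ∀ (k : K) u v, hermForm 3 F p (k.1 *ᵥ u) v = hermForm 3 F p u ((a k).1 *ᵥ v) := hadj
  have a_unique : ∀ k k' : K, (∀ u v, hermForm 3 F p (k.1 *ᵥ u) v = hermForm 3 F p u (k'.1 *ᵥ v)) → a k = k' := by
    intro k k' h
    apply Subtype.ext
    apply adj_unique hF
    intro u v
    rw [← ha_spec, h]
  let aR : K →+* K :=
    { toFun := a
      map_one' := a_unique 1 1 (fun u v => by
        change hermForm 3 F p ((1 : Matrix (Fin 3) (Fin 3) F) *ᵥ u) v = hermForm 3 F p u ((1 : Matrix (Fin 3) (Fin 3) F) *ᵥ v)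
        simp)
      map_mul' := fun x y => a_unique (x * y) (a x * a y) (fun u v => by
        have h1 : ((x * y : K) : Matrix (Fin 3) (Fin 3) F) = x.1 * y.1 := rfl
        have h2 : ((a x * a y : K) : Matrix (Fin 3) (Fin 3) F) = (a y).1 * (a x).1 := hK.comm _ (a x).2 _ (a y).2
        rw [h1, h2, ← Matrix.mulVec_mulVec, ← Matrix.mulVec_mulVec, ha_spec, ha_spec])
      map_zero' := a_unique 0 0 (fun u v => by
        change hermForm 3 F p ((0 : Matrix (Fin 3) (Fin 3) F) *ᵥ u) v = hermForm 3 F p u ((0 : Matrix (Fin 3) (Fin 3) F) *ᵥ v)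
        rw [Matrix.zero_mulVec, Matrix.zero_mulVec, UForm.zero_left hu]
        simp [hermForm, hpp.ne_zero])
      map_add' := fun x y => a_unique (x + y) (a x + a y) (fun u v => by
        have h1 : ((x + y : K) : Matrix (Fin 3) (Fin 3) F) = x.1 + y.1 := rfl
        have h2 : ((a x + a y : K) : Matrix (Fin 3) (Fin 3) F) = (a x).1 + (a y).1 := rfl
        rw [h1, h2, Matrix.add_mulVec, Matrix.add_mulVec, hu.add_left, UForm.add_right hu, ha_spec, ha_spec]) }
  have hA : ∀ x, aR x = a x := fun x => rfl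
  have hfr : ∀ x : F, frobEquiv hF x = x ^ p := fun x => rfl
  have hsymm : ∀ u v, hermForm 3 F p u v = (hermForm 3 F p v u) ^ p := fun u v => hu.herm u v
  have haa : ∀ x, aR (aR x) = x := by
    intro x
    rw [hA, hA]
    apply a_unique
    intro u v
    rw [hsymm ((a x).1 *ᵥ u) v, ← ha_spec, ← hsymm]
  have hpow : ∀ c : F, c ^ (p ^ 2) = c := fun c => by
    have := FiniteField.pow_card c
    rwa [hF] at this
  have hac : ∀ c : F, aR (algebraMap F K c) = algebraMap F K (c ^ p) := by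
    intro c
    rw [hA]
    apply a_unique
    intro u v
    have h1 : ((algebraMap F K c : K) : Matrix (Fin 3) (Fin 3) F) = algebraMap F _ c := rfl
    have h2 : ((algebraMap F K (c ^ p) : K) : Matrix (Fin 3) (Fin 3) F) = algebraMap F _ (c ^ p) := rfl
    rw [h1, h2, Algebra.algebraMap_eq_smul_one, Algebra.algebraMap_eq_smul_one, Matrix.smul_mulVec, Matrix.smul_mulVec,
      Matrix.one_mulVec, Matrix.one_mulVec, hu.smul_left, UForm.smul_right hu]
    congr 1
    rw [hfr, ← pow_mul, ← pow_two, hpow]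
  have hpw : ∀ x : K, aR x = x ^ (p ^ 3) := adj_eq_pow3 hpp hF hK.finrank_eq aR haa hac
  -- an element of order 7
  have h7 : Nat.Prime 7 := by norm_num
  haveI : Fact (Nat.Prime 7) := ⟨h7⟩
  have hp1 : 1 ≤ p ^ 3 := Nat.one_le_pow _ _ hpp.pos
  have hdvd : 7 ∣ Nat.card Kˣ := by
    rw [Nat.card_units, Nat.card_eq_fintype_card, hcard]
    have h3 : p ^ 6 - 1 = (p ^ 3 + 1) * (p ^ 3 - 1) := by
      obtain ⟨m, hm⟩ : ∃ m, p ^ 3 = m + 1 := ⟨p ^ 3 - 1, by omega⟩
      have : p ^ 6 = (p ^ 3) ^ 2 := by ring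
      rw [this, hm]
      simp only [Nat.add_sub_cancel]
      have : (m + 1) ^ 2 - 1 = (m + 1 + 1) * m := by
        have h5 : (m + 1) ^ 2 = (m + 1 + 1) * m + 1 := by ring
        omega
      exact this
    rw [h3]
    exact h1.trans (dvd_mul_right _ _)
  obtain ⟨ξ, hξ⟩ := exists_prime_orderOf_dvd_card' 7 hdvd
  have hξ1 : (ξ : K) ^ 7 = 1 := by
    rw [← Units.val_pow_eq_pow_val, ← hξ, pow_orderOf_eq_one, Units.val_one]
  have hξ2 : (ξ : K) ≠ 1 := by
    intro h
    have : ξ = 1 := Units.ext h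
    rw [this, orderOf_one] at hξ
    omega
  set x : K := (ξ : K) with hx
  have hm1 : (x.1) ^ 7 = 1 := by
    have := congrArg Subtype.val hξ1
    exact this
  have hm2 : x.1 ≠ 1 := fun h => hξ2 (Subtype.ext h)
  have hmm : x.1 * x.1 ^ 6 = 1 := by
    rw [← pow_succ']
    exact hm1
  have hxpow : ∀ m : ℕ, (x ^ m : K).1 = x.1 ^ m := fun m => rfl
  refine ⟨⟨x.1, x.1 ^ 6, hmm, by rw [← pow_succ]; exact hm1⟩, ?_, ?_, ?_, ?_⟩
  · rw [mem_SU3 hF]
    constructor
    · intro u v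
      change hermForm 3 F p (x.1 *ᵥ u) (x.1 *ᵥ v) = _
      have h3 : (a x).1 = x.1 ^ (p ^ 3) := by
        have := hpw x
        rw [hA] at this
        rw [this]
        exact hxpow _
      rw [ha_spec, h3, Matrix.mulVec_mulVec, ← pow_succ]
      obtain ⟨m, hm⟩ := h1
      rw [hm, pow_mul, hm1, one_pow, Matrix.one_mulVec]
    · change x.1.det = 1
      have e7 : x.1.det ^ 7 = 1 := by
        rw [← Matrix.det_pow, hm1, Matrix.det_one]
      have e0 : x.1.det ≠ 0 := by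
        intro h
        rw [h] at e7
        simp at e7
      have e2 : x.1.det ^ (p ^ 2 - 1) = 1 := by
        rw [← hF]
        exact FiniteField.pow_card_sub_one_eq_one _ e0
      have : orderOf x.1.det ∣ Nat.gcd 7 (p ^ 2 - 1) :=
        Nat.dvd_gcd (orderOf_dvd_of_pow_eq_one e7) (orderOf_dvd_of_pow_eq_one e2)
      rw [h2.gcd_eq_one, Nat.dvd_one, orderOf_eq_one_iff] at this
      exact this
  · exact Units.ext hm1
  · intro h
    exact hm2 (congrArg Units.val h)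
  · intro n
    rw [Units.val_pow_eq_pow_val]
    exact K.pow_mem x.2 n

end field

theorem conj_norm {G : Type*} [Group G] (g h x : G) (i : ℕ) (H : (g * x * g⁻¹) ^ i = h * (g * x * g⁻¹) * h⁻¹) :
    (g⁻¹ * h * g) * x = x ^ i * (g⁻¹ * h * g) := by
  rw [conj_pow] at H
  have h1 : x ^ i = (g⁻¹ * h * g) * x * (g⁻¹ * h * g)⁻¹ := by
    calc x ^ i = g⁻¹ * (g * x ^ i * g⁻¹) * g := by group
      _ = g⁻¹ * (h * (g * x * g⁻¹) * h⁻¹) * g := by rw [H]
      _ = _ := by group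
  rw [h1]
  group

/-! ## The test on codes -/

section codes

variable {p : ℕ} {w : F}

/-- Powers of a code. -/
def xpow (p : ℕ) (x : M3) : ℕ → M3
  | 0 => oneM
  | n + 1 => mm p (xpow p x n) x

theorem toM_xpow (C : Ctx p w) (x : M3) (n : ℕ) : toM p w (xpow p x n) = (toM p w x) ^ n := by
  induction n with
  | zero => exact toM_one C
  | succ n ih => rw [xpow, toM_mm C, ih, pow_succ]

/-- The matrix sending the basis `w₀, x₀ w₀, x₀² w₀` to `t, X t, X² t`. -/
def cand (p : ℕ) (X : M3) (t : V3) (Binv : M3) : M3 :=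
  mm p (ofCols t (mv p X t) (mv p (mm p X X) t)) Binv

/-- The test for a vector and a power. -/
def checkOne (p T mask : ℕ) (L : List V3) (x₀ : M3) (w₀ : V3) (Binv : M3) (t : V3) (i : ℕ) : Bool :=
  !(Nat.beq (hC p t (mv p (xpow p x₀ i) t)) (hC p w₀ (mv p x₀ w₀))) ||
    !(isSU p (cand p (xpow p x₀ i) t Binv)) || closedB p T mask (cand p (xpow p x₀ i) t Binv) L

/-- The test over the normaliser. -/
def checkField (p T mask : ℕ) (L : List V3) (x₀ : M3) (w₀ : V3) (Binv : M3) : Bool :=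
  (List.range (p * p)).all fun a => (List.range (p * p)).all fun b => (List.range (p * p)).all fun c =>
    !(Nat.beq (hC p ⟨a, b, c⟩ ⟨a, b, c⟩) (hC p w₀ w₀)) ||
      (List.range 7).all fun i => checkOne p T mask L x₀ w₀ Binv ⟨a, b, c⟩ i

theorem nbeq_false {a b : ℕ} (h : a = b) : Nat.beq a b ≠ false := by
  subst h
  simp [Nat.beq_eq]

theorem checkField_sound {T mask : ℕ} {L : List V3} {x₀ : M3} {w₀ : V3} {Binv : M3}
    (hchk : checkField p T mask L x₀ w₀ Binv = true) {t : V3} (ht : VLt p t) {i : ℕ} (hi : i < 7)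
    (h1 : hC p t t = hC p w₀ w₀) (h2 : hC p t (mv p (xpow p x₀ i) t) = hC p w₀ (mv p x₀ w₀))
    (h3 : isSU p (cand p (xpow p x₀ i) t Binv) = true) : closedB p T mask (cand p (xpow p x₀ i) t Binv) L = true := by
  rcases t with ⟨a, b, c⟩
  obtain ⟨ha, hb, hc⟩ := ht
  unfold checkField at hchk
  simp only [List.all_eq_true, List.mem_range, Bool.or_eq_true, Bool.not_eq_true'] at hchk
  rcases hchk a ha b hb c hc with h | h
  · exact absurd h (nbeq_false h1)
  have h4 := h i hi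
  unfold checkOne at h4
  simp only [Bool.or_eq_true, Bool.not_eq_true'] at h4
  rcases h4 with (h4 | h4) | h4
  · exact absurd h4 (nbeq_false h2)
  · rw [h3] at h4
    exact absurd h4 (by decide)
  · exact h4

/-- Elements normalising the cyclic group stabilise the cone. -/
theorem field_closed (C : Ctx p w) (hF : Fintype.card F = p ^ 2) {T mask : ℕ} {L : List V3} (Pt : Pts p T mask L)
    {x₀ : M3} {w₀ : V3} {Binv : M3} (hB : mm p (ofCols w₀ (mv p x₀ w₀) (mv p (mm p x₀ x₀) w₀)) Binv = oneM)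
    (hchk : checkField p T mask L x₀ w₀ Binv = true) {g : GL (Fin 3) F} (hg : g ∈ GU 3 F p ⊓ specialLinear (Fin 3) F)
    {i : ℕ} (hi : i < 7) (hc : (g : Matrix (Fin 3) (Fin 3) F) * toM p w x₀ = (toM p w x₀) ^ i * (g : Matrix (Fin 3) (Fin 3) F)) :
    ∀ y ∈ cone p w L, (g : Matrix (Fin 3) (Fin 3) F) *ᵥ y ∈ cone p w L := by
  have hSU := (mem_SU3 hF g).1 hg
  obtain ⟨t, htl, ht⟩ := exists_vcode C hF ((g : Matrix (Fin 3) (Fin 3) F) *ᵥ toV p w w₀)
  set G := (g : Matrix (Fin 3) (Fin 3) F) with hG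
  set X := xpow p x₀ i with hX
  have hXm : toM p w X = (toM p w x₀) ^ i := toM_xpow C x₀ i
  have hc' : G * toM p w x₀ = toM p w X * G := by rw [hXm, hc]
  have hc2 : G * toM p w (mm p x₀ x₀) = toM p w (mm p X X) * G := by
    rw [toM_mm C, toM_mm C, ← mul_assoc, hc', mul_assoc, hc', mul_assoc]
  have e1 : G *ᵥ toV p w (mv p x₀ w₀) = toV p w (mv p X t) := by
    rw [← toM_mulVec C, ← toM_mulVec C, ht, Matrix.mulVec_mulVec, Matrix.mulVec_mulVec, hc']
  have e2 : G *ᵥ toV p w (mv p (mm p x₀ x₀) w₀) = toV p w (mv p (mm p X X) t) := by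
    rw [← toM_mulVec C, ← toM_mulVec C, ht, Matrix.mulVec_mulVec, Matrix.mulVec_mulVec, hc2]
  have hGB : G * toM p w (ofCols w₀ (mv p x₀ w₀) (mv p (mm p x₀ x₀) w₀)) = toM p w (ofCols t (mv p X t) (mv p (mm p X X) t)) := by
    apply matrix_eq_of_cols
    intro j
    rw [← Matrix.mulVec_mulVec, toM_cols C, toM_cols C]
    fin_cases j
    · simpa using ht.symm
    · simpa using e1
    · have h0 : ((⟨2, by omega⟩ : Fin 3) : Fin 3) = 2 := rfl
      simp only [h0]
      rw [if_neg (by decide), if_neg (by decide), if_neg (by decide), if_neg (by decide)]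
      exact e2
  have hGc : G = toM p w (cand p X t Binv) := by
    have hB' : toM p w (ofCols w₀ (mv p x₀ w₀) (mv p (mm p x₀ x₀) w₀)) * toM p w Binv = 1 := by
      rw [← toM_mm C, hB, toM_one C]
    rw [cand, toM_mm C, ← hGB, mul_assoc, hB', mul_one]
  have hLt : Lt p (cand p X t Binv) := lt_mm C _ _
  have hS : isSU p (cand p X t Binv) = true := by
    apply isSU_of_mem C hF hLt
    · rw [← hGc]
      exact hSU.1
    · rw [← hGc]
      exact hSU.2
  have h1 : hC p t t = hC p w₀ w₀ := by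
    apply φ_inj C (hC_lt C _ _) (hC_lt C _ _)
    rw [← herm_toV C, ← herm_toV C, ht]
    exact hSU.1 _ _
  have h2 : hC p t (mv p X t) = hC p w₀ (mv p x₀ w₀) := by
    apply φ_inj C (hC_lt C _ _) (hC_lt C _ _)
    rw [← herm_toV C, ← herm_toV C, ht, ← e1]
    exact hSU.1 _ _
  have hcl := checkField_sound hchk htl hi h1 h2 hS
  rw [hGc]
  exact closed_sound C Pt hcl

/-- **The exclusion of the normaliser of the field.** -/
theorem field_excl (C : Ctx p w) (hF : Fintype.card F = p ^ 2) (h1 : 7 ∣ p ^ 3 + 1) (h2 : Nat.Coprime 7 (p ^ 2 - 1))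
    (h3 : ¬ 7 ^ 2 ∣ ∏ i : Fin 3, ((p ^ 2) ^ 3 - (p ^ 2) ^ (i : ℕ)))
    {T mask : ℕ} {L : List V3} (Pt : Pts p T mask L)
    {x₀ : M3} {w₀ : V3} {Binv : M3} (hxS : isSU p x₀ = true) (hxL : Lt p x₀) (hx7 : xpow p x₀ 7 = oneM) (hx1 : x₀ ≠ oneM)
    (hB : mm p (ofCols w₀ (mv p x₀ w₀) (mv p (mm p x₀ x₀) w₀)) Binv = oneM)
    (hchk : checkField p T mask L x₀ w₀ Binv = true) {W₀ T₀ : M3} (hW₀ : isSU p W₀ = true) (hWc : closedB p T mask W₀ L = true)
    (hWx : ∀ i < 7, mm p W₀ x₀ ≠ mm p (xpow p x₀ i) W₀)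
    (hT₀ : isSU p T₀ = true) {u₀ : V3} (hu₀ : u₀ ∈ L)
    (hout : ∀ c < p * p, ∀ u ∈ L, smV p c u ≠ mv p T₀ u₀)
    {K : Subalgebra F (Matrix (Fin 3) (Fin 3) F)} (hK : IsFieldSubalgebra 3 K) (hcl : IsAdjointClosedFor (hermForm 3 F p) K) :
    ∃ Y : Subgroup (GL (Fin 3) F), subalgebraNormalizer K ⊓ (GU 3 F p ⊓ specialLinear (Fin 3) F) < Y ∧
      Y < GU 3 F p ⊓ specialLinear (Fin 3) F := by
  classical
  set SU3 := GU 3 F p ⊓ specialLinear (Fin 3) F with hSU3
  let GX : GL (Fin 3) F := glOfCode C x₀ hxS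
  have hGX : GX ∈ SU3 := glOfCode_mem C x₀ hxS
  have hGXpow : ∀ i : ℕ, ((GX ^ i : GL (Fin 3) F) : Matrix (Fin 3) (Fin 3) F) = (toM p w x₀) ^ i := by
    intro i
    rw [Units.val_pow_eq_pow_val]
    rfl
  have hGX1 : GX ^ 7 = 1 := Units.ext (by
    rw [hGXpow, ← toM_xpow C, hx7, toM_one C]
    rfl)
  have hGXne : GX ≠ 1 := fun h => hx1 (toM_inj C hxL (lt_one C) (by
    rw [toM_one C]
    exact congrArg Units.val h))
  obtain ⟨X, hXI, hX1, hXne, hXK⟩ := exists_x C.prime hF h1 h2 hK hcl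
  have h7 : Nat.Prime 7 := by norm_num
  haveI : Fact (Nat.Prime 7) := ⟨h7⟩
  have hno : ¬ 7 ^ 2 ∣ Nat.card ↥SU3 := by
    intro h
    apply h3
    have h4 := h.trans (Subgroup.card_subgroup_dvd_card _)
    rw [Matrix.card_GL_field, hF] at h4
    exact h4
  obtain ⟨g, hg⟩ := sylow_conj (G := ↥SU3) h7 hno (a := ⟨GX, hGX⟩) (b := ⟨X, hXI⟩)
    (orderOf_eq_prime (Subtype.ext hGX1) (fun h => hGXne (congrArg Subtype.val h)))
    (orderOf_eq_prime (Subtype.ext hX1) (fun h => hXne (congrArg Subtype.val h)))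
  obtain ⟨n, hn⟩ := (mem_powers_iff_mem_zpowers).2 hg
  set g₁ : GL (Fin 3) F := g.1 with hg₁
  have hg₁I : g₁ ∈ SU3 := g.2
  have hy : X ^ n = g₁ * GX * g₁⁻¹ := congrArg Subtype.val hn
  set y : GL (Fin 3) F := g₁ * GX * g₁⁻¹ with hydef
  have hyK : (y : Matrix (Fin 3) (Fin 3) F) ∈ K := by
    rw [← hy]
    exact hXK n
  have hy7 : y ^ 7 = 1 := by
    rw [hydef, conj_pow, hGX1]
    group
  have hyne : y ≠ 1 := by
    intro h
    apply hGXne
    have h2 : GX = g₁⁻¹ * y * g₁ := by rw [hydef]; group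
    rw [h2, h]
    group
  have key : ∀ h : GL (Fin 3) F, h ∈ subalgebraNormalizer K → ∃ i < 7,
      ((g₁⁻¹ * h * g₁ : GL (Fin 3) F) : Matrix (Fin 3) (Fin 3) F) * toM p w x₀ =
        (toM p w x₀) ^ i * ((g₁⁻¹ * h * g₁ : GL (Fin 3) F) : Matrix (Fin 3) (Fin 3) F) := by
    intro h hh
    have hhy : (h : Matrix (Fin 3) (Fin 3) F) * y * ((h⁻¹ : GL (Fin 3) F) : Matrix (Fin 3) (Fin 3) F) ∈ K := (hh _).1 hyK
    have hpow : (h * y * h⁻¹) ^ 7 = 1 := by
      rw [conj_pow, hy7]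
      group
    obtain ⟨i, hi, hiy⟩ := root_in_K hK hyK hhy (congrArg Units.val hy7) (fun h => hyne (Units.ext h))
      (congrArg Units.val hpow)
    have hGL : y ^ i = h * y * h⁻¹ := Units.ext hiy
    have h3 := conj_norm g₁ h GX i hGL
    refine ⟨i, hi, ?_⟩
    have h4 : ((g₁⁻¹ * h * g₁ : GL (Fin 3) F) : Matrix (Fin 3) (Fin 3) F) * (GX : Matrix (Fin 3) (Fin 3) F) =
        ((GX ^ i : GL (Fin 3) F) : Matrix (Fin 3) (Fin 3) F) * ((g₁⁻¹ * h * g₁ : GL (Fin 3) F) : Matrix (Fin 3) (Fin 3) F) := by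
      rw [← Units.val_mul, ← Units.val_mul, h3]
    rw [hGXpow] at h4
    exact h4
  have hmem₀ : ∀ h : GL (Fin 3) F, h ∈ SU3 → g₁⁻¹ * h * g₁ ∈ SU3 := fun h hh =>
    SU3.mul_mem (SU3.mul_mem (SU3.inv_mem hg₁I) hh) hg₁I
  refine not_max_code C hF Pt inf_le_right g₁ ((mem_SU3 hF _).1 hg₁I).1 ?_ hW₀ hWc ?_ hT₀ hu₀ hout
  · rintro h ⟨hN, hI⟩
    obtain ⟨i, hi, hc⟩ := key h hN
    exact field_closed C hF Pt hB hchk (hmem₀ h hI) hi hc
  · rintro W hW ⟨hN, -⟩
    obtain ⟨i, hi, hc⟩ := key _ hN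
    have h6 : g₁⁻¹ * (g₁ * W * g₁⁻¹) * g₁ = W := by group
    rw [h6, hW] at hc
    apply hWx i hi
    apply toM_inj C (lt_mm C _ _) (lt_mm C _ _)
    rw [toM_mm C, toM_mm C, toM_xpow C, hc]

end codes

end Cfsg.Agent.Lib.CmaxX.SU3Field
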