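/-
Subfield subgroups of index two in `SU₃(q)`, `q` odd: change of basis to an orthonormal basis of the structure, and the
exclusion by codes.
-/
import Cfsg.Agent.Lib.CmaxX.SU3Gen
import Cfsg.Agent.Lib.Geo.RatStruct
import Cfsg.Agent.Lib.Geo.SUWitt
import Cfsg.Agent.Lib.Witt.POmegaRank
import Cfsg.Agent.Lib.Elusive.HermEigen

set_option autoImplicit false
set_option linter.unusedSectionVars false
set_option linter.unusedVariables false
set_option linter.unusedSimpArgs false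
set_option linter.style.haveILetI false
set_option maxHeartbeats 1000000

namespace Cfsg.Agent.Lib.CmaxX.SU3Sub

open Matrix Module Cfsg Cfsg.Geo Cfsg.Agent.Lib.Geo.Basic Cfsg.Agent.Lib.Geo.SUGen Cfsg.Agent.Lib.Geo.SUWitt
open Cfsg.Agent.Lib.Geo.RatStruct
open Cfsg.Agent.Lib.CmaxX.SU3Code Cfsg.Agent.Lib.CmaxX.SU3Gen Cfsg.Agent.Lib.CmaxX.Dual
open scoped MatrixGroups

variable {F : Type*} [Field F] [Fintype F]

theorem form_single {q : ℕ} (hF : Fintype.card F = q ^ 2) (i j : Fin 3) :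
    hermForm 3 F q (Pi.single i 1) (Pi.single j 1) = if i = j then 1 else 0 := by
  have hq0 : q ≠ 0 := by
    rintro rfl
    have := Fintype.one_lt_card (α := F)
    rw [hF] at this
    norm_num at this
  fin_cases i <;> fin_cases j <;> simp [hermForm, Fin.sum_univ_three, hq0]

/-- Orthonormal families are the images of the standard basis. -/
theorem exists_unitary_of_orthonormal {q : ℕ} (hF : Fintype.card F = q ^ 2) (u : Fin 3 → Fin 3 → F)
    (hu : ∀ i j, hermForm 3 F q (u i) (u j) = if i = j then 1 else 0) :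
    ∃ U : GL (Fin 3) F, IsIso (hermForm 3 F q) U ∧ ∀ j, (U : Matrix (Fin 3) (Fin 3) F) *ᵥ Pi.single j 1 = u j := by
  have hf := hermForm_isUnitary 3 hF
  have hdet := det_cols_ne hf hu
  have hLI : LinearIndependent F u := Matrix.linearIndependent_cols_of_det_ne_zero hdet
  obtain ⟨g, hg, hgu⟩ := exists_isometry_family hf (fun j => (Pi.single j 1 : Fin 3 → F)) u
    (Pi.linearIndependent_single_one _ _) hLI (fun i j => by rw [hu, form_single hF])
  exact ⟨g, hg, hgu⟩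

/-- The sum-of-subgroups membership for scaled rational matrices. -/
theorem mem_of_scaled {F₀ : Subfield F} {g : GL (Fin 3) F} {c : F} (hc : c ≠ 0)
    (h : ∀ i j, c * (g : Matrix (Fin 3) (Fin 3) F) i j ∈ F₀) :
    g ∈ (Matrix.GeneralLinearGroup.map (F₀.subtype : F₀ →+* F)).range ⊔ scalars (Fin 3) F := by
  let u : Fˣ := Units.mk0 c hc
  let s : Fˣ → GL (Fin 3) F := Matrix.GeneralLinearGroup.scalar (Fin 3)
  have hs : ∀ x y, s (x * y) = s x * s y := fun x y => map_mul _ x y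
  have hs1 : s 1 = 1 := map_one _
  have h1 : g = s u⁻¹ * (s u * g) := by
    rw [← mul_assoc, ← hs, inv_mul_cancel, hs1, one_mul]
  rw [h1]
  refine Subgroup.mul_mem _ (Subgroup.mem_sup_right (scalar_mem_scalars _)) (Subgroup.mem_sup_left
    (mem_range_of_entries _ fun i j => ?_))
  have h2 : ((s u * g : GL (Fin 3) F) : Matrix (Fin 3) (Fin 3) F) = c • (g : Matrix (Fin 3) (Fin 3) F) := by
    rw [Units.val_mul, Matrix.GeneralLinearGroup.coe_scalar]
    ext a b
    simp [Matrix.scalar_apply, Matrix.diagonal_mul, u]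
  rw [h2]
  exact h i j

/-- **An orthonormal basis of a scaled rational structure.** -/
theorem exists_rat_frame {q : ℕ} (hF : Fintype.card F = q ^ 2) (hq : Odd q) {F₀ : Subfield F}
    (hc : Fintype.card F = Nat.card F₀ ^ 2) (P : GL (Fin 3) F)
    (hrat : IsFormRationalStructure (hermForm 3 F q) F₀ 1 P) :
    ∃ U : GL (Fin 3) F, IsIso (hermForm 3 F q) U ∧
      P⁻¹ * U ∈ (Matrix.GeneralLinearGroup.map (F₀.subtype : F₀ →+* F)).range ⊔ scalars (Fin 3) F := by
  classical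
  have hf := hermForm_isUnitary 3 hF
  set f := hermForm 3 F q with hfdef
  have hcq : Nat.card F₀ = q := by
    have h1 : Nat.card F₀ ^ 2 = q ^ 2 := by rw [← hc, hF]
    exact Nat.pow_left_injective (n := 2) (by norm_num) h1
  letI : Fintype F₀ := Fintype.ofFinite F₀
  have hfix : ∀ x : F₀, (x : F) ^ q = x := by
    intro x
    have h1 := FiniteField.pow_card x
    rw [← Nat.card_eq_fintype_card, hcq] at h1
    exact_mod_cast congrArg Subtype.val h1
  have hodd : Fintype.card F₀ % 2 = 1 := by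
    rw [← Nat.card_eq_fintype_card, hcq]
    exact Nat.odd_iff.1 hq
  have h2 : (2 : F₀) ≠ 0 := by
    intro h
    have h3 := FiniteField.even_card_of_char_two (F := F₀)
      (CharP.ringChar_of_prime_eq_zero Nat.prime_two (by exact_mod_cast h))
    omega
  let ι : (Fin 3 → F₀) → (Fin 3 → F) := fun u i => (u i : F)
  have hιrat : ∀ u i, ι u i ∈ F₀ := fun u i => (u i).2
  have hιadd : ∀ u v, ι (u + v) = ι u + ι v := fun u v => rfl
  have hιsmul : ∀ (c : F₀) u, ι (c • u) = (c : F) • ι u := fun c u => rfl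
  have hval : ∀ u v, f ((P : Matrix (Fin 3) (Fin 3) F) *ᵥ ι u) ((P : Matrix (Fin 3) (Fin 3) F) *ᵥ ι v) ∈ F₀ := by
    intro u v
    have := hrat (ι u) (ι v) (hιrat u) (hιrat v)
    simpa using this
  have hsigma : ∀ x : F, frobEquiv hF x = x ^ q := fun x => rfl
  let B : (Fin 3 → F₀) →ₗ[F₀] (Fin 3 → F₀) →ₗ[F₀] F₀ :=
    LinearMap.mk₂ F₀ (fun u v => ⟨f ((P : Matrix (Fin 3) (Fin 3) F) *ᵥ ι u) ((P : Matrix (Fin 3) (Fin 3) F) *ᵥ ι v), hval u v⟩)
      (fun a b c => Subtype.ext (by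
        change f ((P : Matrix (Fin 3) (Fin 3) F) *ᵥ ι (a + b)) _ = f _ _ + f _ _
        rw [hιadd, Matrix.mulVec_add, hf.add_left]))
      (fun c a b => Subtype.ext (by
        change f ((P : Matrix (Fin 3) (Fin 3) F) *ᵥ ι (c • a)) _ = (c : F) * f _ _
        rw [hιsmul, Matrix.mulVec_smul, hf.smul_left]))
      (fun a b c => Subtype.ext (by
        change f _ ((P : Matrix (Fin 3) (Fin 3) F) *ᵥ ι (b + c)) = f _ _ + f _ _
        rw [hιadd, Matrix.mulVec_add, Cfsg.Agent.Lib.Geo.UnitaryInSL.UForm.add_right hf]))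
      (fun c a b => Subtype.ext (by
        change f _ ((P : Matrix (Fin 3) (Fin 3) F) *ᵥ ι (c • b)) = (c : F) * f _ _
        rw [hιsmul, Matrix.mulVec_smul, Cfsg.Agent.Lib.Geo.UnitaryInSL.UForm.smul_right hf, hsigma, hfix]))
  have hB : ∀ u v, ((B u v : F₀) : F) = f ((P : Matrix (Fin 3) (Fin 3) F) *ᵥ ι u) ((P : Matrix (Fin 3) (Fin 3) F) *ᵥ ι v) := fun u v => rfl
  have hBs : ∀ u v, B u v = B v u := by
    intro u v
    apply Subtype.ext
    rw [hB, hB]
    have h3 := hf.herm ((P : Matrix (Fin 3) (Fin 3) F) *ᵥ ι u) ((P : Matrix (Fin 3) (Fin 3) F) *ᵥ ι v)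
    rw [h3, hsigma]
    exact hfix ⟨_, hval v u⟩
  let Q : QuadraticForm F₀ (Fin 3 → F₀) := LinearMap.BilinMap.toQuadraticMap B
  have hQ : ∀ u, Q u = B u u := fun u => rfl
  have hpol : ∀ u v, QuadraticMap.polar Q u v = B u v + B v u := by
    intro u v
    exact LinearMap.BilinMap.polar_toQuadraticMap (B := B) u v
  have hnd : ∀ u, (∀ v, B u v = 0) → u = 0 := by
    intro u hu
    have h3 : ∀ z : Fin 3 → F, f ((P : Matrix (Fin 3) (Fin 3) F) *ᵥ ι u) z = 0 := by
      intro z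
      have h4 : ∀ j : Fin 3, f ((P : Matrix (Fin 3) (Fin 3) F) *ᵥ ι u) ((P : Matrix (Fin 3) (Fin 3) F) *ᵥ (Pi.single j 1 : Fin 3 → F)) = 0 := by
        intro j
        have h5 := hu (Pi.single j 1)
        have h6 := congrArg Subtype.val h5
        rw [hB] at h6
        have h7 : ι (Pi.single j 1) = Pi.single j 1 := by
          funext i
          by_cases h : i = j
          · subst h
            simp [ι]
          · simp [ι, Pi.single_eq_of_ne h]
        rw [h7] at h6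
        exact h6
      have hz : z = (P : Matrix (Fin 3) (Fin 3) F) *ᵥ (((P⁻¹ : GL (Fin 3) F) : Matrix (Fin 3) (Fin 3) F) *ᵥ z) := by
        rw [Matrix.mulVec_mulVec, ← Units.val_mul, mul_inv_cancel, Units.val_one, Matrix.one_mulVec]
      rw [hz]
      set y := ((P⁻¹ : GL (Fin 3) F) : Matrix (Fin 3) (Fin 3) F) *ᵥ z
      have hy : y = y 0 • Pi.single 0 1 + y 1 • Pi.single 1 1 + y 2 • Pi.single 2 1 := by
        funext i
        fin_cases i <;> simp
      rw [hy, Matrix.mulVec_add, Matrix.mulVec_add, Matrix.mulVec_smul, Matrix.mulVec_smul, Matrix.mulVec_smul,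
        Cfsg.Agent.Lib.Geo.UnitaryInSL.UForm.add_right hf, Cfsg.Agent.Lib.Geo.UnitaryInSL.UForm.add_right hf,
        Cfsg.Agent.Lib.Geo.UnitaryInSL.UForm.smul_right hf, Cfsg.Agent.Lib.Geo.UnitaryInSL.UForm.smul_right hf,
        Cfsg.Agent.Lib.Geo.UnitaryInSL.UForm.smul_right hf, h4, h4, h4]
      simp
    by_contra h0
    have h4 : ι u ≠ 0 := by
      intro h
      apply h0
      funext i
      have := congrFun h i
      exact Subtype.ext this
    have h5 : (P : Matrix (Fin 3) (Fin 3) F) *ᵥ ι u ≠ 0 := by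
      intro h
      apply h4
      have h6 : ι u = ((P⁻¹ : GL (Fin 3) F) : Matrix (Fin 3) (Fin 3) F) *ᵥ ((P : Matrix (Fin 3) (Fin 3) F) *ᵥ ι u) := by
        rw [Matrix.mulVec_mulVec, ← Units.val_mul, inv_mul_cancel, Units.val_one, Matrix.one_mulVec]
      rw [h6, h, Matrix.mulVec_zero]
    obtain ⟨-, ⟨x, hx⟩⟩ := hf.nondegenerate _ h5
    exact hx (h3 x)
  have hNd : (QuadraticMap.polarBilin Q).Nondegenerate := by
    have hsep : ∀ u, (∀ v, QuadraticMap.polar Q u v = 0) → u = 0 := by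
      intro u hu
      apply hnd
      intro v
      have h3 := hu v
      rw [hpol, hBs v u] at h3
      have h4 : (2 : F₀) * B u v = 0 := by
        rw [two_mul]
        exact h3
      exact (mul_eq_zero.1 h4).resolve_left h2
    constructor
    · intro u hu
      exact hsep u hu
    · intro u hu
      apply hsep u
      intro v
      rw [QuadraticMap.polar_comm]
      exact hu v
  have hfr : Module.finrank F₀ (Fin 3 → F₀) = 2 * 1 + 1 := by
    rw [Module.finrank_fin_fun]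
  obtain ⟨t, v, ht, hvt, hvv⟩ := Cfsg.Agent.Lib.Witt.POmegaRank.exists_const_family Q h2 hodd hNd 1 hfr
  have hvt' : ∀ i : Fin 3, B (v i) (v i) = t := hvt
  have hvv' : ∀ i j : Fin 3, i ≠ j → B (v i) (v j) = 0 := by
    intro i j hij
    have h3 := hvv i j hij
    rw [hpol, hBs (v j) (v i)] at h3
    have h4 : (2 : F₀) * B (v i) (v j) = 0 := by
      rw [two_mul]
      exact h3
    exact (mul_eq_zero.1 h4).resolve_left h2
  have ht' : ((t : F₀) : F)⁻¹ ≠ 0 := inv_ne_zero (by exact_mod_cast ht)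
  obtain ⟨c, hcn⟩ := Cfsg.Agent.Lib.Elusive.HermEigen.exists_norm_eq hF ((t : F₀) : F)⁻¹ (by
    rw [inv_pow, hfix]) ht'
  have hc0 : c ≠ 0 := by
    rintro rfl
    rw [zero_pow (by omega)] at hcn
    exact ht' hcn.symm
  let u : Fin 3 → Fin 3 → F := fun j => c • ((P : Matrix (Fin 3) (Fin 3) F) *ᵥ ι (v j))
  have hu : ∀ i j, f (u i) (u j) = if i = j then 1 else 0 := by
    intro i j
    change f (c • _) (c • _) = _
    rw [hf.smul_left, Cfsg.Agent.Lib.Geo.UnitaryInSL.UForm.smul_right hf, hsigma, ← hB]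
    by_cases hij : i = j
    · subst hij
      rw [hvt', if_pos rfl]
      have ht1 : ((t : F₀) : F) ≠ 0 := by exact_mod_cast ht
      have : c * (c ^ q * ((t : F₀) : F)) = c ^ (q + 1) * ((t : F₀) : F) := by ring
      rw [this, hcn, inv_mul_cancel₀ ht1]
    · rw [hvv' i j hij, if_neg hij]
      simp
  obtain ⟨U, hU, hUu⟩ := exists_unitary_of_orthonormal hF u hu
  refine ⟨U, hU, mem_of_scaled (c := c⁻¹) (inv_ne_zero hc0) ?_⟩
  intro i j
  have h3 : ((P⁻¹ * U : GL (Fin 3) F) : Matrix (Fin 3) (Fin 3) F) i j = c * (v j i : F) := by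
    have h4 : ((P⁻¹ * U : GL (Fin 3) F) : Matrix (Fin 3) (Fin 3) F) *ᵥ Pi.single j 1 =
        ((P⁻¹ : GL (Fin 3) F) : Matrix (Fin 3) (Fin 3) F) *ᵥ (u j) := by
      rw [← hUu, Matrix.mulVec_mulVec, Units.val_mul]
    have h5 : ((P⁻¹ : GL (Fin 3) F) : Matrix (Fin 3) (Fin 3) F) *ᵥ (u j) = c • ι (v j) := by
      change _ *ᵥ (c • _) = _
      rw [Matrix.mulVec_smul, Matrix.mulVec_mulVec, ← Units.val_mul, inv_mul_cancel, Units.val_one, Matrix.one_mulVec]
    have h6 := congrFun (h4.trans h5) i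
    simpa [ι] using h6
  rw [h3, inv_mul_cancel_left₀ hc0]
  exact (v j i).2

/-! ## The test on codes -/

section codes

variable {p : ℕ} {w : F}

/-- The third column. -/
def simInner (p T mask : ℕ) (L : List V3) (u v : V3) (n : ℕ) : Bool :=
  (List.range p).all fun a => (List.range p).all fun b => (List.range p).all fun c =>
    !(Nat.beq (hC p ⟨a, b, c⟩ ⟨a, b, c⟩) n) || !(Nat.beq (hC p u ⟨a, b, c⟩) 0) || !(Nat.beq (hC p v ⟨a, b, c⟩) 0) ||
      closedB p T mask (ofCols u v ⟨a, b, c⟩) L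

/-- The second column. -/
def simMid (p T mask : ℕ) (L : List V3) (u : V3) (n : ℕ) : Bool :=
  (List.range p).all fun a => (List.range p).all fun b => (List.range p).all fun c =>
    !(Nat.beq (hC p ⟨a, b, c⟩ ⟨a, b, c⟩) n) || !(Nat.beq (hC p u ⟨a, b, c⟩) 0) || simInner p T mask L u ⟨a, b, c⟩ n

/-- The test over similitudes. -/
def checkSim (p T mask : ℕ) (L : List V3) : Bool :=
  (List.range p).all fun a => (List.range p).all fun b => (List.range p).all fun c =>
    Nat.beq (hC p ⟨a, b, c⟩ ⟨a, b, c⟩) 0 || simMid p T mask L ⟨a, b, c⟩ (hC p ⟨a, b, c⟩ ⟨a, b, c⟩)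

theorem nbeq_false {a b : ℕ} (h : a = b) : Nat.beq a b ≠ false := by
  subst h
  simp [Nat.beq_eq]

theorem nbeq_ne {a b : ℕ} (h : a ≠ b) : Nat.beq a b ≠ true := fun h' => h (Nat.eq_of_beq_eq_true h')

theorem checkSim_sound {T mask : ℕ} {L : List V3} (hchk : checkSim p T mask L = true)
    {a0 b0 c0 a1 b1 c1 a2 b2 c2 : ℕ} (h1 : a0 < p) (h2 : b0 < p) (h3 : c0 < p) (h4 : a1 < p) (h5 : b1 < p) (h6 : c1 < p)
    (h7 : a2 < p) (h8 : b2 < p) (h9 : c2 < p)
    (hn : hC p ⟨a0, b0, c0⟩ ⟨a0, b0, c0⟩ ≠ 0)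
    (e1 : hC p ⟨a1, b1, c1⟩ ⟨a1, b1, c1⟩ = hC p ⟨a0, b0, c0⟩ ⟨a0, b0, c0⟩)
    (e2 : hC p ⟨a2, b2, c2⟩ ⟨a2, b2, c2⟩ = hC p ⟨a0, b0, c0⟩ ⟨a0, b0, c0⟩)
    (e3 : hC p ⟨a0, b0, c0⟩ ⟨a1, b1, c1⟩ = 0) (e4 : hC p ⟨a0, b0, c0⟩ ⟨a2, b2, c2⟩ = 0)
    (e5 : hC p ⟨a1, b1, c1⟩ ⟨a2, b2, c2⟩ = 0) :
    closedB p T mask (ofCols ⟨a0, b0, c0⟩ ⟨a1, b1, c1⟩ ⟨a2, b2, c2⟩) L = true := by
  unfold checkSim at hchk
  simp only [List.all_eq_true, List.mem_range, Bool.or_eq_true, Bool.not_eq_true'] at hchk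
  rcases hchk a0 h1 b0 h2 c0 h3 with h | h
  · exact absurd h (nbeq_ne hn)
  unfold simMid at h
  simp only [List.all_eq_true, List.mem_range, Bool.or_eq_true, Bool.not_eq_true'] at h
  rcases h a1 h4 b1 h5 c1 h6 with (h | h) | h
  · exact absurd h (nbeq_false e1)
  · exact absurd h (nbeq_false e3)
  unfold simInner at h
  simp only [List.all_eq_true, List.mem_range, Bool.or_eq_true, Bool.not_eq_true'] at h
  rcases h a2 h7 b2 h8 c2 h9 with ((h | h) | h) | h
  · exact absurd h (nbeq_false e2)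
  · exact absurd h (nbeq_false e4)
  · exact absurd h (nbeq_false e5)
  · exact h

theorem φ_pow_eq (C : Ctx p w) (c : ℕ) : (φ p w c) ^ p = ((c % p : ℕ) : F) - ((c / p : ℕ) : F) * w := by
  rw [← φ_conj C]
  unfold φ
  rw [conjC_def, code_mod C.pos, code_div C.pos, cast_mod C.p0, cast_mod C.p0, Nat.cast_mul, cast_pred C]
  ring

/-- Elements of the prime field. -/
theorem exists_small (C : Ctx p w) (hF : Fintype.card F = p ^ 2) (x : F) (hx : x ^ p = x) :
    ∃ n < p, φ p w n = x := by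
  obtain ⟨c, hc, rfl⟩ := φ_surj C hF x
  have hp := C.pos
  rw [φ_pow_eq C] at hx
  have hw : w ≠ 0 := by
    rintro rfl
    have := C.sq
    rw [mul_zero] at this
    exact C.two this.symm
  have h1 : ((c / p : ℕ) : F) = 0 := by
    have h2 : 2 * (((c / p : ℕ) : F) * w) = 0 := by
      unfold φ at hx
      linear_combination -hx
    exact (mul_eq_zero.1 ((mul_eq_zero.1 h2).resolve_left C.two)).resolve_right hw
  refine ⟨c % p, Nat.mod_lt _ hp, ?_⟩
  unfold φ
  rw [h1, Nat.mod_mod, Nat.div_eq_of_lt (Nat.mod_lt _ hp)]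
  simp

theorem sim_closed (C : Ctx p w) (hF : Fintype.card F = p ^ 2) {T mask : ℕ} {L : List V3} (Pt : Pts p T mask L)
    (hchk : checkSim p T mask L = true) {g : GL (Fin 3) F} (hg : g ∈ GU 3 F p ⊓ specialLinear (Fin 3) F)
    {c : F} (hc : c ≠ 0) (hfix : ∀ i j, (c * (g : Matrix (Fin 3) (Fin 3) F) i j) ^ p = c * (g : Matrix (Fin 3) (Fin 3) F) i j) :
    ∀ y ∈ cone p w L, (g : Matrix (Fin 3) (Fin 3) F) *ᵥ y ∈ cone p w L := by
  have hiso := ((mem_SU3 hF g).1 hg).1
  choose n hn en using fun (a : Fin 3 × Fin 3) => exists_small C hF _ (hfix a.1 a.2)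
  set u : V3 := ⟨n (0, 0), n (1, 0), n (2, 0)⟩ with hu
  set v : V3 := ⟨n (0, 1), n (1, 1), n (2, 1)⟩ with hv
  set t : V3 := ⟨n (0, 2), n (1, 2), n (2, 2)⟩ with ht
  have hM : toM p w (ofCols u v t) = c • (g : Matrix (Fin 3) (Fin 3) F) := by
    ext i j
    have := en (i, j)
    fin_cases i <;> fin_cases j <;> simpa [toM, ofCols, hu, hv, ht] using this
  have hcol : ∀ j : Fin 3, toV p w (if j = 0 then u else if j = 1 then v else t) =
      c • ((g : Matrix (Fin 3) (Fin 3) F) *ᵥ Pi.single j 1) := by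
    intro j
    rw [← toM_cols C, hM, Matrix.smul_mulVec]
  have hl : ∀ i j : Fin 3, hermForm 3 F p (c • ((g : Matrix (Fin 3) (Fin 3) F) *ᵥ Pi.single i 1)) (c • ((g : Matrix (Fin 3) (Fin 3) F) *ᵥ Pi.single j 1))
      = if i = j then c * c ^ p else 0 := by
    intro i j
    have hf := hermForm_isUnitary 3 hF
    rw [hf.smul_left, Cfsg.Agent.Lib.Geo.UnitaryInSL.UForm.smul_right hf, hiso, form_single hF]
    by_cases h : i = j
    · simp [h]
    · simp [h]
  have hL : c * c ^ p ≠ 0 := mul_ne_zero hc (pow_ne_zero _ hc)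
  have c0 : toV p w u = c • ((g : Matrix (Fin 3) (Fin 3) F) *ᵥ Pi.single 0 1) := by simpa using hcol 0
  have c1 : toV p w v = c • ((g : Matrix (Fin 3) (Fin 3) F) *ᵥ Pi.single 1 1) := by simpa using hcol 1
  have c2 : toV p w t = c • ((g : Matrix (Fin 3) (Fin 3) F) *ᵥ Pi.single 2 1) := by
    have := hcol 2
    rwa [if_neg (by decide), if_neg (by decide)] at this
  have e00 : φ p w (hC p u u) = c * c ^ p := by rw [← herm_toV C, c0, hl, if_pos rfl]
  have e11 : φ p w (hC p v v) = c * c ^ p := by rw [← herm_toV C, c1, hl, if_pos rfl]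
  have e22 : φ p w (hC p t t) = c * c ^ p := by rw [← herm_toV C, c2, hl, if_pos rfl]
  have e01 : φ p w (hC p u v) = 0 := by rw [← herm_toV C, c0, c1, hl, if_neg (by decide)]
  have e02 : φ p w (hC p u t) = 0 := by rw [← herm_toV C, c0, c2, hl, if_neg (by decide)]
  have e12 : φ p w (hC p v t) = 0 := by rw [← herm_toV C, c1, c2, hl, if_neg (by decide)]
  have hpp : 0 < p * p := Nat.mul_pos C.pos C.pos
  have hn0 : hC p u u ≠ 0 := by
    intro h
    rw [h, φ_zero C] at e00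
    exact hL e00.symm
  have eq1 : hC p v v = hC p u u := φ_inj C (hC_lt C _ _) (hC_lt C _ _) (by rw [e00, e11])
  have eq2 : hC p t t = hC p u u := φ_inj C (hC_lt C _ _) (hC_lt C _ _) (by rw [e00, e22])
  have eq3 : hC p u v = 0 := φ_inj C (hC_lt C _ _) hpp (by rw [e01, φ_zero C])
  have eq4 : hC p u t = 0 := φ_inj C (hC_lt C _ _) hpp (by rw [e02, φ_zero C])
  have eq5 : hC p v t = 0 := φ_inj C (hC_lt C _ _) hpp (by rw [e12, φ_zero C])
  have hcl := checkSim_sound hchk (hn _) (hn _) (hn _) (hn _) (hn _) (hn _) (hn _) (hn _) (hn _) hn0 eq1 eq2 eq3 eq4 eq5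
  have hg' : (g : Matrix (Fin 3) (Fin 3) F) = c⁻¹ • toM p w (ofCols u v t) := by
    rw [hM, smul_smul, inv_mul_cancel₀ hc, one_smul]
  rw [hg']
  exact closed_smul C Pt hcl _

/-- **The exclusion of the subfield group.** -/
theorem sub_excl (C : Ctx p w) (hF : Fintype.card F = p ^ 2) (hodd : Odd p) {T mask : ℕ} {L : List V3} (Pt : Pts p T mask L)
    (hchk : checkSim p T mask L = true) {W₀ T₀ : M3} (hW₀ : isSU p W₀ = true) (hWc : closedB p T mask W₀ L = true)
    (hWz : conjC p (mulC p W₀.a00 (conjC p W₀.a01)) ≠ mulC p W₀.a00 (conjC p W₀.a01))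
    (hT₀ : isSU p T₀ = true) {u₀ : V3} (hu₀ : u₀ ∈ L)
    (hout : ∀ c < p * p, ∀ u ∈ L, smV p c u ≠ mv p T₀ u₀)
    {F₀ : Subfield F} (hc : Fintype.card F = Nat.card F₀ ^ 2) (P : GL (Fin 3) F)
    (hrat : IsFormRationalStructure (hermForm 3 F p) F₀ 1 P) :
    ∃ Y : Subgroup (GL (Fin 3) F), subfieldSubgroup F₀ P ⊓ (GU 3 F p ⊓ specialLinear (Fin 3) F) < Y ∧
      Y < GU 3 F p ⊓ specialLinear (Fin 3) F := by
  classical
  obtain ⟨U, hU, hPU⟩ := exists_rat_frame hF hodd hc P hrat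
  have hcq : Nat.card F₀ = p := by
    have h1 : Nat.card F₀ ^ 2 = p ^ 2 := by rw [← hc, hF]
    exact Nat.pow_left_injective (n := 2) (by norm_num) h1
  letI : Fintype F₀ := Fintype.ofFinite F₀
  have hfix : ∀ x ∈ F₀, x ^ p = x := by
    intro x hx
    have h1 := FiniteField.pow_card (⟨x, hx⟩ : F₀)
    rw [← Nat.card_eq_fintype_card, hcq] at h1
    simpa using congrArg Subtype.val h1
  have hmem : ∀ g, g ∈ subfieldSubgroup F₀ P → g ∈ subfieldSubgroup F₀ U := by
    intro g hg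
    rw [mem_subfield_iff] at hg ⊢
    have h1 : U⁻¹ * g * U = (P⁻¹ * U)⁻¹ * (P⁻¹ * g * P) * (P⁻¹ * U) := by group
    rw [h1]
    exact Subgroup.mul_mem _ (Subgroup.mul_mem _ (Subgroup.inv_mem _ hPU) hg) hPU
  have hconj : ∀ h : GL (Fin 3) F, h ∈ GU 3 F p ⊓ specialLinear (Fin 3) F → U⁻¹ * h * U ∈ GU 3 F p ⊓ specialLinear (Fin 3) F := by
    intro A hA
    rw [mem_SU3 hF] at hA ⊢
    refine ⟨(hU.inv.mul hA.1).mul hU, ?_⟩
    rw [Units.val_mul, Units.val_mul, Matrix.det_mul, Matrix.det_mul, hA.2, mul_one, ← Matrix.det_mul, ← Units.val_mul]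
    simp
  refine not_max_code C hF Pt inf_le_right U hU ?_ hW₀ hWc ?_ hT₀ hu₀ hout
  · rintro h ⟨hh, hI⟩
    obtain ⟨c, hc0, hcc⟩ := exists_scalar_of_mem (hmem h hh)
    exact sim_closed C hF Pt hchk (hconj h hI) hc0 fun i j => hfix _ (hcc i j)
  · rintro W hW ⟨hh, -⟩
    obtain ⟨c, hc0, hcc⟩ := exists_scalar_of_mem (hmem _ hh)
    have h6 : U⁻¹ * (U * W * U⁻¹) * U = W := by group
    rw [h6, hW] at hcc
    set a := φ p w W₀.a00 with ha
    set b := φ p w W₀.a01 with hb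
    have h7 : c * a ∈ F₀ := by simpa [toM] using hcc 0 0
    have h8 : c * b ∈ F₀ := by simpa [toM] using hcc 0 1
    have e1 := hfix _ h7
    have e2 := hfix _ h8
    have hZ : φ p w (mulC p W₀.a00 (conjC p W₀.a01)) = a * b ^ p := by
      rw [φ_mul C, φ_conj C]
    have hpp : ∀ x : F, x ^ (p * p) = x := by
      intro x
      have := FiniteField.pow_card x
      rwa [hF, pow_two] at this
    have hL : (c * c ^ p) ^ p = c * c ^ p := by
      rw [mul_pow, ← pow_mul, hpp]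
      ring
    have hlam : c * c ^ p ≠ 0 := mul_ne_zero hc0 (pow_ne_zero _ hc0)
    have h9 : (c * c ^ p) * (a * b ^ p) = (c * a) * (c * b) ^ p := by
      rw [mul_pow]
      ring
    rw [e2] at h9
    haveI := C.charP
    haveI : Fact p.Prime := ⟨C.prime⟩
    have h10 : ((c * c ^ p) * (a * b ^ p)) ^ p = (c * c ^ p) * (a * b ^ p) := by
      rw [h9, mul_pow, e1, e2]
    rw [mul_pow, hL] at h10
    have h11 := mul_left_cancel₀ hlam h10
    apply hWz
    apply φ_inj C (by rw [conjC_def]; exact code_lt C.pos _ _) (mulC_lt C.pos _ _)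
    rw [φ_conj C, hZ, h11]

end codes

end Cfsg.Agent.Lib.CmaxX.SU3Sub
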