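/-
The two exclusions in `SU₃(3)` given by a subgroup `L₃(2)`.
-/
import Cfsg.Agent.Lib.CmaxX.SU3Data3
import Cfsg.Agent.Lib.CmaxX.SU3Sub
import Cfsg.Agent.Lib.CmaxX.SU3Field

set_option autoImplicit false
set_option maxRecDepth 100000
set_option linter.unusedSectionVars false

namespace Cfsg.Agent.Lib.CmaxX.SU3X3

open Matrix Cfsg Cfsg.Geo
open Cfsg.Agent.Lib.CmaxX.SU3Code Cfsg.Agent.Lib.CmaxX.SU3Gen Cfsg.Agent.Lib.CmaxX.SU3Data3
open scoped MatrixGroups

theorem chkSim : SU3Sub.checkSim 3 T3 mask3 L3 = true := by decide +kernel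
theorem chkField : SU3Field.checkField 3 T3 mask3 L3 x3 w3 Binv3 = true := by decide +kernel

variable {F : Type*} [Field F] [Fintype F]

theorem sub3 (hF : Fintype.card F = 3 ^ 2) {F₀ : Subfield F} (hc : Fintype.card F = Nat.card F₀ ^ 2) (P : GL (Fin 3) F)
    (hrat : IsFormRationalStructure (hermForm 3 F 3) F₀ 1 P) :
    ∃ Y : Subgroup (GL (Fin 3) F), subfieldSubgroup F₀ P ⊓ (GU 3 F 3 ⊓ specialLinear (Fin 3) F) < Y ∧
      Y < GU 3 F 3 ⊓ specialLinear (Fin 3) F := by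
  obtain ⟨w, C⟩ := exists_ctx3 hF
  exact SU3Sub.sub_excl C hF (by decide) pts3 chkSim W3_su W3_cl (by decide +kernel) Z3_su u3_mem Z3_out hc P hrat

theorem field3 (hF : Fintype.card F = 3 ^ 2) {K : Subalgebra F (Matrix (Fin 3) (Fin 3) F)} (hK : IsFieldSubalgebra 3 K)
    (hcl : IsAdjointClosedFor (hermForm 3 F 3) K) :
    ∃ Y : Subgroup (GL (Fin 3) F), subalgebraNormalizer K ⊓ (GU 3 F 3 ⊓ specialLinear (Fin 3) F) < Y ∧
      Y < GU 3 F 3 ⊓ specialLinear (Fin 3) F := by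
  obtain ⟨w, C⟩ := exists_ctx3 hF
  refine SU3Field.field_excl C hF (by norm_num) (by norm_num) (by simp [Fin.prod_univ_three]) pts3 x3_su
    (by unfold Lt; decide +kernel) (by decide +kernel) (by decide +kernel) (by decide +kernel) chkField W3_su W3_cl (by decide +kernel) Z3_su u3_mem Z3_out hK hcl

end Cfsg.Agent.Lib.CmaxX.SU3X3
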