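/-
The stabiliser of an orthogonal frame, in terms of codes.
-/
import Cfsg.Agent.Lib.CmaxX.SU3Gen
import Cfsg.Agent.Lib.SUMon.Main

set_option autoImplicit false
set_option linter.unusedSectionVars false
set_option linter.unusedVariables false
set_option linter.unusedSimpArgs false
set_option linter.style.haveILetI false

namespace Cfsg.Agent.Lib.CmaxX.SU3Frame

open Matrix Module Cfsg Cfsg.Geo Cfsg.Agent.Lib.Geo.Basic Cfsg.Agent.Lib.Geo.SUGen
open Cfsg.Agent.Lib.CmaxX.SU3Code Cfsg.Agent.Lib.CmaxX.SU3Gen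
open scoped MatrixGroups

variable {F : Type*} [Field F] [Fintype F] {p : ℕ} {w : F}

/-- A vector with one coordinate. -/
def sV (t x : ℕ) : V3 := cond (Nat.beq t 0) ⟨x, 0, 0⟩ (cond (Nat.beq t 1) ⟨0, x, 0⟩ ⟨0, 0, x⟩)

theorem sV_def (t x : ℕ) : sV t x = if t = 0 then ⟨x, 0, 0⟩ else if t = 1 then ⟨0, x, 0⟩ else ⟨0, 0, x⟩ := by
  unfold sV
  by_cases h0 : t = 0
  · simp [h0, Nat.beq_eq]
  · have h2 : Nat.beq t 0 = false := by
      rw [← Bool.not_eq_true, Nat.beq_eq]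
      exact h0
    by_cases h1 : t = 1
    · subst h1
      rfl
    · have h3 : Nat.beq t 1 = false := by
        rw [← Bool.not_eq_true, Nat.beq_eq]
        exact h1
      simp [h0, h1, h2, h3]

theorem toV_sV (C : Ctx p w) (t : Fin 3) (x : ℕ) : toV p w (sV t.1 x) = φ p w x • (Pi.single t 1 : Fin 3 → F) := by
  funext i
  fin_cases t <;> fin_cases i <;> simp [sV_def, toV, φ_zero C]

theorem vlt_sV (C : Ctx p w) (t x : ℕ) (hx : x < p * p) : VLt p (sV t x) := by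
  have h0 : 0 < p * p := Nat.mul_pos C.pos C.pos
  rw [sV_def]
  split_ifs
  · exact ⟨hx, h0, h0⟩
  · exact ⟨h0, hx, h0⟩
  · exact ⟨h0, h0, hx⟩

/-- The test over monomial matrices. -/
def checkFrame (p T mask : ℕ) (L : List V3) : Bool :=
  (List.range 3).all fun t0 => (List.range (p * p)).all fun x0 => !(Nat.beq (hC p (sV t0 x0) (sV t0 x0)) 1) ||
  (List.range 3).all fun t1 => (List.range (p * p)).all fun x1 => !(Nat.beq (hC p (sV t1 x1) (sV t1 x1)) 1) ||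
  (List.range 3).all fun t2 => (List.range (p * p)).all fun x2 => !(Nat.beq (hC p (sV t2 x2) (sV t2 x2)) 1) ||
    !(isSU p (ofCols (sV t0 x0) (sV t1 x1) (sV t2 x2))) ||
      closedB p T mask (ofCols (sV t0 x0) (sV t1 x1) (sV t2 x2)) L

theorem checkFrame_sound {T mask : ℕ} {L : List V3} (hchk : checkFrame p T mask L = true)
    {t0 t1 t2 x0 x1 x2 : ℕ} (ht0 : t0 < 3) (ht1 : t1 < 3) (ht2 : t2 < 3) (hx0 : x0 < p * p) (hx1 : x1 < p * p) (hx2 : x2 < p * p)
    (hn0 : hC p (sV t0 x0) (sV t0 x0) = 1) (hn1 : hC p (sV t1 x1) (sV t1 x1) = 1) (hn2 : hC p (sV t2 x2) (sV t2 x2) = 1)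
    (hS : isSU p (ofCols (sV t0 x0) (sV t1 x1) (sV t2 x2)) = true) :
    closedB p T mask (ofCols (sV t0 x0) (sV t1 x1) (sV t2 x2)) L = true := by
  unfold checkFrame at hchk
  simp only [List.all_eq_true, List.mem_range, Bool.or_eq_true, Bool.not_eq_true'] at hchk
  have bb : ∀ a b : ℕ, a = b → Nat.beq a b ≠ false := by
    intro a b h
    subst h
    simp [Nat.beq_eq]
  have h1 := hchk t0 ht0 x0 hx0
  rcases h1 with h1 | h1
  · exact absurd h1 (bb _ _ hn0)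
  have h2 := h1 t1 ht1 x1 hx1
  rcases h2 with h2 | h2
  · exact absurd h2 (bb _ _ hn1)
  have h3 := h2 t2 ht2 x2 hx2
  rcases h3 with (h3 | h3) | h3
  · exact absurd h3 (bb _ _ hn2)
  · rw [hS] at h3
    exact absurd h3 (by decide)
  · exact h3

/-- Monomial elements of the group stabilise the cone. -/
theorem mono_closed (C : Ctx p w) (hF : Fintype.card F = p ^ 2) {T mask : ℕ} {L : List V3} (Pt : Pts p T mask L)
    (hchk : checkFrame p T mask L = true) {g : GL (Fin 3) F} (hg : g ∈ GU 3 F p ⊓ specialLinear (Fin 3) F)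
    (τ : Fin 3 → Fin 3) (c : Fin 3 → F)
    (hm : ∀ j, (g : Matrix (Fin 3) (Fin 3) F) *ᵥ Pi.single j 1 = c j • (Pi.single (τ j) 1 : Fin 3 → F)) :
    ∀ y ∈ cone p w L, (g : Matrix (Fin 3) (Fin 3) F) *ᵥ y ∈ cone p w L := by
  have hiso := ((mem_SU3 hF g).1 hg).1
  obtain ⟨x0, hx0, e0⟩ := φ_surj C hF (c 0)
  obtain ⟨x1, hx1, e1⟩ := φ_surj C hF (c 1)
  obtain ⟨x2, hx2, e2⟩ := φ_surj C hF (c 2)
  set A := ofCols (sV (τ 0).1 x0) (sV (τ 1).1 x1) (sV (τ 2).1 x2) with hA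
  have hAg : toM p w A = (g : Matrix (Fin 3) (Fin 3) F) := by
    apply matrix_eq_of_cols
    intro j
    rw [hm, hA, toM_cols C]
    fin_cases j
    · simp only [Fin.zero_eta, if_true]
      rw [toV_sV C, e0]
    · simp only [Fin.mk_one, one_ne_zero, if_false, if_true]
      rw [toV_sV C, e1]
    · have h0 : ((⟨2, by omega⟩ : Fin 3) : Fin 3) = 2 := rfl
      simp only [h0]
      rw [if_neg (by decide), if_neg (by decide), toV_sV C, e2]
  have hLt : Lt p A := lt_ofCols (vlt_sV C _ _ hx0) (vlt_sV C _ _ hx1) (vlt_sV C _ _ hx2)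
  have hSU : isSU p A = true := by
    apply isSU_of_mem C hF hLt
    · rw [hAg]
      exact hiso
    · rw [hAg]
      exact ((mem_SU3 hF g).1 hg).2
  have hnorm : ∀ (j : Fin 3) (x : ℕ), x < p * p → φ p w x = c j → hC p (sV (τ j).1 x) (sV (τ j).1 x) = 1 := by
    intro j x hx ex
    have h1 : 1 < p * p := by
      have := C.prime.two_le
      nlinarith
    apply φ_inj C (hC_lt C _ _) h1
    rw [φ_one C, ← herm_toV C, toV_sV C, ex, ← hm, hiso]
    have hp0 : p ≠ 0 := C.prime.ne_zero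
    haveI := C.charP
    fin_cases j <;> simp [hermForm, Fin.sum_univ_three, hp0]
  have hcl := checkFrame_sound hchk (τ 0).2 (τ 1).2 (τ 2).2 hx0 hx1 hx2 (hnorm 0 x0 hx0 e0) (hnorm 1 x1 hx1 e1)
    (hnorm 2 x2 hx2 e2) hSU
  rw [← hAg]
  exact closed_sound C Pt hcl

open Cfsg.Agent.Lib.SUMon.Base Cfsg.Agent.Lib.SUMon.Blk Cfsg.Agent.Lib.SUMon.Main in
/-- Change of basis for a frame. -/
theorem exists_frame {q : ℕ} (hF : Fintype.card F = q ^ 2) {D : Fin 3 → Submodule F (Fin 3 → F)}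
    (hD : IsNondegenerateMDecomposition (hermForm 3 F q) 1 D) :
    ∃ U : GL (Fin 3) F, IsIso (hermForm 3 F q) U ∧ ∀ h ∈ decompositionStabilizer D, ∀ j : Fin 3, ∃ (τ : Fin 3) (c : F),
      ((U⁻¹ * h * U : GL (Fin 3) F) : Matrix (Fin 3) (Fin 3) F) *ᵥ Pi.single j 1 = c • (Pi.single τ 1 : Fin 3 → F) := by
  classical
  have hs : Std (frobEquiv hF) (hermForm 3 F q) := ⟨hermForm_isUnitary 3 hF, fun u v => rfl⟩
  obtain ⟨bl, U, hU, hc, hm⟩ := exists_frame_unitary hs D hD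
  refine ⟨U, hU, ?_⟩
  rintro h ⟨σ, hσ⟩ j
  have he : (Pi.single j 1 : Fin 3 → F) ∈ blk (F := F) bl (bl j) := by
    intro i hi
    have : i ≠ j := fun h => hi (by rw [h])
    simp [this]
  have h1 : (U : Matrix (Fin 3) (Fin 3) F) *ᵥ (Pi.single j 1 : Fin 3 → F) ∈ D (bl j) := by
    rw [← hm]
    exact Submodule.mem_map_of_mem (f := Matrix.toLin' (U : Matrix (Fin 3) (Fin 3) F)) he
  have h2 : (h : Matrix (Fin 3) (Fin 3) F) *ᵥ ((U : Matrix (Fin 3) (Fin 3) F) *ᵥ (Pi.single j 1 : Fin 3 → F)) ∈ D (σ (bl j)) := by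
    rw [← hσ]
    exact Submodule.mem_map_of_mem (f := Matrix.toLin' (h : Matrix (Fin 3) (Fin 3) F)) h1
  rw [← hm] at h2
  obtain ⟨v, hv, hve⟩ := Submodule.mem_map.1 h2
  have hUv : (U : Matrix (Fin 3) (Fin 3) F) *ᵥ v = (h : Matrix (Fin 3) (Fin 3) F) *ᵥ ((U : Matrix (Fin 3) (Fin 3) F) *ᵥ (Pi.single j 1 : Fin 3 → F)) := by
    simpa using hve
  have hval : ((U⁻¹ * h * U : GL (Fin 3) F) : Matrix (Fin 3) (Fin 3) F) *ᵥ Pi.single j 1 = v := by
    have h3 : ((U⁻¹ * h * U : GL (Fin 3) F) : Matrix (Fin 3) (Fin 3) F) *ᵥ Pi.single j 1 =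
        ((U⁻¹ : GL (Fin 3) F) : Matrix (Fin 3) (Fin 3) F) *ᵥ ((h : Matrix (Fin 3) (Fin 3) F) *ᵥ ((U : Matrix (Fin 3) (Fin 3) F) *ᵥ (Pi.single j 1 : Fin 3 → F))) := by
      rw [Matrix.mulVec_mulVec, Matrix.mulVec_mulVec, ← Units.val_mul, ← Units.val_mul, mul_assoc]
    rw [h3, ← hUv, Matrix.mulVec_mulVec, ← Units.val_mul, inv_mul_cancel, Units.val_one, Matrix.one_mulVec]
  rw [hval]
  obtain ⟨j', hj'⟩ := Finset.card_eq_one.1 (hc (σ (bl j)))
  refine ⟨j', v j', ?_⟩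
  funext i
  by_cases hi : i = j'
  · subst hi
    simp
  · have h4 : bl i ≠ σ (bl j) := by
      intro h5
      have : i ∈ Finset.univ.filter fun k => bl k = σ (bl j) := by simp [h5]
      rw [hj'] at this
      exact hi (Finset.mem_singleton.1 this)
    rw [hv i h4]
    simp [hi]

/-- **The exclusion of the frame.** -/
theorem frame_excl (C : Ctx p w) (hF : Fintype.card F = p ^ 2) {T mask : ℕ} {L : List V3} (Pt : Pts p T mask L)
    (hchk : checkFrame p T mask L = true) {W₀ T₀ : M3} (hW₀ : isSU p W₀ = true) (hWc : closedB p T mask W₀ L = true)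
    (hW00 : W₀.a00 ≠ 0) (hW10 : W₀.a10 ≠ 0) (hW00lt : W₀.a00 < p * p) (hW10lt : W₀.a10 < p * p)
    (hT₀ : isSU p T₀ = true) {u₀ : V3} (hu₀ : u₀ ∈ L)
    (hout : ∀ c < p * p, ∀ u ∈ L, smV p c u ≠ mv p T₀ u₀)
    {D : Fin 3 → Submodule F (Fin 3 → F)} (hD : IsNondegenerateMDecomposition (hermForm 3 F p) 1 D) :
    ∃ Y : Subgroup (GL (Fin 3) F), decompositionStabilizer D ⊓ (GU 3 F p ⊓ specialLinear (Fin 3) F) < Y ∧
      Y < GU 3 F p ⊓ specialLinear (Fin 3) F := by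
  obtain ⟨U, hU, key⟩ := exists_frame hF hD
  have hconj : ∀ h : GL (Fin 3) F, h ∈ GU 3 F p ⊓ specialLinear (Fin 3) F → U⁻¹ * h * U ∈ GU 3 F p ⊓ specialLinear (Fin 3) F := by
    intro A hA
    rw [mem_SU3 hF] at hA ⊢
    refine ⟨(hU.inv.mul hA.1).mul hU, ?_⟩
    rw [Units.val_mul, Units.val_mul, Matrix.det_mul, Matrix.det_mul, hA.2, mul_one, ← Matrix.det_mul, ← Units.val_mul]
    simp
  refine not_max_code C hF Pt inf_le_right U hU ?_ hW₀ hWc ?_ hT₀ hu₀ hout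
  · rintro h ⟨hh, hI⟩
    choose τ c hτ using key h hh
    exact mono_closed C hF Pt hchk (hconj h hI) τ c hτ
  · rintro W hW ⟨hh, -⟩
    obtain ⟨τ, c, hτ⟩ := key _ hh 0
    have h6 : U⁻¹ * (U * W * U⁻¹) * U = W := by group
    rw [h6, hW, Matrix.mulVec_single_one] at hτ
    have e0 := congrFun hτ 0
    have e1 := congrFun hτ 1
    have h7 : φ p w W₀.a00 ≠ 0 := by
      intro h
      rw [← φ_zero C] at h
      exact hW00 (φ_inj C hW00lt (Nat.mul_pos C.pos C.pos) h)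
    have h8 : φ p w W₀.a10 ≠ 0 := by
      intro h
      rw [← φ_zero C] at h
      exact hW10 (φ_inj C hW10lt (Nat.mul_pos C.pos C.pos) h)
    simp only [toM, Matrix.col_apply, Pi.smul_apply] at e0 e1
    simp at e0 e1
    by_cases h9 : τ = 0
    · subst h9
      apply h8
      simpa using e1
    · apply h7
      have h10 : (0 : Fin 3) ≠ τ := Ne.symm h9
      simpa [h10] using e0

end Cfsg.Agent.Lib.CmaxX.SU3Frame
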