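/-
The three exclusions in `SU₃(5)` given by a subgroup `3.A₇`.
-/
import Cfsg.Agent.Lib.CmaxX.SU3Data5
import Cfsg.Agent.Lib.CmaxX.SU3Frame
import Cfsg.Agent.Lib.CmaxX.SU3Sub
import Cfsg.Agent.Lib.CmaxX.SU3Field

set_option autoImplicit false
set_option maxRecDepth 100000
set_option linter.unusedSectionVars false

namespace Cfsg.Agent.Lib.CmaxX.SU3X5

open Matrix Cfsg Cfsg.Geo
open Cfsg.Agent.Lib.CmaxX.SU3Code Cfsg.Agent.Lib.CmaxX.SU3Gen Cfsg.Agent.Lib.CmaxX.SU3Data5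
open scoped MatrixGroups

theorem chkFrame : SU3Frame.checkFrame 5 T5 mask5 L5 = true := by decide +kernel
theorem chkSim : SU3Sub.checkSim 5 T5 mask5 L5 = true := by decide +kernel
theorem chkField : SU3Field.checkField 5 T5 mask5 L5 x5 w5 Binv5 = true := by decide +kernel

variable {F : Type*} [Field F] [Fintype F]

theorem frame5 (hF : Fintype.card F = 5 ^ 2) {D : Fin 3 → Submodule F (Fin 3 → F)}
    (hD : IsNondegenerateMDecomposition (hermForm 3 F 5) 1 D) :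
    ∃ Y : Subgroup (GL (Fin 3) F), decompositionStabilizer D ⊓ (GU 3 F 5 ⊓ specialLinear (Fin 3) F) < Y ∧
      Y < GU 3 F 5 ⊓ specialLinear (Fin 3) F := by
  obtain ⟨w, C⟩ := exists_ctx5 hF
  exact SU3Frame.frame_excl C hF pts5 chkFrame W5_su W5_cl (by decide) (by decide) (by decide) (by decide) Z5_su u5_mem Z5_out hD

theorem sub5 (hF : Fintype.card F = 5 ^ 2) {F₀ : Subfield F} (hc : Fintype.card F = Nat.card F₀ ^ 2) (P : GL (Fin 3) F)
    (hrat : IsFormRationalStructure (hermForm 3 F 5) F₀ 1 P) :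
    ∃ Y : Subgroup (GL (Fin 3) F), subfieldSubgroup F₀ P ⊓ (GU 3 F 5 ⊓ specialLinear (Fin 3) F) < Y ∧
      Y < GU 3 F 5 ⊓ specialLinear (Fin 3) F := by
  obtain ⟨w, C⟩ := exists_ctx5 hF
  exact SU3Sub.sub_excl C hF (by decide) pts5 chkSim W5_su W5_cl (by decide +kernel) Z5_su u5_mem Z5_out hc P hrat

theorem field5 (hF : Fintype.card F = 5 ^ 2) {K : Subalgebra F (Matrix (Fin 3) (Fin 3) F)} (hK : IsFieldSubalgebra 3 K)
    (hcl : IsAdjointClosedFor (hermForm 3 F 5) K) :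
    ∃ Y : Subgroup (GL (Fin 3) F), subalgebraNormalizer K ⊓ (GU 3 F 5 ⊓ specialLinear (Fin 3) F) < Y ∧
      Y < GU 3 F 5 ⊓ specialLinear (Fin 3) F := by
  obtain ⟨w, C⟩ := exists_ctx5 hF
  refine SU3Field.field_excl C hF (by norm_num) (by norm_num) (by simp [Fin.prod_univ_three]) pts5 x5_su
    (by unfold Lt; decide +kernel) (by decide +kernel) (by decide +kernel) (by decide +kernel) chkField W5_su W5_cl (by decide +kernel) Z5_su u5_mem Z5_out hK hcl

end Cfsg.Agent.Lib.CmaxX.SU3X5
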