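/-
The normaliser of an extraspecial group of order `27` in `SU₃(5)`: normal form of the group.
-/
import Cfsg.Agent.Lib.CmaxX.SU3DataR
import Cfsg.Agent.Lib.CmaxX.SU3Sub
import Cfsg.Agent.Lib.CmaxX.SU3Field
import Cfsg.Agent.Lib.Elusive.HermEigen

set_option autoImplicit false
set_option linter.unusedSectionVars false
set_option linter.unusedVariables false
set_option linter.unusedSimpArgs false
set_option linter.style.haveILetI false
set_option maxHeartbeats 2000000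

namespace Cfsg.Agent.Lib.CmaxX.SU3R

open Matrix Module Cfsg Cfsg.Geo Cfsg.Agent.Lib.Geo.Basic Cfsg.Agent.Lib.Geo.SUGen
open Cfsg.Agent.Lib.Geo.UnitaryInSL
open Cfsg.Agent.Lib.CmaxX.SU3Code Cfsg.Agent.Lib.CmaxX.SU3Gen Cfsg.Agent.Lib.CmaxX.SU3Sub
open Cfsg.Agent.Lib.CmaxX.SU3Field
open scoped MatrixGroups

variable {F : Type*} [Field F] [Fintype F] {w : F}

/-- The diagonal generator. -/
def xc : M3 := ⟨1, 0, 0, 0, 12, 0, 0, 0, 17⟩
/-- The cyclic generator. -/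
def yc : M3 := ⟨0, 0, 1, 1, 0, 0, 0, 1, 0⟩
/-- The scalar generator. -/
def oc : M3 := ⟨17, 0, 0, 0, 17, 0, 0, 0, 17⟩

/-- The elements of the group. -/
def rr (a b c : ℕ) : M3 := mm 5 (mm 5 (xpow 5 oc a) (xpow 5 xc b)) (xpow 5 yc c)

section omega

variable (C : Ctx 5 w)
include C

theorem om_rel : φ 5 w 17 * φ 5 w 17 + φ 5 w 17 + 1 = 0 := by
  have h : addC 5 (addC 5 (mulC 5 17 17) 17) 1 = 0 := by decide +kernel
  have h2 := congrArg (φ 5 w) h
  rwa [φ_add C, φ_add C, φ_mul C, φ_one C, φ_zero C] at h2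

theorem om_sq : φ 5 w 12 = φ 5 w 17 * φ 5 w 17 := by
  have h : mulC 5 17 17 = 12 := by decide +kernel
  rw [← φ_mul C, h]

theorem om_cube : φ 5 w 17 ^ 3 = 1 := by
  have h := om_rel C
  linear_combination (φ 5 w 17 - 1) * h

theorem three_ne : (3 : F) ≠ 0 := by
  intro h
  have h5 : (5 : F) = 0 := by exact_mod_cast C.p0
  have h2 : (2 : F) = 0 := by linear_combination h5 - h
  exact C.two h2

theorem om_ne : φ 5 w 17 ≠ 1 := by
  intro h
  have h1 := om_rel C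
  rw [h] at h1
  exact three_ne C (by linear_combination h1)

theorem om2_ne : φ 5 w 17 * φ 5 w 17 ≠ 1 := by
  intro h
  apply om_ne C
  have h1 := om_cube C
  linear_combination h1 - φ 5 w 17 * h

/-- Cube roots of unity. -/
theorem cube_root {c : F} (h1 : c ^ 3 = 1) (h2 : c ≠ 1) : c = φ 5 w 17 ∨ c = φ 5 w 17 * φ 5 w 17 := by
  have h3 : c ^ 2 + c + 1 = 0 := by
    have h4 : (c - 1) * (c ^ 2 + c + 1) = 0 := by linear_combination h1
    exact (mul_eq_zero.1 h4).resolve_left (sub_ne_zero.2 h2)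
  have h4 : (c - φ 5 w 17) * (c - φ 5 w 17 * φ 5 w 17) = 0 := by
    have h5 := om_rel C
    have h6 := om_cube C
    linear_combination h3 - (c) * h5 + h6
  rcases mul_eq_zero.1 h4 with h | h
  · exact Or.inl (sub_eq_zero.1 h)
  · exact Or.inr (sub_eq_zero.1 h)

end omega

/-! ## Similarities of order three are isometries -/

theorem sim_iso (hF : Fintype.card F = 5 ^ 2) {g : GL (Fin 3) F} (hg : g ∈ similarityGroup (hermForm 3 F 5)) (h3 : g ^ 3 = 1) :
    IsIso (hermForm 3 F 5) g := by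
  obtain ⟨c, hc⟩ := hg
  have hf := hermForm_isUnitary 3 hF
  set G := (g : Matrix (Fin 3) (Fin 3) F) with hG
  have hG3 : G * (G * G) = 1 := by
    have := congrArg Units.val h3
    rw [Units.val_pow_eq_pow_val, Units.val_one] at this
    rw [← this]
    noncomm_ring
  have e : hermForm 3 F 5 (Pi.single 0 1) (Pi.single 0 1) = 1 := by
    rw [form_single hF, if_pos rfl]
  have h1 : (c : F) ^ 5 = c := by
    have h2 := hc (Pi.single 0 1) (Pi.single 0 1)
    rw [e, mul_one] at h2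
    rw [← h2]
    exact UForm.sigma_self hf _
  have h2 : (c : F) ^ 3 = 1 := by
    have h4 := hc (Pi.single 0 1) (Pi.single 0 1)
    have h5 := hc (G *ᵥ Pi.single 0 1) (G *ᵥ Pi.single 0 1)
    have h6 := hc (G *ᵥ (G *ᵥ Pi.single 0 1)) (G *ᵥ (G *ᵥ Pi.single 0 1))
    have h7 : G *ᵥ (G *ᵥ (G *ᵥ (Pi.single 0 1 : Fin 3 → F))) = Pi.single 0 1 := by
      rw [Matrix.mulVec_mulVec, Matrix.mulVec_mulVec, mul_assoc, hG3, Matrix.one_mulVec]
    rw [h7, e] at h6
    rw [h5, h4, e] at h6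
    rw [h6]
    ring
  have h4 : (c : F) = 1 := by
    have h0 := c.ne_zero
    have h5 : (c : F) * ((c : F) ^ 4 - 1) = 0 := by linear_combination h1
    have h6 : (c : F) ^ 4 = 1 := by
      have := (mul_eq_zero.1 h5).resolve_left h0
      linear_combination this
    linear_combination h6 - (c : F) * h2
  intro u v
  rw [hc, h4, one_mul]

/-! ## A pair of generators -/

theorem exists_pair (C : Ctx 5 w) {R : Subgroup (GL (Fin 3) F)} (hR : IsSymplecticTypeGroup 3 R)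
    (hRA : ActsAbsolutelyIrreducibly (matrixSet R)) (hcR : Nat.card R = 27) (hZ : Nat.card (Subgroup.center R) = 3) :
    ∃ x ∈ R, ∃ y ∈ R, ∃ Ω ∈ R, (Ω : Matrix (Fin 3) (Fin 3) F) = φ 5 w 17 • (1 : Matrix (Fin 3) (Fin 3) F) ∧
      (y : Matrix (Fin 3) (Fin 3) F) * (x : Matrix (Fin 3) (Fin 3) F) =
        φ 5 w 17 • ((x : Matrix (Fin 3) (Fin 3) F) * (y : Matrix (Fin 3) (Fin 3) F)) := by
  classical
  have hexp : ∀ g : R, g ^ 3 = 1 := by
    intro g
    have h1 := Monoid.pow_exponent_eq_one g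
    rw [hR.exponent_eq] at h1
    simpa using h1
  have hcen : ∀ z ∈ Subgroup.center R, ∃ c : F, ((z : GL (Fin 3) F) : Matrix (Fin 3) (Fin 3) F) = c • (1 : Matrix (Fin 3) (Fin 3) F) ∧
      (z ≠ 1 → c = φ 5 w 17 ∨ c = φ 5 w 17 * φ 5 w 17) := by
    intro z hz
    obtain ⟨c, hc⟩ := hRA.2 ((z : GL (Fin 3) F) : Matrix (Fin 3) (Fin 3) F) (by
      rintro s ⟨r, hr, rfl⟩
      have h1 := (Subgroup.mem_center_iff.1 hz) ⟨r, hr⟩
      have h2 := congrArg (fun t : R => ((t : GL (Fin 3) F) : Matrix (Fin 3) (Fin 3) F)) h1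
      simpa using h2.symm)
    refine ⟨c, hc, fun hz1 => ?_⟩
    have h3 : c ^ 3 = 1 := by
      have h4 := congrArg (fun t : R => ((t : GL (Fin 3) F) : Matrix (Fin 3) (Fin 3) F) 0 0) (hexp z)
      simp only [Subgroup.coe_pow, Units.val_pow_eq_pow_val, hc] at h4
      simpa [smul_pow] using h4
    apply cube_root C h3
    rintro rfl
    apply hz1
    apply Subtype.ext
    apply Units.ext
    rw [hc, one_smul]
    rfl
  -- non-commutativity
  have hnc : ∃ x y : R, y * x ≠ x * y := by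
    by_contra h
    push Not at h
    have h1 : Subgroup.center R = ⊤ := by
      rw [eq_top_iff]
      intro z _
      exact Subgroup.mem_center_iff.2 (fun g => h z g)
    rw [h1, Subgroup.card_top, hcR] at hZ
    omega
  obtain ⟨x, y, hxy⟩ := hnc
  -- the commutator is central
  haveI : Fact (Nat.Prime 3) := ⟨Nat.prime_three⟩
  have hq : Nat.card (R ⧸ Subgroup.center R) = 3 ^ 2 := by
    have h1 := (Subgroup.center R).card_eq_card_quotient_mul_card_subgroup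
    rw [hcR, hZ] at h1
    omega
  have hcomm := (IsPGroup.isMulCommutative_of_card_eq_prime_sq (p := 3) hq).is_comm.comm
  have hzc : y * x * y⁻¹ * x⁻¹ ∈ Subgroup.center R := by
    have h1 : (QuotientGroup.mk' (Subgroup.center R)) (y * x * y⁻¹ * x⁻¹) = 1 := by
      simp only [map_mul, map_inv]
      rw [hcomm ((QuotientGroup.mk' (Subgroup.center R)) y) ((QuotientGroup.mk' (Subgroup.center R)) x)]
      group
    exact (QuotientGroup.eq_one_iff _).1 h1
  set z : R := y * x * y⁻¹ * x⁻¹ with hzdef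
  have hz1 : z ≠ 1 := by
    intro h
    apply hxy
    have h2 : y * x = z * (x * y) := by
      rw [hzdef]
      group
    rw [h2, h, one_mul]
  obtain ⟨c, hc, hcc⟩ := hcen z hzc
  have hyx : y * x = z * (x * y) := by
    rw [hzdef]
    group
  have hmat : ((y : GL (Fin 3) F) : Matrix (Fin 3) (Fin 3) F) * ((x : GL (Fin 3) F) : Matrix (Fin 3) (Fin 3) F) =
      c • (((x : GL (Fin 3) F) : Matrix (Fin 3) (Fin 3) F) * ((y : GL (Fin 3) F) : Matrix (Fin 3) (Fin 3) F)) := by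
    have h1 := congrArg (fun t : R => ((t : GL (Fin 3) F) : Matrix (Fin 3) (Fin 3) F)) hyx
    simp only [Subgroup.coe_mul, Units.val_mul, hc] at h1
    rw [h1, Matrix.smul_mul, one_mul]
  rcases hcc hz1 with h | h
  · subst h
    exact ⟨x, x.2, y, y.2, z, z.2, hc, hmat⟩
  · subst h
    have hom := om_cube C
    refine ⟨x, x.2, y * y, (y * y).2, z * z, (z * z).2, ?_, ?_⟩
    · simp only [Subgroup.coe_mul, Units.val_mul, hc]
      rw [Matrix.smul_mul, Matrix.mul_smul, smul_smul, one_mul]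
      congr 1
      linear_combination (φ 5 w 17) * hom
    · simp only [Subgroup.coe_mul, Units.val_mul]
      set X := ((x : GL (Fin 3) F) : Matrix (Fin 3) (Fin 3) F)
      set Y := ((y : GL (Fin 3) F) : Matrix (Fin 3) (Fin 3) F)
      calc Y * Y * X = Y * (Y * X) := mul_assoc _ _ _
        _ = (φ 5 w 17 * φ 5 w 17 * (φ 5 w 17 * φ 5 w 17)) • (X * (Y * Y)) := by
          rw [hmat, Matrix.mul_smul, ← mul_assoc Y X Y, hmat, Matrix.smul_mul, smul_smul, mul_assoc X Y Y]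
        _ = φ 5 w 17 • (X * (Y * Y)) := by
          congr 1
          linear_combination (φ 5 w 17) * hom

/-! ## The standard frame -/

section frame

variable (C : Ctx 5 w)
include C

theorem xc_col0 : toM 5 w xc *ᵥ Pi.single 0 1 = (Pi.single 0 1 : Fin 3 → F) := by
  rw [Matrix.mulVec_single_one]
  funext i
  fin_cases i <;> simp [toM, xc, φ_zero C, φ_one C]

theorem xc_col1 : toM 5 w xc *ᵥ Pi.single 1 1 = (φ 5 w 17 * φ 5 w 17) • (Pi.single 1 1 : Fin 3 → F) := by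
  rw [Matrix.mulVec_single_one]
  funext i
  fin_cases i <;> simp [toM, xc, φ_zero C, om_sq C]

theorem xc_col2 : toM 5 w xc *ᵥ Pi.single 2 1 = φ 5 w 17 • (Pi.single 2 1 : Fin 3 → F) := by
  rw [Matrix.mulVec_single_one]
  funext i
  fin_cases i <;> simp [toM, xc, φ_zero C]

theorem yc_col0 : toM 5 w yc *ᵥ Pi.single 0 1 = (Pi.single 1 1 : Fin 3 → F) := by
  rw [Matrix.mulVec_single_one]
  funext i
  fin_cases i <;> simp [toM, yc, φ_zero C, φ_one C]

theorem yc_col1 : toM 5 w yc *ᵥ Pi.single 1 1 = (Pi.single 2 1 : Fin 3 → F) := by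
  rw [Matrix.mulVec_single_one]
  funext i
  fin_cases i <;> simp [toM, yc, φ_zero C, φ_one C]

theorem yc_col2 : toM 5 w yc *ᵥ Pi.single 2 1 = (Pi.single 0 1 : Fin 3 → F) := by
  rw [Matrix.mulVec_single_one]
  funext i
  fin_cases i <;> simp [toM, yc, φ_zero C, φ_one C]

/-- **The standard frame of a pair of generators.** -/
theorem exists_std_frame (hF : Fintype.card F = 5 ^ 2) {x y : GL (Fin 3) F} (hx : IsIso (hermForm 3 F 5) x)
    (hy : IsIso (hermForm 3 F 5) y) (hx3 : x ^ 3 = 1) (hy3 : y ^ 3 = 1)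
    (hrel : (y : Matrix (Fin 3) (Fin 3) F) * (x : Matrix (Fin 3) (Fin 3) F) =
      φ 5 w 17 • ((x : Matrix (Fin 3) (Fin 3) F) * (y : Matrix (Fin 3) (Fin 3) F))) :
    ∃ U : GL (Fin 3) F, IsIso (hermForm 3 F 5) U ∧
      (x : Matrix (Fin 3) (Fin 3) F) * (U : Matrix (Fin 3) (Fin 3) F) = (U : Matrix (Fin 3) (Fin 3) F) * toM 5 w xc ∧
      (y : Matrix (Fin 3) (Fin 3) F) * (U : Matrix (Fin 3) (Fin 3) F) = (U : Matrix (Fin 3) (Fin 3) F) * toM 5 w yc := by
  have hf := hermForm_isUnitary 3 hF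
  have hw1 := om_rel C
  have hw3 := om_cube C
  have hwne := om_ne C
  have hw2ne := om2_ne C
  have h3ne := three_ne C
  set ω := φ 5 w 17 with hω
  set f := hermForm 3 F 5 with hfdef
  set X := (x : Matrix (Fin 3) (Fin 3) F) with hX
  set Y := (y : Matrix (Fin 3) (Fin 3) F) with hY
  have hX3 : ∀ v : Fin 3 → F, X *ᵥ (X *ᵥ (X *ᵥ v)) = v := by
    intro v
    have := congrArg Units.val hx3
    rw [Units.val_pow_eq_pow_val, Units.val_one] at this
    have this' : X ^ 3 = 1 := this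
    rw [Matrix.mulVec_mulVec, Matrix.mulVec_mulVec]
    have h2 : X * X * X = X ^ 3 := by noncomm_ring
    rw [h2, this', Matrix.one_mulVec]
  have hY3 : ∀ v : Fin 3 → F, Y *ᵥ (Y *ᵥ (Y *ᵥ v)) = v := by
    intro v
    have := congrArg Units.val hy3
    rw [Units.val_pow_eq_pow_val, Units.val_one] at this
    have this' : Y ^ 3 = 1 := this
    rw [Matrix.mulVec_mulVec, Matrix.mulVec_mulVec]
    have h2 : Y * Y * Y = Y ^ 3 := by noncomm_ring
    rw [h2, this', Matrix.one_mulVec]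
  have hxy : X * Y = (ω * ω) • (Y * X) := by
    rw [hrel, smul_smul]
    have : ω * ω * ω = 1 := by linear_combination hw3
    rw [this, one_smul]
  have heig : ∀ (v : Fin 3 → F) (l : F), X *ᵥ v = l • v → X *ᵥ (Y *ᵥ v) = (ω * ω * l) • (Y *ᵥ v) := by
    intro v l hv
    rw [Matrix.mulVec_mulVec, hxy, Matrix.smul_mulVec, ← Matrix.mulVec_mulVec, hv, Matrix.mulVec_smul, smul_smul]
  have hYinj : ∀ v : Fin 3 → F, Y *ᵥ v = 0 → v = 0 := by
    intro v hv
    rw [← hY3 v, hv, Matrix.mulVec_zero, Matrix.mulVec_zero]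
  -- an eigenvector
  have hex : ∃ e : Fin 3 → F, e ≠ 0 ∧ X *ᵥ e = e := by
    set v : Fin 3 → F := Pi.single 0 1 with hv
    have hv0 : v ≠ 0 := by
      intro h
      have := congrFun h 0
      simp [hv] at this
    by_cases h1 : X *ᵥ v = v
    · exact ⟨v, hv0, h1⟩
    set a := X *ᵥ v - v with ha
    have ha0 : a ≠ 0 := sub_ne_zero.2 h1
    by_cases h2 : X *ᵥ a = ω • a
    · refine ⟨Y *ᵥ a, fun h => ha0 (hYinj _ h), ?_⟩
      rw [heig a ω h2]
      have : ω * ω * ω = 1 := by linear_combination hw3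
      rw [this, one_smul]
    set b := X *ᵥ a - ω • a with hb
    have hb0 : b ≠ 0 := sub_ne_zero.2 h2
    have h3 : X *ᵥ b = (ω * ω) • b := by
      have e1 : X *ᵥ (X *ᵥ (X *ᵥ v)) = v := hX3 v
      rw [hb, ha, Matrix.mulVec_sub, Matrix.mulVec_smul, Matrix.mulVec_sub, Matrix.mulVec_sub, e1]
      funext i
      simp only [Pi.sub_apply, Pi.smul_apply, smul_eq_mul]
      linear_combination (-v i) * hw3 - (X *ᵥ (X *ᵥ v)) i * hw1 + (X *ᵥ v) i * ω * hw1
    refine ⟨Y *ᵥ (Y *ᵥ b), fun h => hb0 (hYinj _ (hYinj _ h)), ?_⟩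
    rw [heig _ _ (heig b _ h3)]
    have : ω * ω * (ω * ω * (ω * ω)) = 1 := by linear_combination (ω ^ 3 + 1) * hw3
    rw [this, one_smul]
  obtain ⟨e₁, he₁, x1⟩ := hex
  set e₂ := Y *ᵥ e₁ with he₂
  set e₃ := Y *ᵥ e₂ with he₃
  have he₂0 : e₂ ≠ 0 := fun h => he₁ (hYinj _ h)
  have he₃0 : e₃ ≠ 0 := fun h => he₂0 (hYinj _ h)
  have x2 : X *ᵥ e₂ = (ω * ω) • e₂ := by
    have := heig e₁ 1 (by rw [one_smul]; exact x1)
    rwa [mul_one] at this
  have x3 : X *ᵥ e₃ = ω • e₃ := by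
    have := heig e₂ _ x2
    have h2 : ω * ω * (ω * ω) = ω := by linear_combination ω * hw3
    rwa [h2] at this
  have y3 : Y *ᵥ e₃ = e₁ := hY3 e₁
  have hsig : ∀ a : F, frobEquiv hF a = a ^ 5 := fun a => rfl
  have p1 : ω ^ 5 = ω * ω := by linear_combination (ω * ω) * hw3
  have p2 : (ω * ω) ^ 5 = ω := by linear_combination (ω ^ 7 + ω ^ 4 + ω) * hw3
  have e12 : f e₁ e₂ = 0 := by
    have h1 := hx e₁ e₂
    rw [x1, x2, UForm.smul_right hf, hsig, p2] at h1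
    have h2 : (ω - 1) * f e₁ e₂ = 0 := by linear_combination h1
    exact (mul_eq_zero.1 h2).resolve_left (sub_ne_zero.2 hwne)
  have e13 : f e₁ e₃ = 0 := by
    have h1 := hx e₁ e₃
    rw [x1, x3, UForm.smul_right hf, hsig, p1] at h1
    have h2 : (ω * ω - 1) * f e₁ e₃ = 0 := by linear_combination h1
    exact (mul_eq_zero.1 h2).resolve_left (sub_ne_zero.2 hw2ne)
  have e23 : f e₂ e₃ = 0 := by
    have h1 := hx e₂ e₃
    rw [x2, x3, UForm.smul_right hf, hf.smul_left, hsig, p1] at h1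
    have h2 : (ω - 1) * f e₂ e₃ = 0 := by linear_combination h1 - (f e₂ e₃ * ω) * hw3
    exact (mul_eq_zero.1 h2).resolve_left (sub_ne_zero.2 hwne)
  have e21 : f e₂ e₁ = 0 := UForm.refl hf _ _ e12
  have e31 : f e₃ e₁ = 0 := UForm.refl hf _ _ e13
  have e32 : f e₃ e₂ = 0 := UForm.refl hf _ _ e23
  have n2 : f e₂ e₂ = f e₁ e₁ := hy e₁ e₁
  have n3 : f e₃ e₃ = f e₁ e₁ := by rw [← n2]; exact hy e₂ e₂
  -- independence
  let E : Fin 3 → (Fin 3 → F) := ![e₁, e₂, e₃]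
  have hLI : LinearIndependent F E := by
    rw [Fintype.linearIndependent_iff]
    intro g hg
    have h0 : g 0 • e₁ + g 1 • e₂ + g 2 • e₃ = 0 := by
      simpa [Fin.sum_univ_three, E] using hg
    have h1 : g 0 • e₁ + (g 1 * (ω * ω)) • e₂ + (g 2 * ω) • e₃ = 0 := by
      have := congrArg (fun z => X *ᵥ z) h0
      simp only [Matrix.mulVec_add, Matrix.mulVec_smul, x1, x2, x3, Matrix.mulVec_zero, smul_smul] at this
      exact this
    have h2 : g 0 • e₁ + (g 1 * (ω * ω) * (ω * ω)) • e₂ + (g 2 * ω * ω) • e₃ = 0 := by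
      have := congrArg (fun z => X *ᵥ z) h1
      simp only [Matrix.mulVec_add, Matrix.mulVec_smul, x1, x2, x3, Matrix.mulVec_zero, smul_smul] at this
      exact this
    have a0 : (3 * g 0) • e₁ = 0 := by
      funext i
      have c0 := congrFun h0 i
      have c1 := congrFun h1 i
      have c2 := congrFun h2 i
      simp only [Pi.add_apply, Pi.smul_apply, smul_eq_mul, Pi.zero_apply] at c0 c1 c2 ⊢
      linear_combination c0 + c1 + c2 - g 1 * e₂ i * hw1 - g 1 * e₂ i * ω * hw3 - g 2 * e₃ i * hw1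
    have a1 : (3 * g 1) • e₂ = 0 := by
      funext i
      have c0 := congrFun h0 i
      have c1 := congrFun h1 i
      have c2 := congrFun h2 i
      simp only [Pi.add_apply, Pi.smul_apply, smul_eq_mul, Pi.zero_apply] at c0 c1 c2 ⊢
      linear_combination c0 + ω * c1 + ω * ω * c2 - g 0 * e₁ i * hw1 - g 1 * e₂ i * (ω ^ 3 + 2) * hw3 - g 2 * e₃ i * hw1 - g 2 * e₃ i * ω * hw3
    have a2 : (3 * g 2) • e₃ = 0 := by
      funext i
      have c0 := congrFun h0 i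
      have c1 := congrFun h1 i
      have c2 := congrFun h2 i
      simp only [Pi.add_apply, Pi.smul_apply, smul_eq_mul, Pi.zero_apply] at c0 c1 c2 ⊢
      linear_combination c0 + ω * ω * c1 + ω * c2 - g 0 * e₁ i * hw1 - g 1 * e₂ i * (ω + ω * ω) * hw3 - g 1 * e₂ i * hw1 - g 2 * e₃ i * 2 * hw3
    have g0 : g 0 = 0 := ((mul_eq_zero.1 ((smul_eq_zero.1 a0).resolve_right he₁)).resolve_left h3ne)
    have g1 : g 1 = 0 := ((mul_eq_zero.1 ((smul_eq_zero.1 a1).resolve_right he₂0)).resolve_left h3ne)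
    have g2 : g 2 = 0 := ((mul_eq_zero.1 ((smul_eq_zero.1 a2).resolve_right he₃0)).resolve_left h3ne)
    intro i
    fin_cases i
    · exact g0
    · exact g1
    · exact g2
  have hspan : Submodule.span F (Set.range E) = ⊤ :=
    hLI.span_eq_top_of_card_eq_finrank' (by simp)
  -- the norm
  have hN : f e₁ e₁ ≠ 0 := by
    intro h0
    have h1 : ∀ z : Fin 3 → F, f e₁ z = 0 := by
      intro z
      have hz : z ∈ Submodule.span F (Set.range E) := by
        rw [hspan]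
        trivial
      induction hz using Submodule.span_induction with
      | mem a ha =>
        obtain ⟨j, rfl⟩ := ha
        fin_cases j
        · exact h0
        · exact e12
        · exact e13
      | zero => 
        have := UForm.refl hf 0 e₁ (UForm.zero_left hf e₁)
        exact this
      | add a b _ _ ha hb => rw [UForm.add_right hf, ha, hb, add_zero]
      | smul c a _ ha => rw [UForm.smul_right hf, ha, mul_zero]
    obtain ⟨-, ⟨z, hz⟩⟩ := hf.nondegenerate _ he₁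
    exact hz (h1 z)
  obtain ⟨c, hc⟩ := Cfsg.Agent.Lib.Elusive.HermEigen.exists_norm_eq hF (f e₁ e₁)⁻¹ (by
    rw [inv_pow]
    congr 1
    exact UForm.sigma_self hf _) (inv_ne_zero hN)
  have hs : ∀ a b : Fin 3 → F, f (c • a) (c • b) = (f e₁ e₁)⁻¹ * f a b := by
    intro a b
    rw [hf.smul_left, UForm.smul_right hf, hsig, ← hc, ← mul_assoc]
    congr 1
    ring
  let v : Fin 3 → (Fin 3 → F) := ![c • e₁, c • e₂, c • e₃]
  have hv : ∀ i j, f (v i) (v j) = if i = j then 1 else 0 := by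
    intro i j
    fin_cases i <;> fin_cases j <;> simp [v, hs, e12, e13, e21, e23, e31, e32, n2, n3, hN]
  obtain ⟨U, hU, hUv⟩ := exists_unitary_of_orthonormal hF v hv
  have u0 : (U : Matrix (Fin 3) (Fin 3) F) *ᵥ Pi.single 0 1 = c • e₁ := hUv 0
  have u1 : (U : Matrix (Fin 3) (Fin 3) F) *ᵥ Pi.single 1 1 = c • e₂ := hUv 1
  have u2 : (U : Matrix (Fin 3) (Fin 3) F) *ᵥ Pi.single 2 1 = c • e₃ := hUv 2
  refine ⟨U, hU, ?_, ?_⟩
  · apply matrix_eq_of_cols
    intro j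
    rw [← Matrix.mulVec_mulVec, ← Matrix.mulVec_mulVec]
    fin_cases j
    · change X *ᵥ ((U : Matrix (Fin 3) (Fin 3) F) *ᵥ Pi.single 0 1) = (U : Matrix (Fin 3) (Fin 3) F) *ᵥ (toM 5 w xc *ᵥ Pi.single 0 1)
      rw [u0, xc_col0 C, u0, Matrix.mulVec_smul, x1]
    · change X *ᵥ ((U : Matrix (Fin 3) (Fin 3) F) *ᵥ Pi.single 1 1) = (U : Matrix (Fin 3) (Fin 3) F) *ᵥ (toM 5 w xc *ᵥ Pi.single 1 1)
      rw [u1, xc_col1 C, Matrix.mulVec_smul, x2, Matrix.mulVec_smul, u1, smul_comm]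
    · change X *ᵥ ((U : Matrix (Fin 3) (Fin 3) F) *ᵥ Pi.single 2 1) = (U : Matrix (Fin 3) (Fin 3) F) *ᵥ (toM 5 w xc *ᵥ Pi.single 2 1)
      rw [u2, xc_col2 C, Matrix.mulVec_smul, x3, Matrix.mulVec_smul, u2, smul_comm]
  · apply matrix_eq_of_cols
    intro j
    rw [← Matrix.mulVec_mulVec, ← Matrix.mulVec_mulVec]
    fin_cases j
    · change Y *ᵥ ((U : Matrix (Fin 3) (Fin 3) F) *ᵥ Pi.single 0 1) = (U : Matrix (Fin 3) (Fin 3) F) *ᵥ (toM 5 w yc *ᵥ Pi.single 0 1)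
      rw [u0, yc_col0 C, u1, Matrix.mulVec_smul]
    · change Y *ᵥ ((U : Matrix (Fin 3) (Fin 3) F) *ᵥ Pi.single 1 1) = (U : Matrix (Fin 3) (Fin 3) F) *ᵥ (toM 5 w yc *ᵥ Pi.single 1 1)
      rw [u1, yc_col1 C, u2, Matrix.mulVec_smul]
    · change Y *ᵥ ((U : Matrix (Fin 3) (Fin 3) F) *ᵥ Pi.single 2 1) = (U : Matrix (Fin 3) (Fin 3) F) *ᵥ (toM 5 w yc *ᵥ Pi.single 2 1)
      rw [u2, yc_col2 C, u0, Matrix.mulVec_smul, y3]

end frame

/-! ## The elements of the group -/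

section elements

open Cfsg.Agent.Lib.CmaxX.SU3DataR

set_option synthInstance.maxSize 2000 in
set_option synthInstance.maxHeartbeats 0 in
set_option maxRecDepth 100000 in
theorem rr_mem : ∀ a < 3, ∀ b < 3, ∀ c < 3, rr a b c ∈ R27 := by decide +kernel

set_option synthInstance.maxSize 2000 in
set_option synthInstance.maxHeartbeats 0 in
set_option maxRecDepth 100000 in
theorem rr_inj : ∀ a < 3, ∀ b < 3, ∀ c < 3, ∀ a' < 3, ∀ b' < 3, ∀ c' < 3, rr a b c = rr a' b' c' → a = a' ∧ b = b' ∧ c = c' := by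
  decide +kernel

theorem conj_pow_inv {G : Type*} [Group G] (U g : G) (n : ℕ) : (U⁻¹ * g * U) ^ n = U⁻¹ * g ^ n * U := by
  have := conj_pow (a := U⁻¹) (b := g) (i := n)
  simpa using this

theorem val_conj_of_mul {x U : GL (Fin 3) F} {A : Matrix (Fin 3) (Fin 3) F}
    (h : (x : Matrix (Fin 3) (Fin 3) F) * (U : Matrix (Fin 3) (Fin 3) F) = (U : Matrix (Fin 3) (Fin 3) F) * A) :
    ((U⁻¹ * x * U : GL (Fin 3) F) : Matrix (Fin 3) (Fin 3) F) = A := by
  rw [mul_assoc, Units.val_mul, Units.val_mul, h, ← mul_assoc, ← Units.val_mul, inv_mul_cancel, Units.val_one, one_mul]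

theorem toM_oc (C : Ctx 5 w) : toM 5 w oc = φ 5 w 17 • (1 : Matrix (Fin 3) (Fin 3) F) := by
  ext i j
  fin_cases i <;> fin_cases j <;> simp [toM, oc, φ_zero C]

/-- The elements of the group in the standard frame. -/
theorem elements (C : Ctx 5 w) {R : Subgroup (GL (Fin 3) F)} {U x y Ω : GL (Fin 3) F} (hx : x ∈ R) (hy : y ∈ R) (hΩ : Ω ∈ R)
    (hcR : Nat.card R = 27) (hΩv : (Ω : Matrix (Fin 3) (Fin 3) F) = φ 5 w 17 • (1 : Matrix (Fin 3) (Fin 3) F))
    (hXU : (x : Matrix (Fin 3) (Fin 3) F) * (U : Matrix (Fin 3) (Fin 3) F) = (U : Matrix (Fin 3) (Fin 3) F) * toM 5 w xc)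
    (hYU : (y : Matrix (Fin 3) (Fin 3) F) * (U : Matrix (Fin 3) (Fin 3) F) = (U : Matrix (Fin 3) (Fin 3) F) * toM 5 w yc) :
    ∀ r ∈ R, ∃ Z ∈ R27, ((U⁻¹ * r * U : GL (Fin 3) F) : Matrix (Fin 3) (Fin 3) F) = toM 5 w Z := by
  classical
  have hGX := val_conj_of_mul hXU
  have hGY := val_conj_of_mul hYU
  have hGO : ((U⁻¹ * Ω * U : GL (Fin 3) F) : Matrix (Fin 3) (Fin 3) F) = toM 5 w oc := by
    apply val_conj_of_mul
    rw [hΩv, toM_oc C, Matrix.smul_mul, Matrix.mul_smul, one_mul, mul_one]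
  let ψ : Fin 3 × Fin 3 × Fin 3 → R := fun t =>
    ⟨Ω ^ (t.1 : ℕ) * x ^ (t.2.1 : ℕ) * y ^ (t.2.2 : ℕ), R.mul_mem (R.mul_mem (R.pow_mem hΩ _) (R.pow_mem hx _)) (R.pow_mem hy _)⟩
  have hψ : ∀ t : Fin 3 × Fin 3 × Fin 3, ((U⁻¹ * (ψ t).1 * U : GL (Fin 3) F) : Matrix (Fin 3) (Fin 3) F) =
      toM 5 w (rr t.1 t.2.1 t.2.2) := by
    intro t
    have h1 : U⁻¹ * (ψ t).1 * U = (U⁻¹ * Ω * U) ^ (t.1 : ℕ) * (U⁻¹ * x * U) ^ (t.2.1 : ℕ) * (U⁻¹ * y * U) ^ (t.2.2 : ℕ) := by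
      simp only [conj_pow_inv, ψ]
      group
    rw [h1, Units.val_mul, Units.val_mul, Units.val_pow_eq_pow_val, Units.val_pow_eq_pow_val, Units.val_pow_eq_pow_val,
      hGO, hGX, hGY, rr, toM_mm C, toM_mm C, toM_xpow C, toM_xpow C, toM_xpow C]
  have hinj : Function.Injective ψ := by
    intro t t' h
    have h1 : toM 5 w (rr t.1 t.2.1 t.2.2) = toM 5 w (rr t'.1 t'.2.1 t'.2.2) := by
      rw [← hψ, ← hψ, h]
    have h2 := toM_inj C (lt_mm C _ _) (lt_mm C _ _) h1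
    obtain ⟨e1, e2, e3⟩ := rr_inj _ t.1.2 _ t.2.1.2 _ t.2.2.2 _ t'.1.2 _ t'.2.1.2 _ t'.2.2.2 h2
    exact Prod.ext (Fin.ext e1) (Prod.ext (Fin.ext e2) (Fin.ext e3))
  have hbij : Function.Bijective ψ := Function.Injective.bijective_of_nat_card_le hinj (by
    rw [hcR]
    simp [Nat.card_prod])
  intro r hr
  obtain ⟨t, ht⟩ := hbij.2 ⟨r, hr⟩
  refine ⟨rr t.1 t.2.1 t.2.2, rr_mem _ t.1.2 _ t.2.1.2 _ t.2.2.2, ?_⟩
  rw [← hψ, ht]

end elements

/-! ## The test on codes -/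

section codes

open Cfsg.Agent.Lib.CmaxX.SU3DataR

/-- Equality of vectors as a test. -/
def eqV (u v : V3) : Bool := Nat.beq u.a v.a && Nat.beq u.b v.b && Nat.beq u.c v.c

theorem xc_lt : Lt 5 xc := by
  unfold Lt
  decide +kernel

theorem eqV_self (u : V3) : eqV u u = true := by
  simp [eqV, Nat.beq_eq]

/-- The matrix with first column `t` and conjugating the cycle to `Z`. -/
def candR (t : V3) (Z : M3) : M3 := ofCols t (mv 5 Z t) (mv 5 Z (mv 5 Z t))

/-- The test for a vector. -/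
def innerR (T mask : ℕ) (L : List V3) (t : V3) : Bool :=
  R27.all fun Z => !(Nat.beq (hC 5 t (mv 5 Z t)) 0) || !(isSU 5 (candR t Z)) || closedB 5 T mask (candR t Z) L

/-- The test over the normaliser. -/
def checkR (T mask : ℕ) (L : List V3) : Bool :=
  (List.range 25).all fun a => (List.range 25).all fun b => (List.range 25).all fun c =>
    !(Nat.beq (hC 5 ⟨a, b, c⟩ ⟨a, b, c⟩) 1) ||
      !(R27.any fun Z => !(eqM Z oneM) && eqV (mv 5 Z ⟨a, b, c⟩) ⟨a, b, c⟩) || innerR T mask L ⟨a, b, c⟩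

theorem checkR_sound {T mask : ℕ} {L : List V3} (hchk : checkR T mask L = true) {t : V3} (ht : VLt 5 t)
    (h1 : hC 5 t t = 1) {Z₁ : M3} (hZ₁ : Z₁ ∈ R27) (hne : Z₁ ≠ oneM) (h2 : mv 5 Z₁ t = t) {Z₂ : M3} (hZ₂ : Z₂ ∈ R27)
    (h3 : hC 5 t (mv 5 Z₂ t) = 0) (h4 : isSU 5 (candR t Z₂) = true) : closedB 5 T mask (candR t Z₂) L = true := by
  rcases t with ⟨a, b, c⟩
  obtain ⟨ha, hb, hc⟩ := ht
  unfold checkR at hchk
  simp only [List.all_eq_true, List.mem_range, Bool.or_eq_true, Bool.not_eq_true'] at hchk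
  rcases hchk a ha b hb c hc with (h | h) | h
  · exact absurd h (Cfsg.Agent.Lib.CmaxX.SU3Sub.nbeq_false h1)
  · have h5 : R27.any (fun Z => !(eqM Z oneM) && eqV (mv 5 Z ⟨a, b, c⟩) ⟨a, b, c⟩) = true := by
      rw [List.any_eq_true]
      refine ⟨Z₁, hZ₁, ?_⟩
      rw [h2, eqV_self, Bool.and_true, Bool.not_eq_true']
      rw [← Bool.not_eq_true]
      exact fun h6 => hne (eqM_eq h6)
    rw [h5] at h
    exact absurd h (by decide)
  unfold innerR at h
  simp only [List.all_eq_true, Bool.or_eq_true, Bool.not_eq_true'] at h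
  rcases h Z₂ hZ₂ with (h | h) | h
  · exact absurd h (Cfsg.Agent.Lib.CmaxX.SU3Sub.nbeq_false h3)
  · rw [h4] at h
    exact absurd h (by decide)
  · exact h

theorem toV_e0 (C : Ctx 5 w) : toV 5 w ⟨1, 0, 0⟩ = (Pi.single 0 1 : Fin 3 → F) := by
  funext i
  fin_cases i <;> simp [toV, φ_zero C, φ_one C]

theorem toV_e1 (C : Ctx 5 w) : toV 5 w ⟨0, 1, 0⟩ = (Pi.single 1 1 : Fin 3 → F) := by
  funext i
  fin_cases i <;> simp [toV, φ_zero C, φ_one C]

theorem toV_e2 (C : Ctx 5 w) : toV 5 w ⟨0, 0, 1⟩ = (Pi.single 2 1 : Fin 3 → F) := by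
  funext i
  fin_cases i <;> simp [toV, φ_zero C, φ_one C]

/-- Elements normalising the group stabilise the cone. -/
theorem R_closed (C : Ctx 5 w) (hF : Fintype.card F = 5 ^ 2) {T mask : ℕ} {L : List V3} (Pt : Pts 5 T mask L)
    (hchk : checkR T mask L = true) {g : GL (Fin 3) F} (hg : g ∈ GU 3 F 5 ⊓ specialLinear (Fin 3) F)
    {Z₁ Z₂ : M3} (hZ₁ : Z₁ ∈ R27) (hZ₂ : Z₂ ∈ R27) (hne : Z₁ ≠ oneM)
    (h₁ : (g : Matrix (Fin 3) (Fin 3) F) * toM 5 w xc = toM 5 w Z₁ * (g : Matrix (Fin 3) (Fin 3) F))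
    (h₂ : (g : Matrix (Fin 3) (Fin 3) F) * toM 5 w yc = toM 5 w Z₂ * (g : Matrix (Fin 3) (Fin 3) F)) :
    ∀ y ∈ cone 5 w L, (g : Matrix (Fin 3) (Fin 3) F) *ᵥ y ∈ cone 5 w L := by
  have hSU := (mem_SU3 hF g).1 hg
  set G := (g : Matrix (Fin 3) (Fin 3) F) with hG
  obtain ⟨t, htl, ht⟩ := exists_vcode C hF (G *ᵥ Pi.single 0 1)
  have e2 : G *ᵥ Pi.single 1 1 = toV 5 w (mv 5 Z₂ t) := by
    rw [← toM_mulVec C, ht, Matrix.mulVec_mulVec, ← h₂, ← Matrix.mulVec_mulVec, yc_col0 C]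
  have e3 : G *ᵥ Pi.single 2 1 = toV 5 w (mv 5 Z₂ (mv 5 Z₂ t)) := by
    rw [← toM_mulVec C, ← e2, Matrix.mulVec_mulVec, ← h₂, ← Matrix.mulVec_mulVec, yc_col1 C]
  have hGc : toM 5 w (candR t Z₂) = G := by
    apply matrix_eq_of_cols
    intro j
    rw [candR, toM_cols C]
    fin_cases j
    · simpa using ht
    · simpa using e2.symm
    · have h0 : ((⟨2, by omega⟩ : Fin 3) : Fin 3) = 2 := rfl
      simp only [h0]
      rw [if_neg (by decide), if_neg (by decide)]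
      exact e3.symm
  have hLt : Lt 5 (candR t Z₂) := lt_ofCols htl (vlt_mv C _ _) (vlt_mv C _ _)
  have hS : isSU 5 (candR t Z₂) = true := by
    apply isSU_of_mem C hF hLt
    · rw [hGc]
      exact hSU.1
    · rw [hGc]
      exact hSU.2
  have h1 : hC 5 t t = 1 := by
    apply φ_inj C (hC_lt C _ _) (by norm_num)
    rw [← herm_toV C, ht, hSU.1, φ_one C, form_single hF, if_pos rfl]
  have h2 : mv 5 Z₁ t = t := by
    apply toV_inj C (vlt_mv C _ _) htl
    rw [← toM_mulVec C, ht, Matrix.mulVec_mulVec, ← h₁, ← Matrix.mulVec_mulVec, xc_col0 C]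
  have h3 : hC 5 t (mv 5 Z₂ t) = 0 := by
    apply φ_inj C (hC_lt C _ _) (by norm_num)
    rw [← herm_toV C, ht, ← e2, hSU.1, φ_zero C, form_single hF, if_neg (by decide)]
  have hcl := checkR_sound hchk htl h1 hZ₁ hne h2 hZ₂ h3 hS
  rw [← hGc]
  exact closed_sound C Pt hcl

/-- **The exclusion of the normaliser of an extraspecial group.** -/
theorem R_excl (C : Ctx 5 w) (hF : Fintype.card F = 5 ^ 2) {T mask : ℕ} {L : List V3} (Pt : Pts 5 T mask L)
    (hchk : checkR T mask L = true) {W₀ T₀ : M3} (hW₀ : isSU 5 W₀ = true) (hWc : closedB 5 T mask W₀ L = true)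
    (hWN : ∀ Z ∈ R27, mm 5 W₀ xc ≠ mm 5 Z W₀) (hxc : xc ≠ oneM)
    (hT₀ : isSU 5 T₀ = true) {u₀ : V3} (hu₀ : u₀ ∈ L)
    (hout : ∀ c < 5 * 5, ∀ u ∈ L, smV 5 c u ≠ mv 5 T₀ u₀) {R : Subgroup (GL (Fin 3) F)} (hR : IsSymplecticTypeGroup 3 R)
    (hRA : ActsAbsolutelyIrreducibly (matrixSet R)) (hRs : R ≤ similarityGroup (hermForm 3 F 5))
    (hcR : Nat.card R = 27) (hZ : Nat.card (Subgroup.center R) = 3) :
    ∃ Y : Subgroup (GL (Fin 3) F), subgroupNormalizer R ⊓ (GU 3 F 5 ⊓ specialLinear (Fin 3) F) < Y ∧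
      Y < GU 3 F 5 ⊓ specialLinear (Fin 3) F := by
  classical
  obtain ⟨x, hx, y, hy, Ω, hΩ, hΩv, hrel⟩ := exists_pair C hR hRA hcR hZ
  have hexp : ∀ g ∈ R, g ^ 3 = 1 := by
    intro g hg
    have h1 := Monoid.pow_exponent_eq_one (⟨g, hg⟩ : R)
    rw [hR.exponent_eq] at h1
    have h2 : ((⟨g, hg⟩ : R) ^ 3) = 1 := by simpa using h1
    simpa using congrArg Subtype.val h2
  have hxI := sim_iso hF (hRs hx) (hexp x hx)
  have hyI := sim_iso hF (hRs hy) (hexp y hy)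
  obtain ⟨U, hU, hXU, hYU⟩ := exists_std_frame C hF hxI hyI (hexp x hx) (hexp y hy) hrel
  have hel := elements C hx hy hΩ hcR hΩv hXU hYU
  have hGX := val_conj_of_mul hXU
  have hGY := val_conj_of_mul hYU
  have key : ∀ h : GL (Fin 3) F, h ∈ subgroupNormalizer R → ∀ r ∈ R, ∃ Z ∈ R27,
      ((U⁻¹ * h * U : GL (Fin 3) F) : Matrix (Fin 3) (Fin 3) F) * ((U⁻¹ * r * U : GL (Fin 3) F) : Matrix (Fin 3) (Fin 3) F) =
        toM 5 w Z * ((U⁻¹ * h * U : GL (Fin 3) F) : Matrix (Fin 3) (Fin 3) F) := by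
    intro h hh r hr
    have h1 : h * r * h⁻¹ ∈ R := (Subgroup.mem_normalizer_iff.1 hh r).1 hr
    obtain ⟨Z, hZ, e⟩ := hel _ h1
    refine ⟨Z, hZ, ?_⟩
    rw [← e, ← Units.val_mul, ← Units.val_mul]
    congr 1
    group
  have hconj : ∀ h : GL (Fin 3) F, h ∈ GU 3 F 5 ⊓ specialLinear (Fin 3) F → U⁻¹ * h * U ∈ GU 3 F 5 ⊓ specialLinear (Fin 3) F := by
    intro A hA
    rw [mem_SU3 hF] at hA ⊢
    refine ⟨(hU.inv.mul hA.1).mul hU, ?_⟩
    rw [Units.val_mul, Units.val_mul, Matrix.det_mul, Matrix.det_mul, hA.2, mul_one, ← Matrix.det_mul, ← Units.val_mul]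
    simp
  have hxt : toM 5 w xc ≠ 1 := by
    intro h
    apply hxc
    exact toM_inj C xc_lt (lt_one C) (by rw [h, toM_one C])
  refine not_max_code C hF Pt inf_le_right U hU ?_ hW₀ hWc ?_ hT₀ hu₀ hout
  · rintro h ⟨hN, hI⟩
    obtain ⟨Z₁, hZ₁, e1⟩ := key h hN x hx
    obtain ⟨Z₂, hZ₂, e2⟩ := key h hN y hy
    rw [hGX] at e1
    rw [hGY] at e2
    refine R_closed C hF Pt hchk (hconj h hI) hZ₁ hZ₂ ?_ e1 e2
    rintro rfl
    apply hxt
    rw [toM_one C, one_mul] at e1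
    have h3 : IsUnit ((U⁻¹ * h * U : GL (Fin 3) F) : Matrix (Fin 3) (Fin 3) F) := Units.isUnit _
    exact h3.mul_left_cancel (by rw [e1, mul_one])
  · rintro W hW ⟨hN, -⟩
    obtain ⟨Z, hZ, e⟩ := key _ hN x hx
    have h6 : U⁻¹ * (U * W * U⁻¹) * U = W := by group
    rw [h6, hW, hGX] at e
    apply hWN Z hZ
    apply toM_inj C (lt_mm C _ _) (lt_mm C _ _)
    rw [toM_mm C, toM_mm C, e]

end codes

end Cfsg.Agent.Lib.CmaxX.SU3R
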