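/-
The normaliser of an extraspecial group of order `27` in `SU₃(5)` is not maximal, it lies in `3.M₁₀`.
-/
import Cfsg.Agent.Lib.CmaxX.SU3R

set_option autoImplicit false
set_option maxRecDepth 100000
set_option synthInstance.maxSize 2000
set_option synthInstance.maxHeartbeats 0
set_option linter.unusedSectionVars false

namespace Cfsg.Agent.Lib.CmaxX.SU3XR

open Matrix Cfsg Cfsg.Geo
open Cfsg.Agent.Lib.CmaxX.SU3Code Cfsg.Agent.Lib.CmaxX.SU3Gen Cfsg.Agent.Lib.CmaxX.SU3Data5 Cfsg.Agent.Lib.CmaxX.SU3DataR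
open Cfsg.Agent.Lib.CmaxX.SU3R
open scoped MatrixGroups

theorem chkR : checkR T5 maskR LR = true := by decide +kernel

theorem WR_N : ∀ Z ∈ R27, mm 5 WR xc ≠ mm 5 Z WR := by decide +kernel

variable {F : Type*} [Field F] [Fintype F]

theorem symp5 (hF : Fintype.card F = 5 ^ 2) {R : Subgroup (GL (Fin 3) F)} (hR : IsSymplecticTypeGroup 3 R)
    (hRA : ActsAbsolutelyIrreducibly (matrixSet R)) (hRs : R ≤ similarityGroup (hermForm 3 F 5))
    (hcR : Nat.card R = 27) (hZ : Nat.card (Subgroup.center R) = 3) :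
    ∃ Y : Subgroup (GL (Fin 3) F), subgroupNormalizer R ⊓ (GU 3 F 5 ⊓ specialLinear (Fin 3) F) < Y ∧
      Y < GU 3 F 5 ⊓ specialLinear (Fin 3) F := by
  obtain ⟨w, C⟩ := exists_ctx5 hF
  exact R_excl C hF ptsR chkR WR_su WR_cl WR_N (by decide) ZR_su uR_mem ZR_out hR hRA hRs hcR hZ

end Cfsg.Agent.Lib.CmaxX.SU3XR
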