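/-
The list of maximal subgroups of `SU_3(q)`, `q ≥ 3`, given Aschbacher's theorem for the unitary groups.
-/
import Cfsg.Agent.Lib.CmaxU.Arith
import Cfsg.Agent.Lib.CmaxU.Master
import Cfsg.Agent.Lib.CmaxX.SU3X3
import Cfsg.Agent.Lib.CmaxX.SU3X5
import Cfsg.Agent.Lib.CmaxX.SU3XR

set_option autoImplicit false
set_option linter.unusedVariables false
set_option maxHeartbeats 1000000

namespace Cfsg.Agent.Lib.CmaxX.RowSU3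

theorem s5778 {F : Type*} [Field F] [Fintype F] (q : ℕ) (hF : Fintype.card F = q ^ 2) (hq : 3 ≤ q) (H : Subgroup (Matrix.GeneralLinearGroup (Fin 3) F)) (hH : Cfsg.Geo.IsMaximalIn (Cfsg.GU 3 F q ⊓ Cfsg.Geo.specialLinear (Fin 3) F) H)
    (hA : (∃ M, Cfsg.Geo.InUnitaryClass 3 F q M ∧ H ≤ M) ∨ Cfsg.Geo.InUnitaryResidualClass H) :
    (∃ W : Submodule F (Fin 3 → F), W ≠ ⊥ ∧ Cfsg.Geo.IsTotallySingularFor (Cfsg.hermForm 3 F q) W ∧ H = Cfsg.Geo.subspaceStabilizer W ⊓ (Cfsg.GU 3 F q ⊓ Cfsg.Geo.specialLinear (Fin 3) F)) ∨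
    (∃ W : Submodule F (Fin 3 → F), W ≠ ⊥ ∧ Cfsg.Geo.IsNondegenerateOn (Cfsg.hermForm 3 F q) W ∧ 2 * Module.finrank F W < 3 ∧ H = Cfsg.Geo.subspaceStabilizer W ⊓ (Cfsg.GU 3 F q ⊓ Cfsg.Geo.specialLinear (Fin 3) F)) ∨
    (q ≠ 5 ∧ ∃ D : Fin 3 → Submodule F (Fin 3 → F), Cfsg.Geo.IsNondegenerateMDecomposition (Cfsg.hermForm 3 F q) 1 D ∧ H = Cfsg.Geo.decompositionStabilizer D ⊓ (Cfsg.GU 3 F q ⊓ Cfsg.Geo.specialLinear (Fin 3) F)) ∨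
    (q ≠ 3 ∧ q ≠ 5 ∧ ∃ K : Subalgebra F (Matrix (Fin 3) (Fin 3) F), Cfsg.Geo.IsFieldSubalgebra 3 K ∧ Cfsg.Geo.IsAdjointClosedFor (Cfsg.hermForm 3 F q) K ∧ H = Cfsg.Geo.subalgebraNormalizer K ⊓ (Cfsg.GU 3 F q ⊓ Cfsg.Geo.specialLinear (Fin 3) F)) ∨
    (∃ (F₀ : Subfield F) (r : ℕ) (P : Matrix.GeneralLinearGroup (Fin 3) F), r.Prime ∧ Odd r ∧ Fintype.card F = Nat.card F₀ ^ r ∧ Cfsg.Geo.IsFormRationalStructure (Cfsg.hermForm 3 F q) F₀ 1 P ∧ H = Cfsg.Geo.subfieldSubgroup F₀ P ⊓ (Cfsg.GU 3 F q ⊓ Cfsg.Geo.specialLinear (Fin 3) F)) ∨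
    (Odd q ∧ 7 ≤ q ∧ ∃ (F₀ : Subfield F) (P : Matrix.GeneralLinearGroup (Fin 3) F), Fintype.card F = Nat.card F₀ ^ 2 ∧ Cfsg.Geo.IsFormRationalStructure (Cfsg.hermForm 3 F q) F₀ 1 P ∧ H = Cfsg.Geo.subfieldSubgroup F₀ P ⊓ (Cfsg.GU 3 F q ⊓ Cfsg.Geo.specialLinear (Fin 3) F)) ∨
    (∃ (p : ℕ) (R : Subgroup (Matrix.GeneralLinearGroup (Fin 3) F)), p.Prime ∧ q = p ∧ p % 3 = 2 ∧ 11 ≤ p ∧ Cfsg.Geo.IsSymplecticTypeGroup 3 R ∧ Cfsg.Geo.ActsAbsolutelyIrreducibly (Cfsg.Geo.matrixSet R) ∧ R ≤ Cfsg.Geo.similarityGroup (Cfsg.hermForm 3 F q) ∧ Nat.card R = 27 ∧ Nat.card (Subgroup.center R) = 3 ∧ H = Cfsg.Geo.subgroupNormalizer R ⊓ (Cfsg.GU 3 F q ⊓ Cfsg.Geo.specialLinear (Fin 3) F)) ∨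
    Cfsg.Geo.InUnitaryResidualClass H := by
  have hH' := hH
  rcases Cfsg.Agent.Lib.CmaxU.Master.master hF (by norm_num) (by omega) H hH hA with
    ⟨W, h0, hW, hE⟩ | ⟨W, h0, hW, hlt, hE⟩ | ⟨t, k, D, hD, htk, hk2, hE⟩ | ⟨k, D, hk2, hD, hDs, hE⟩ |
    ⟨F₀, r, P, hr, hro, hc, hrat, hE⟩ | ⟨F₀, P, hodd, hc, hrat, hE⟩ | ⟨F₀, P, ζ, hev, hc, hζ, hζq, hrat, hzero, hE⟩ |
    ⟨r, R, p, e, k, hR, hRA, hRs, hrp, hmin, hrk, halts, hE⟩ | ⟨r, K, hr, hro, hrn, hK, hcl, hE⟩ |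
    ⟨n₁, n₂, e, P, f₁, f₂, hn₁, hn₂, hcn, hq3, hf₁, hf₂, hT, hE⟩ | ⟨k, t, e, P, f₁, hk, ht, hcn, hex, hf₁, hT, hE⟩ | hres
  · exact Or.inl ⟨W, h0, hW, hE⟩
  · exact Or.inr <| Or.inl ⟨W, h0, hW, hlt, hE⟩
  · obtain ⟨rfl, rfl⟩ := Cfsg.Agent.Lib.CmaxL.Arith.tm3 hD.decomp.two_le hD.decomp.pos htk
    by_cases h5 : q = 5
    · subst h5
      exact (Cfsg.Agent.Lib.CmaxS.Master.no_between hH' hE (Cfsg.Agent.Lib.CmaxX.SU3X5.frame5 hF hD)).elim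
    · exact Or.inr <| Or.inr <| Or.inl ⟨h5, D, hD, hE⟩
  · omega
  · exact Or.inr <| Or.inr <| Or.inr <| Or.inr <| Or.inl ⟨F₀, r, P, hr, hro, hc, hrat, hE⟩
  · by_cases h3 : q = 3
    · subst h3
      exact (Cfsg.Agent.Lib.CmaxS.Master.no_between hH' hE (Cfsg.Agent.Lib.CmaxX.SU3X3.sub3 hF hc P hrat)).elim
    by_cases h5 : q = 5
    · subst h5
      exact (Cfsg.Agent.Lib.CmaxS.Master.no_between hH' hE (Cfsg.Agent.Lib.CmaxX.SU3X5.sub5 hF hc P hrat)).elim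
    have h7 : 7 ≤ q := by
      obtain ⟨m, rfl⟩ := hodd
      omega
    exact Or.inr <| Or.inr <| Or.inr <| Or.inr <| Or.inr <| Or.inl ⟨hodd, h7, F₀, P, hc, hrat, hE⟩
  · exact absurd hev (by decide)
  · obtain ⟨rfl, rfl⟩ := Cfsg.Agent.Lib.CmaxU.Arith.rk_prime (by norm_num) hR.prime hrk
    rcases halts with ⟨hro, hZ, hk1, hcR⟩ | ⟨h2, -⟩
    · rw [hZ] at hmin
      obtain ⟨d, hp, hcp, hqd, hed, hd0, hp0, hlt, hnd, hpw, hmn⟩ := Cfsg.Agent.Lib.CmaxU.Arith.odd_data hF hR.prime hrp hmin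
      obtain rfl : d = 1 := by omega
      have he2 : e = 2 := by omega
      subst he2
      rw [pow_one] at hqd
      subst hqd
      have h1 := hmn 1 (by norm_num) (by norm_num)
      rw [pow_one, Nat.mod_mod] at h1
      have hmod : q % 3 = 2 := by omega
      have hcR' : Nat.card R = 27 := by rw [hcR]; norm_num
      by_cases h5 : q = 5
      · subst h5
        exact (Cfsg.Agent.Lib.CmaxS.Master.no_between hH' hE (Cfsg.Agent.Lib.CmaxX.SU3XR.symp5 hF hR hRA hRs hcR' hZ)).elim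
      have h11 : 11 ≤ q := by
        by_contra hlt11
        have hle : q ≤ 10 := by omega
        interval_cases q <;> first | omega | (exact absurd hp (by norm_num))
      exact Or.inr <| Or.inr <| Or.inr <| Or.inr <| Or.inr <| Or.inr <| Or.inl ⟨q, R, hp, rfl, hmod, h11, hR, hRA, hRs, hcR', hZ, hE⟩
    · omega
  · obtain rfl := Cfsg.Agent.Lib.CmaxL.Arith.pr3 hr hrn
    by_cases h3 : q = 3
    · subst h3
      exact (Cfsg.Agent.Lib.CmaxS.Master.no_between hH' hE (Cfsg.Agent.Lib.CmaxX.SU3X3.field3 hF hK hcl)).elim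
    by_cases h5 : q = 5
    · subst h5
      exact (Cfsg.Agent.Lib.CmaxS.Master.no_between hH' hE (Cfsg.Agent.Lib.CmaxX.SU3X5.field5 hF hK hcl)).elim
    exact Or.inr <| Or.inr <| Or.inr <| Or.inl ⟨h3, h5, K, hK, hcl, hE⟩
  · exact (Cfsg.Agent.Lib.CmaxL.Arith.ten3 hn₁ hn₂ hcn).elim
  · have := Cfsg.Agent.Lib.CmaxL.Arith.pow_lower hk ht
    omega
  · exact Or.inr <| Or.inr <| Or.inr <| Or.inr <| Or.inr <| Or.inr <| Or.inr <| hres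

end Cfsg.Agent.Lib.CmaxX.RowSU3
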