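/-
`SU_n(2)`, all `n`: the stabiliser of a decomposition into non-degenerate planes is not maximal.
-/
import Cfsg.Agent.Lib.NotMax.SU2
set_option autoImplicit false
set_option maxHeartbeats 1000000

namespace Cfsg.Agent.Lib.CmaxX.SU2b

open Cfsg Cfsg.Geo Cfsg.Agent.Lib.Geo.Basic Cfsg.Agent.Lib.Geo.Centres Cfsg.Agent.Lib.NotMax.SetStab
open Cfsg.Agent.Lib.NotMax.SU2
open scoped MatrixGroups Matrix

variable {F : Type*} [Field F] [Fintype F] {n : ℕ}

set_option linter.unusedSectionVars false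

local notation "f" => hermForm n F 2

/-- **The stabiliser of a decomposition into non-degenerate planes is not maximal in `SU_n(2)`.** -/
theorem decomp_not_maximal' (hF : Fintype.card F = 4) {t : ℕ}
    {D : Fin t → Submodule F (Fin n → F)} (hD : IsNondegenerateMDecomposition f 2 D) :
    ∃ K : Subgroup (GL (Fin n) F), decompositionStabilizer D ⊓ (GU n F 2 ⊓ specialLinear (Fin n) F) < K ∧
      K < (GU n F 2 ⊓ specialLinear (Fin n) F) := by
  classical
  have h2 : (2 : F) = 0 := two_zero hF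
  have ht : 2 ≤ t := hD.decomp.two_le
  have hfr := fun i => plane_frame hF (D i) (hD.decomp.finrank_eq i) (hD.nondegenerate i)
  choose v hv v' hv' hvv hv'v' hvv' hv'v hfr using hfr
  let i₁ : Fin t := ⟨0, by omega⟩
  let i₂ : Fin t := ⟨1, by omega⟩
  have h12 : i₁ ≠ i₂ := by simp [i₁, i₂, Fin.ext_iff]
  have ho := hD.orthogonal
  have hD0 : ∀ i j, i ≠ j → ∀ x ∈ D i, ∀ y ∈ D j, f x y = 0 := fun i j hij x hx y hy => ho i j hij x hx y hy
  have hfd : ∀ x y, formVec f y ⬝ᵥ x = f x y :=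
    fun x y => formVec_dotProduct (fun x y v => f_add_left x y v) (fun r x v => f_smul_left r x v) x y
  -- unitary transvections
  have hT : ∀ (u : Fin n → F) (hu : f u u = 0), ∃ T : GL (Fin n) F,
      T ∈ GU n F 2 ⊓ specialLinear (Fin n) F ∧ ∀ x, (T : Matrix (Fin n) (Fin n) F) *ᵥ x = x + f x u • u := by
    intro u hu
    have h3 : formVec f u ⬝ᵥ u = 0 := by rw [hfd]; exact hu
    refine ⟨transv u (formVec f u) h3, ⟨?_, transv_mem_specialLinear _ _ _⟩, fun x => ?_⟩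
    · intro x y
      show f (((transv u (formVec f u) h3 : GL (Fin n) F) : Matrix (Fin n) (Fin n) F) *ᵥ x)
        (((transv u (formVec f u) h3 : GL (Fin n) F) : Matrix (Fin n) (Fin n) F) *ᵥ y) = f x y
      rw [transv_mulVec, transv_mulVec, hfd, hfd, f_add_left, f_add_right hF, f_add_right hF, f_smul_left,
        f_smul_left, f_smul_right, f_smul_right, hu, f_symm hF y u]
      linear_combination (f x u * f y u ^ 2) * h2
    · rw [transv_mulVec, hfd]
  have hS0 : ∀ i, ∀ x ∈ D i, f x x ≠ 0 → x ≠ 0 := by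
    rintro i x - hx rfl
    apply hx
    have := f_smul_left (0 : F) (0 : Fin n → F) (0 : Fin n → F)
    simpa using this
  set S : Set (Fin n → F) := {x | ∃ i, x ∈ D i ∧ f x x ≠ 0} with hS
  -- the first transvection
  have hw0 : f (v i₁ + v i₂) (v i₁ + v i₂) = 0 := by
    rw [f_add_left, f_add_right hF, f_add_right hF, hvv, hvv, hD0 _ _ h12 _ (hv _) _ (hv _),
      hD0 _ _ h12.symm _ (hv _) _ (hv _)]
    linear_combination h2
  obtain ⟨w, hwG, hw⟩ := hT _ hw0
  have hw1 : ∀ c : F, (w : Matrix (Fin n) (Fin n) F) *ᵥ (c • v i₁) = c • v i₂ := by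
    intro c
    rw [hw, f_smul_left, f_add_right hF, hvv, hD0 _ _ h12 _ (hv _) _ (hv _), add_zero, mul_one]
    ext j
    simp only [Pi.add_apply, Pi.smul_apply, smul_eq_mul]
    linear_combination (c * v i₁ j) * h2
  have hw2 : ∀ c : F, (w : Matrix (Fin n) (Fin n) F) *ᵥ (c • v i₂) = c • v i₁ := by
    intro c
    rw [hw, f_smul_left, f_add_right hF, hvv, hD0 _ _ h12.symm _ (hv _) _ (hv _), zero_add, mul_one]
    ext j
    simp only [Pi.add_apply, Pi.smul_apply, smul_eq_mul]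
    linear_combination (c * v i₂ j) * h2
  have hw3 : ∀ x, f x (v i₁) = 0 → f x (v i₂) = 0 → (w : Matrix (Fin n) (Fin n) F) *ᵥ x = x := by
    intro x h3 h4
    rw [hw, f_add_right hF, h3, h4, add_zero, zero_smul, add_zero]
  have hoD : ∀ i j, i ≠ j → ∀ x ∈ D i, ∀ y ∈ D j, f x x ≠ 0 → x ∉ D j := by
    intro i j hij x hx y hy hxx h3
    exact hxx (hD0 i j hij x hx x h3)
  have hfix : ∀ i, i ≠ i₁ → i ≠ i₂ → ∀ x ∈ D i, (w : Matrix (Fin n) (Fin n) F) *ᵥ x = x := by
    intro i hi1 hi2 x hx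
    exact hw3 x (hD0 _ _ hi1 _ hx _ (hv _)) (hD0 _ _ hi2 _ hx _ (hv _))
  have hu0 : f (v i₁ + v' i₁ + v i₂ + v' i₂) (v i₁ + v' i₁ + v i₂ + v' i₂) = 0 := by
    simp only [f_add_left, f_add_right hF, hvv, hv'v', hvv', hv'v]
    rw [hD0 _ _ h12 _ (hv _) _ (hv _), hD0 _ _ h12 _ (hv _) _ (hv' _), hD0 _ _ h12 _ (hv' _) _ (hv _),
      hD0 _ _ h12 _ (hv' _) _ (hv' _), hD0 _ _ h12.symm _ (hv _) _ (hv _), hD0 _ _ h12.symm _ (hv _) _ (hv' _),
      hD0 _ _ h12.symm _ (hv' _) _ (hv _), hD0 _ _ h12.symm _ (hv' _) _ (hv' _)]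
    linear_combination 2 * h2
  obtain ⟨s, hsG, hs⟩ := hT _ hu0
  refine not_maximal_of_set S inf_le_right ?_ w hwG ?_ ?_ s ?_ (v i₁) ⟨i₁, hv _, ?_⟩ ?_
  · rintro h ⟨⟨σ, hσ⟩, hG⟩ x ⟨i, hx, hxx⟩
    refine ⟨σ i, ?_, ?_⟩
    · rw [← hσ i]
      exact ⟨x, hx, rfl⟩
    · have := hG.1 x x
      rw [show ((Units.coeHom (Matrix (Fin n) (Fin n) F)) h) = (h : Matrix (Fin n) (Fin n) F) from rfl] at this
      rwa [this]
  · -- the transvection preserves the set
    rintro x ⟨i, hx, hxx⟩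
    have hwp : f ((w : Matrix (Fin n) (Fin n) F) *ᵥ x) ((w : Matrix (Fin n) (Fin n) F) *ᵥ x) = f x x := hwG.1 x x
    by_cases hi1 : i = i₁
    · subst hi1
      obtain ⟨c, hc, rfl | rfl⟩ := hfr _ x hx hxx
      · refine ⟨i₂, ?_, ?_⟩
        · rw [hw1]
          exact (D _).smul_mem _ (hv _)
        · rw [hwp]
          exact hxx
      · refine ⟨i₁, ?_, ?_⟩
        · rw [hw3 _ ?_ ?_]
          · exact hx
          · rw [f_smul_left, hv'v, mul_zero]
          · rw [hD0 _ _ h12 _ hx _ (hv _)]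
        · rw [hwp]
          exact hxx
    · by_cases hi2 : i = i₂
      · subst hi2
        obtain ⟨c, hc, rfl | rfl⟩ := hfr _ x hx hxx
        · refine ⟨i₁, ?_, ?_⟩
          · rw [hw2]
            exact (D _).smul_mem _ (hv _)
          · rw [hwp]
            exact hxx
        · refine ⟨i₂, ?_, ?_⟩
          · rw [hw3 _ ?_ ?_]
            · exact hx
            · rw [hD0 _ _ h12.symm _ hx _ (hv _)]
            · rw [f_smul_left, hv'v, mul_zero]
          · rw [hwp]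
            exact hxx
      · refine ⟨i, ?_, ?_⟩
        · rw [hfix i hi1 hi2 x hx]
          exact hx
        · rw [hwp]
          exact hxx
  · -- not in `H`
    rintro ⟨⟨σ, hσ⟩, -⟩
    have h3 : (w : Matrix (Fin n) (Fin n) F) *ᵥ ((1 : F) • v i₁) ∈ D (σ i₁) := by
      rw [← hσ i₁]
      exact ⟨(1 : F) • v i₁, (D _).smul_mem _ (hv _), rfl⟩
    rw [hw1, one_smul] at h3
    have h4 : (w : Matrix (Fin n) (Fin n) F) *ᵥ (v' i₁) ∈ D (σ i₁) := by
      rw [← hσ i₁]
      exact ⟨_, hv' _, rfl⟩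
    rw [hw3 _ (hv'v _) (hD0 _ _ h12 _ (hv' _) _ (hv _))] at h4
    by_cases h5 : σ i₁ = i₁
    · rw [h5] at h3
      have := hD0 _ _ h12 _ h3 _ (hv i₂)
      rw [hvv] at this
      exact one_ne_zero this
    · have := hD0 _ _ (Ne.symm h5) _ (hv' i₁) _ h4
      rw [hv'v'] at this
      exact one_ne_zero this
  · exact hsG
  · rw [hvv]
    exact one_ne_zero
  · -- moved out of the set
    rintro ⟨j, hj, -⟩
    rw [hs] at hj
    set u := v i₁ + v' i₁ + v i₂ + v' i₂ with hu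
    have e1 : f (v i₁) u = 1 := by
      rw [hu, f_add_right hF, f_add_right hF, f_add_right hF, hvv, hvv', hD0 _ _ h12 _ (hv _) _ (hv _),
        hD0 _ _ h12 _ (hv _) _ (hv' _)]
      ring
    rw [e1, one_smul] at hj
    have e2 : f (v i₁ + u) (v' i₁) = 1 := by
      rw [hu]
      simp only [f_add_left]
      rw [hvv', hv'v', hD0 _ _ h12.symm _ (hv _) _ (hv' _), hD0 _ _ h12.symm _ (hv' _) _ (hv' _)]
      ring
    have e3 : f (v i₁ + u) (v i₂) = 1 := by
      rw [hu]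
      simp only [f_add_left]
      rw [hvv, hD0 _ _ h12 _ (hv _) _ (hv _), hD0 _ _ h12 _ (hv' _) _ (hv _), hv'v]
      ring
    by_cases hj2 : j = i₂
    · have := hD0 j i₁ (by rw [hj2]; exact h12.symm) _ hj _ (hv' _)
      rw [e2] at this
      exact one_ne_zero this
    · have := hD0 j i₂ hj2 _ hj _ (hv _)
      rw [e3] at this
      exact one_ne_zero this

end Cfsg.Agent.Lib.CmaxX.SU2b
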