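/-
`SU₄(3)`: the stabiliser of an orthogonal frame is not maximal: it preserves a set of six lines of alternating forms.
-/
import Cfsg.Agent.Lib.CmaxX.Dual
import Cfsg.Agent.Lib.Elusive.HermEigen

set_option autoImplicit false
set_option linter.unusedSectionVars false
set_option linter.unusedVariables false
set_option linter.style.haveILetI false

namespace Cfsg.Agent.Lib.CmaxX.U4Frame

open Matrix Module Cfsg Cfsg.Geo Cfsg.Agent.Lib.Geo.Basic Cfsg.Agent.Lib.Geo.UnitaryInSL Cfsg.Agent.Lib.Geo.SUGen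
open Cfsg.Agent.Lib.Geo.Centres Cfsg.Agent.Lib.CmaxX.Dual Cfsg.Agent.Lib.CmaxU.Proper
open scoped MatrixGroups

section FormStab
variable {ι : Type} [Fintype ι] [DecidableEq ι] {F : Type*} [Field F]

/-- The stabiliser of a set of two-argument forms. -/
def formStab [Finite F] (𝒜 : Set ((ι → F) → (ι → F) → F)) : Subgroup (GL ι F) where
  carrier := {g | ∀ A ∈ 𝒜, (fun x y => A ((g : Matrix ι ι F) *ᵥ x) ((g : Matrix ι ι F) *ᵥ y)) ∈ 𝒜}
  mul_mem' {a b} ha hb A hA := by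
    have := hb _ (ha A hA)
    simpa only [Units.val_mul, Matrix.mulVec_mulVec] using this
  one_mem' A hA := by simpa using hA
  inv_mem' {g} hg := by
    have hp : ∀ k : ℕ, ∀ A ∈ 𝒜, (fun x y => A (((g ^ k : GL ι F) : Matrix ι ι F) *ᵥ x) (((g ^ k : GL ι F) : Matrix ι ι F) *ᵥ y)) ∈ 𝒜 := by
      intro k
      induction k with
      | zero => intro A hA; simpa using hA
      | succ k ih =>
        intro A hA
        have := hg _ (ih A hA)
        simpa only [pow_succ, Units.val_mul, Matrix.mulVec_mulVec] using this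
    have hfin : IsOfFinOrder g := isOfFinOrder_of_finite g
    have hpos : 0 < orderOf g := hfin.orderOf_pos
    have h1 : g⁻¹ = g ^ (orderOf g - 1) := by
      apply inv_eq_of_mul_eq_one_right
      rw [← pow_succ', Nat.sub_add_cancel hpos, pow_orderOf_eq_one]
    intro A hA
    rw [h1]
    exact hp _ A hA

/-- Not maximal, by a set of forms. -/
theorem not_maximal_of_forms [Finite F] {G H : Subgroup (GL ι F)} (𝒜 : Set ((ι → F) → (ι → F) → F)) (hHG : H ≤ G)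
    (hHS : ∀ h ∈ H, ∀ A ∈ 𝒜, (fun x y => A ((h : Matrix ι ι F) *ᵥ x) ((h : Matrix ι ι F) *ᵥ y)) ∈ 𝒜)
    (w : GL ι F) (hwG : w ∈ G) (hwS : ∀ A ∈ 𝒜, (fun x y => A ((w : Matrix ι ι F) *ᵥ x) ((w : Matrix ι ι F) *ᵥ y)) ∈ 𝒜) (hwH : w ∉ H)
    (s : GL ι F) (hsG : s ∈ G) (A₀ : (ι → F) → (ι → F) → F) (hA₀ : A₀ ∈ 𝒜)
    (hs : (fun x y => A₀ ((s : Matrix ι ι F) *ᵥ x) ((s : Matrix ι ι F) *ᵥ y)) ∉ 𝒜) :
    ∃ K : Subgroup (GL ι F), H < K ∧ K < G := by
  refine ⟨formStab 𝒜 ⊓ G, lt_of_le_of_ne ?_ ?_, lt_of_le_of_ne inf_le_right ?_⟩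
  · intro h hh
    exact ⟨hHS h hh, hHG hh⟩
  · intro e
    have : w ∈ H := by
      rw [e]
      exact ⟨hwS, hwG⟩
    exact hwH this
  · intro e
    have : s ∈ formStab 𝒜 ⊓ G := by
      rw [e]
      exact hsG
    exact hs (this.1 A₀ hA₀)

end FormStab

section Afn
variable {F : Type*} [Field F]

/-- The alternating forms of the frame. -/
def Afn (a b c d : Fin 4) (s : F) (ξ η : Fin 4 → F) : F :=
  ξ a * η b - ξ b * η a + s * (ξ c * η d - ξ d * η c)

theorem Afn_swap1 (a b c d : Fin 4) (s : F) (ξ η : Fin 4 → F) : Afn b a c d s ξ η = - Afn a b c d (-s) ξ η := by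
  simp only [Afn]; ring

theorem Afn_swap2 (a b c d : Fin 4) (s : F) (ξ η : Fin 4 → F) : Afn a b d c s ξ η = Afn a b c d (-s) ξ η := by
  simp only [Afn]; ring

theorem Afn_swap3 (a b c d : Fin 4) (s : F) (hs : s * s = 1) (ξ η : Fin 4 → F) : Afn c d a b s ξ η = s * Afn a b c d s ξ η := by
  simp only [Afn]
  linear_combination (-(ξ c * η d - ξ d * η c)) * hs

/-- The normal forms. -/
def NF (a b c d : Fin 4) : Prop :=
  ∀ s : F, (s = 1 ∨ s = -1) → ∃ (a' b' c' d' : Fin 4) (κ s' : F), κ ≠ 0 ∧ (s' = 1 ∨ s' = -1) ∧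
    ((a' = 0 ∧ b' = 1 ∧ c' = 2 ∧ d' = 3) ∨ (a' = 0 ∧ b' = 2 ∧ c' = 1 ∧ d' = 3) ∨ (a' = 0 ∧ b' = 3 ∧ c' = 1 ∧ d' = 2)) ∧
    ∀ ξ η : Fin 4 → F, Afn a b c d s ξ η = κ * Afn a' b' c' d' s' ξ η

theorem neg_pm {s : F} (hs : s = 1 ∨ s = -1) : -s = 1 ∨ -s = -1 := by
  rcases hs with rfl | rfl
  · right; rfl
  · left; simp

theorem NF_base {a b c d : Fin 4}
    (h : (a = 0 ∧ b = 1 ∧ c = 2 ∧ d = 3) ∨ (a = 0 ∧ b = 2 ∧ c = 1 ∧ d = 3) ∨ (a = 0 ∧ b = 3 ∧ c = 1 ∧ d = 2)) : NF (F := F) a b c d :=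
  fun s hs => ⟨a, b, c, d, 1, s, one_ne_zero, hs, h, fun ξ η => by rw [one_mul]⟩

theorem NF_1 {a b c d : Fin 4} (h : NF (F := F) a b c d) : NF (F := F) b a c d := by
  intro s hs
  obtain ⟨a', b', c', d', κ, s', h0, h1, h2, h3⟩ := h (-s) (neg_pm hs)
  refine ⟨a', b', c', d', -κ, s', neg_ne_zero.2 h0, h1, h2, fun ξ η => ?_⟩
  rw [Afn_swap1, h3]
  ring

theorem NF_2 {a b c d : Fin 4} (h : NF (F := F) a b c d) : NF (F := F) a b d c := by
  intro s hs
  obtain ⟨a', b', c', d', κ, s', h0, h1, h2, h3⟩ := h (-s) (neg_pm hs)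
  refine ⟨a', b', c', d', κ, s', h0, h1, h2, fun ξ η => ?_⟩
  rw [Afn_swap2, h3]

theorem NF_3 {a b c d : Fin 4} (h : NF (F := F) a b c d) : NF (F := F) c d a b := by
  intro s hs
  obtain ⟨a', b', c', d', κ, s', h0, h1, h2, h3⟩ := h s hs
  have hss : s * s = 1 := by
    rcases hs with rfl | rfl <;> ring
  have hs0 : s ≠ 0 := left_ne_zero_of_mul_eq_one hss
  refine ⟨a', b', c', d', s * κ, s', mul_ne_zero hs0 h0, h1, h2, fun ξ η => ?_⟩
  rw [Afn_swap3 a b c d s hss, h3]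
  ring

theorem exists_NF {a b c d : Fin 4} (hab : a ≠ b) (hac : a ≠ c) (had : a ≠ d) (hbc : b ≠ c) (hbd : b ≠ d) (hcd : c ≠ d) :
    NF (F := F) a b c d := by
  have b1 : NF (F := F) 0 1 2 3 := NF_base (by simp)
  have b2 : NF (F := F) 0 2 1 3 := NF_base (by simp)
  have b3 : NF (F := F) 0 3 1 2 := NF_base (by simp)
  have all : ∀ a b c d : Fin 4, a ≠ b → a ≠ c → a ≠ d → b ≠ c → b ≠ d → c ≠ d →
      (a, b, c, d) ∈ ([(0,1,2,3), (1,0,2,3), (0,1,3,2), (1,0,3,2), (2,3,0,1), (3,2,0,1), (2,3,1,0), (3,2,1,0),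
        (0,2,1,3), (2,0,1,3), (0,2,3,1), (2,0,3,1), (1,3,0,2), (3,1,0,2), (1,3,2,0), (3,1,2,0),
        (0,3,1,2), (3,0,1,2), (0,3,2,1), (3,0,2,1), (1,2,0,3), (2,1,0,3), (1,2,3,0), (2,1,3,0)] : List (Fin 4 × Fin 4 × Fin 4 × Fin 4)) := by
    decide
  have hm := all a b c d hab hac had hbc hbd hcd
  simp only [List.mem_cons, Prod.mk.injEq, List.not_mem_nil, or_false] at hm
  rcases hm with ⟨rfl, rfl, rfl, rfl⟩ | ⟨rfl, rfl, rfl, rfl⟩ | ⟨rfl, rfl, rfl, rfl⟩ | ⟨rfl, rfl, rfl, rfl⟩ |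
    ⟨rfl, rfl, rfl, rfl⟩ | ⟨rfl, rfl, rfl, rfl⟩ | ⟨rfl, rfl, rfl, rfl⟩ | ⟨rfl, rfl, rfl, rfl⟩ |
    ⟨rfl, rfl, rfl, rfl⟩ | ⟨rfl, rfl, rfl, rfl⟩ | ⟨rfl, rfl, rfl, rfl⟩ | ⟨rfl, rfl, rfl, rfl⟩ |
    ⟨rfl, rfl, rfl, rfl⟩ | ⟨rfl, rfl, rfl, rfl⟩ | ⟨rfl, rfl, rfl, rfl⟩ | ⟨rfl, rfl, rfl, rfl⟩ |
    ⟨rfl, rfl, rfl, rfl⟩ | ⟨rfl, rfl, rfl, rfl⟩ | ⟨rfl, rfl, rfl, rfl⟩ | ⟨rfl, rfl, rfl, rfl⟩ |
    ⟨rfl, rfl, rfl, rfl⟩ | ⟨rfl, rfl, rfl, rfl⟩ | ⟨rfl, rfl, rfl, rfl⟩ | ⟨rfl, rfl, rfl, rfl⟩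
  · exact b1
  · exact NF_1 b1
  · exact NF_2 b1
  · exact NF_2 (NF_1 b1)
  · exact NF_3 b1
  · exact NF_1 (NF_3 b1)
  · exact NF_2 (NF_3 b1)
  · exact NF_2 (NF_1 (NF_3 b1))
  · exact b2
  · exact NF_1 b2
  · exact NF_2 b2
  · exact NF_2 (NF_1 b2)
  · exact NF_3 b2
  · exact NF_1 (NF_3 b2)
  · exact NF_2 (NF_3 b2)
  · exact NF_2 (NF_1 (NF_3 b2))
  · exact b3
  · exact NF_1 b3
  · exact NF_2 b3
  · exact NF_2 (NF_1 b3)
  · exact NF_3 b3
  · exact NF_1 (NF_3 b3)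
  · exact NF_2 (NF_3 b3)
  · exact NF_2 (NF_1 (NF_3 b3))

/-- The Hadamard transform. -/
def hadam (ξ : Fin 4 → F) : Fin 4 → F :=
  ![ξ 0 + ξ 1 + ξ 2 + ξ 3, ξ 0 - ξ 1 + ξ 2 - ξ 3, ξ 0 + ξ 1 - ξ 2 - ξ 3, ξ 0 - ξ 1 - ξ 2 + ξ 3]

theorem Afn_hadam {a b c d : Fin 4} (h : (a = 0 ∧ b = 1 ∧ c = 2 ∧ d = 3) ∨ (a = 0 ∧ b = 2 ∧ c = 1 ∧ d = 3) ∨ (a = 0 ∧ b = 3 ∧ c = 1 ∧ d = 2))
    {s : F} (hs : s = 1 ∨ s = -1) :
    ∃ (a' b' c' d' : Fin 4) (s' : F), a' ≠ b' ∧ a' ≠ c' ∧ a' ≠ d' ∧ b' ≠ c' ∧ b' ≠ d' ∧ c' ≠ d' ∧ (s' = 1 ∨ s' = -1) ∧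
      ∀ ξ η : Fin 4 → F, Afn a b c d s (hadam ξ) (hadam η) = -4 * Afn a' b' c' d' s' ξ η := by
  rcases h with ⟨rfl, rfl, rfl, rfl⟩ | ⟨rfl, rfl, rfl, rfl⟩ | ⟨rfl, rfl, rfl, rfl⟩ <;> rcases hs with rfl | rfl
  · refine ⟨0, 1, 2, 3, 1, by decide, by decide, by decide, by decide, by decide, by decide, Or.inl rfl, fun ξ η => ?_⟩
    simp [Afn, hadam]; ring
  · refine ⟨0, 3, 1, 2, -1, by decide, by decide, by decide, by decide, by decide, by decide, Or.inr rfl, fun ξ η => ?_⟩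
    simp [Afn, hadam]; ring
  · refine ⟨0, 2, 1, 3, 1, by decide, by decide, by decide, by decide, by decide, by decide, Or.inl rfl, fun ξ η => ?_⟩
    simp [Afn, hadam]; ring
  · refine ⟨0, 3, 1, 2, 1, by decide, by decide, by decide, by decide, by decide, by decide, Or.inl rfl, fun ξ η => ?_⟩
    simp [Afn, hadam]; ring
  · refine ⟨0, 2, 1, 3, -1, by decide, by decide, by decide, by decide, by decide, by decide, Or.inr rfl, fun ξ η => ?_⟩
    simp [Afn, hadam]; ring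
  · refine ⟨0, 1, 2, 3, -1, by decide, by decide, by decide, by decide, by decide, by decide, Or.inr rfl, fun ξ η => ?_⟩
    simp [Afn, hadam]; ring

end Afn

section Main
variable {F : Type*} [Field F] [Fintype F] {σ : F ≃+* F} {f : (Fin 4 → F) → (Fin 4 → F) → F}

theorem prod_distinct (w : Fin 4 → F) {a b c d : Fin 4} (hab : a ≠ b) (hac : a ≠ c) (had : a ≠ d) (hbc : b ≠ c) (hbd : b ≠ d) (hcd : c ≠ d) :
    w a * w b * w c * w d = ∏ i, w i := by
  have hU : ({a, b, c, d} : Finset (Fin 4)) = Finset.univ := by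
    revert a b c d
    decide
  rw [← hU, Finset.prod_insert (by simp [hab, hac, had]), Finset.prod_insert (by simp [hbc, hbd]),
    Finset.prod_insert (by simp [hcd]), Finset.prod_singleton]
  ring

theorem frame_not_maximal (hF : Fintype.card F = 3 ^ 2) (hσ : ∀ x, σ x = x ^ 3) (hf : IsUnitaryForm σ f) {I : Subgroup (GL (Fin 4) F)}
    (S : ∀ g : GL (Fin 4) F, g ∈ I ↔ IsIso f g ∧ (g : Matrix (Fin 4) (Fin 4) F).det = 1) {D : Fin 4 → Submodule F (Fin 4 → F)} (hD : IsNondegenerateMDecomposition f 1 D) :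
    ∃ K : Subgroup (GL (Fin 4) F), decompositionStabilizer D ⊓ I < K ∧ K < I := by
  classical
  have h3 : (3 : F) = 0 := by
    have h5 : ((Fintype.card F : ℕ) : F) = 0 := by
      simpa using (CharP.cast_card_eq_zero F)
    rw [hF] at h5
    have : (3 : F) * 3 = 0 := by
      have h6 : ((3 ^ 2 : ℕ) : F) = 9 := by norm_num
      rw [h6] at h5
      linear_combination h5
    simpa using this
  have h2 : (2 : F) ≠ 0 := by
    intro h
    have : (1 : F) = 0 := by linear_combination h3 - h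
    exact one_ne_zero this
  have hI : ∀ g : GL (Fin 4) F, IsIso f g → (g : Matrix (Fin 4) (Fin 4) F).det = 1 → g ∈ I :=
    fun g h1 h2 => (S g).2 ⟨h1, h2⟩
  -- the frame
  have hex : ∀ i, ∃ v ∈ D i, f v v = 1 := by
    intro i
    have hne : D i ≠ ⊥ := by
      intro h
      have h1 := hD.decomp.finrank_eq i
      rw [h] at h1
      simp at h1
    obtain ⟨x, hx, hx0⟩ := Submodule.exists_mem_ne_zero_of_ne_bot hne
    obtain ⟨y, hy, hyx⟩ := (hD.nondegenerate i x hx hx0).1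
    have hxx : f x x ≠ 0 := by
      have hfr : Module.finrank F (D i) = 1 := hD.decomp.finrank_eq i
      have hx' : (⟨x, hx⟩ : D i) ≠ 0 := fun h => hx0 (congrArg Subtype.val h)
      obtain ⟨c, hc⟩ := (finrank_eq_one_iff_of_nonzero' _ hx').1 hfr ⟨y, hy⟩
      have hc' : c • x = y := congrArg Subtype.val hc
      rw [← hc', hf.smul_left] at hyx
      exact right_ne_zero_of_mul hyx
    have hσt : (f x x)⁻¹ ^ 3 = (f x x)⁻¹ := by
      rw [← hσ, map_inv₀, UForm.sigma_self hf]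
    obtain ⟨a, ha⟩ := Cfsg.Agent.Lib.Elusive.HermEigen.exists_norm_eq hF _ hσt (inv_ne_zero hxx)
    refine ⟨a • x, (D i).smul_mem _ hx, ?_⟩
    rw [hf.smul_left, UForm.smul_right hf, hσ]
    have : a * (a ^ 3 * f x x) = a ^ (3 + 1) * f x x := by ring
    rw [this, ha, inv_mul_cancel₀ hxx]
  choose v hv hvv using hex
  have hO : ∀ i j, i ≠ j → ∀ x ∈ D i, ∀ y ∈ D j, f x y = 0 := fun i j hij x hx y hy => hD.orthogonal i j hij x hx y hy
  have hdual : ∀ i j, f (v i) (v j) = if i = j then 1 else 0 := by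
    intro i j
    by_cases h : i = j
    · subst h
      simp [hvv]
    · simp [h, hO i j h _ (hv i) _ (hv j)]
  have hexp := expand hf hdual
  have hmem : ∀ j x, x ∈ D j → x = f x (v j) • v j := by
    intro j x hx
    conv_lhs => rw [hexp x]
    rw [Finset.sum_eq_single j]
    · intro b _ hb
      rw [hO j b (Ne.symm hb) x hx _ (hv b), zero_smul]
    · simp
  let ξ : (Fin 4 → F) → (Fin 4 → F) := fun x i => f x (v i)
  have hξv : ∀ j i, ξ (v j) i = if j = i then 1 else 0 := fun j i => hdual j i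
  have hξadd : ∀ x y, ξ (x + y) = ξ x + ξ y := fun x y => by
    funext i
    exact hf.add_left _ _ _
  have hξsmul : ∀ (c : F) x, ξ (c • x) = c • ξ x := fun c x => by
    funext i
    exact hf.smul_left _ _ _
  have hpars : ∀ x y, f x y = ∑ i, ξ x i * σ (ξ y i) := by
    intro x y
    conv_lhs => rw [hexp x]
    simp only [Fin.sum_univ_four, hf.add_left, hf.smul_left]
    simp only [ξ]
    rw [hf.herm (v 0) y, hf.herm (v 1) y, hf.herm (v 2) y, hf.herm (v 3) y]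
  -- the set of forms
  let 𝒜 : Set ((Fin 4 → F) → (Fin 4 → F) → F) := {A | ∃ (κ : F) (a b c d : Fin 4) (s : F), κ ≠ 0 ∧ a ≠ b ∧ a ≠ c ∧ a ≠ d ∧ b ≠ c ∧
    b ≠ d ∧ c ≠ d ∧ (s = 1 ∨ s = -1) ∧ A = fun x y => κ * Afn a b c d s (ξ x) (ξ y)}
  -- the monomial group preserves the forms
  have hHS : ∀ g ∈ decompositionStabilizer D ⊓ I, ∀ A ∈ 𝒜,
      (fun x y => A ((g : Matrix _ _ F) *ᵥ x) ((g : Matrix _ _ F) *ᵥ y)) ∈ 𝒜 := by
    rintro g ⟨hg1, hg2⟩ _ ⟨κ, a, b, c, d, s, hκ, hab, hac, had, hbc, hbd, hcd, hs, rfl⟩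
    have hgI := (S g).1 hg2
    set h := g⁻¹ with hh
    have hhI := (S h).1 (I.inv_mem hg2)
    have hadj : ∀ x y, f ((g : Matrix _ _ F) *ᵥ x) y = f x ((h : Matrix _ _ F) *ᵥ y) := by
      intro x y
      have h1 := hgI.1 x ((h : Matrix _ _ F) *ᵥ y)
      rw [Matrix.mulVec_mulVec, ← Units.val_mul, hh, mul_inv_cancel, Units.val_one, Matrix.one_mulVec] at h1
      exact h1
    obtain ⟨ρ, hρ⟩ := mem_stab (Subgroup.inv_mem _ hg1)
    let ν : Fin 4 → F := fun i => f ((h : Matrix _ _ F) *ᵥ v i) (v (ρ i))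
    have hνv : ∀ i, (h : Matrix _ _ F) *ᵥ v i = ν i • v (ρ i) := fun i => hmem _ _ (hρ i _ (hv i))
    have hνn : ∀ i, ν i ^ 4 = 1 := by
      intro i
      have h1 := hhI.1 (v i) (v i)
      rw [hνv, hf.smul_left, UForm.smul_right hf, hvv, hvv, hσ] at h1
      linear_combination h1
    have hν0 : ∀ i, ν i ≠ 0 := by
      intro i h0
      have := hνn i
      rw [h0] at this
      norm_num at this
    let η : Fin 4 → F := fun i => ν i ^ 3
    have hξg : ∀ x i, ξ ((g : Matrix _ _ F) *ᵥ x) i = η i * ξ x (ρ i) := by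
      intro x i
      change f _ _ = _
      rw [hadj, hνv, UForm.smul_right hf, hσ]
    have hη0 : ∀ i, η i ≠ 0 := fun i => pow_ne_zero _ (hν0 i)
    have hηn : ∀ i, η i ^ 4 = 1 := by
      intro i
      change (ν i ^ 3) ^ 4 = 1
      rw [← pow_mul, mul_comm, pow_mul, hνn, one_pow]
    -- the determinant
    have hprod : (∏ i, ν i) ^ 2 = 1 := by
      let C : Matrix (Fin 4) (Fin 4) F := fun i j => if i = ρ j then ν j else 0
      have h1 := det_eq hf hdual (h : Matrix _ _ F) C (by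
        intro j
        rw [hνv, Finset.sum_eq_single (ρ j)]
        · simp [C]
        · intro b _ hb
          simp [C, hb]
        · simp)
      rw [hhI.2] at h1
      have h4 : C = (Matrix.diagonal ν).submatrix ρ.symm id := by
        ext i j
        simp only [C, Matrix.submatrix_apply, id, Matrix.diagonal_apply]
        by_cases h5 : i = ρ j
        · subst h5
          simp
        · have h6 : ρ.symm i ≠ j := fun h7 => h5 (by rw [← h7]; simp)
          simp [h5, h6]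
      rw [h4, Matrix.det_permute, Matrix.det_diagonal] at h1
      have h7 := congrArg (fun x => x ^ 2) h1
      simp only [one_pow] at h7
      rw [h7, mul_pow]
      have h8 : ((((Equiv.Perm.sign ρ.symm : ℤˣ) : ℤ) : F)) ^ 2 = 1 := by
        rcases Int.units_eq_one_or (Equiv.Perm.sign ρ.symm) with h9 | h9 <;> rw [h9] <;> simp
      rw [h8, one_mul]
    have hηprod : η a * η b * η c * η d = ∏ i, η i := prod_distinct η hab hac had hbc hbd hcd
    have hηp2 : (η a * η b * η c * η d) ^ 2 = 1 := by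
      rw [hηprod]
      simp only [η]
      rw [Finset.prod_pow, ← pow_mul, mul_comm, pow_mul, hprod, one_pow]
    set κ₁ := η a * η b with hκ₁
    set κ₂ := η c * η d with hκ₂
    have hκ₁0 : κ₁ ≠ 0 := mul_ne_zero (hη0 a) (hη0 b)
    have hκ₁4 : κ₁ ^ 4 = 1 := by
      rw [hκ₁, mul_pow, hηn, hηn, one_mul]
    have hs2 : s * s = 1 := by
      rcases hs with rfl | rfl <;> ring
    set s' := s * κ₂ * κ₁⁻¹ with hs'
    have hs'2 : s' * s' = 1 := by
      have h1 : κ₁ ^ 2 * κ₂ ^ 2 = 1 := by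
        have : (κ₁ * κ₂) ^ 2 = 1 := by
          rw [hκ₁, hκ₂, ← mul_assoc]
          exact hηp2
        rw [← this]
        ring
      have h4 : κ₂ ^ 2 = κ₁ ^ 2 := by
        calc κ₂ ^ 2 = κ₁ ^ 4 * κ₂ ^ 2 := by rw [hκ₁4, one_mul]
          _ = κ₁ ^ 2 * (κ₁ ^ 2 * κ₂ ^ 2) := by ring
          _ = κ₁ ^ 2 := by rw [h1, mul_one]
      rw [hs']
      field_simp
      linear_combination (κ₁ ^ 2) * hs2 + s ^ 2 * h4
    have hs'pm : s' = 1 ∨ s' = -1 := by
      have : (s' - 1) * (s' + 1) = 0 := by linear_combination hs'2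
      rcases mul_eq_zero.1 this with h | h
      · left; linear_combination h
      · right; linear_combination h
    have hinj := ρ.injective
    refine ⟨κ * κ₁, ρ a, ρ b, ρ c, ρ d, s', mul_ne_zero hκ hκ₁0, hinj.ne hab, hinj.ne hac, hinj.ne had, hinj.ne hbc,
      hinj.ne hbd, hinj.ne hcd, hs'pm, ?_⟩
    funext x y
    simp only [Afn, hξg]
    rw [hs']
    field_simp
    rw [hκ₁, hκ₂]
    ring
  -- the Hadamard element
  have hRV := rows_mul_cols hf hdual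
  set R : Matrix (Fin 4) (Fin 4) F := Matrix.of fun j => formVec f (v j) with hR
  set V : Matrix (Fin 4) (Fin 4) F := cols v with hV
  have hVR : V * R = 1 := mul_eq_one_comm.1 hRV
  let Hm : Matrix (Fin 4) (Fin 4) F := !![1, 1, 1, 1; 1, -1, 1, -1; 1, 1, -1, -1; 1, -1, -1, 1]
  have hHm : Hm * Hm = 1 := by
    ext i j
    fin_cases i <;> fin_cases j <;> simp [Hm, Matrix.mul_apply, Fin.sum_univ_four] <;> linear_combination h3
  let ym : Matrix (Fin 4) (Fin 4) F := V * Hm * R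
  have hym : ym * ym = 1 := by
    calc ym * ym = V * Hm * (R * V) * Hm * R := by simp only [ym, Matrix.mul_assoc]
      _ = V * (Hm * Hm) * R := by rw [hRV, Matrix.mul_one]; simp only [Matrix.mul_assoc]
      _ = 1 := by rw [hHm, Matrix.mul_one, hVR]
  let y : GL (Fin 4) F := ⟨ym, ym, hym, hym⟩
  have hRx : ∀ x, R *ᵥ x = ξ x := by
    intro x
    funext j
    exact formVec_dotProduct hf.add_left hf.smul_left x (v j)
  have hξV : ∀ ζ, ξ (V *ᵥ ζ) = ζ := by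
    intro ζ
    rw [hV, cols_mulVec]
    funext a
    simp only [Fin.sum_univ_four, ξ, hf.add_left, hf.smul_left, hdual]
    fin_cases a <;> simp
  have hHmv : ∀ ζ, Hm *ᵥ ζ = hadam ζ := by
    intro ζ
    funext a
    fin_cases a <;> simp [Hm, hadam, Matrix.mulVec, dotProduct, Fin.sum_univ_four] <;> ring
  have hξy : ∀ x, ξ ((y : Matrix _ _ F) *ᵥ x) = hadam (ξ x) := by
    intro x
    change ξ (ym *ᵥ x) = _
    simp only [ym]
    rw [← Matrix.mulVec_mulVec, ← Matrix.mulVec_mulVec, hξV, hRx, hHmv]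
  have hyI : y ∈ I := by
    refine hI y ?_ ?_
    · intro x z
      rw [hpars, hpars x z, hξy, hξy]
      simp only [Fin.sum_univ_four, hadam, Matrix.cons_val_zero, Matrix.cons_val_one, Matrix.cons_val, map_add, map_sub]
      linear_combination (ξ x 0 * σ (ξ z 0) + ξ x 1 * σ (ξ z 1) + ξ x 2 * σ (ξ z 2) + ξ x 3 * σ (ξ z 3)) * h3
    · change ym.det = 1
      have h16 : Hm.det = 16 := by
        simp [Hm, Matrix.det_succ_row_zero, Fin.sum_univ_succ, Fin.succAbove]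
        norm_num
      have h1 : ym.det = Hm.det * (R * V).det := by
        simp only [ym, Matrix.det_mul]
        ring
      rw [h1, hRV, Matrix.det_one, mul_one, h16]
      linear_combination 5 * h3
  have h4 : (-4 : F) ≠ 0 := by
    intro h
    have : (1 : F) = 0 := by linear_combination -h - h3
    exact one_ne_zero this
  have hyS : ∀ A ∈ 𝒜, (fun x z => A ((y : Matrix _ _ F) *ᵥ x) ((y : Matrix _ _ F) *ᵥ z)) ∈ 𝒜 := by
    rintro _ ⟨κ, a, b, c, d, s, hκ, hab, hac, had, hbc, hbd, hcd, hs, rfl⟩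
    obtain ⟨a', b', c', d', κ', s', hκ', hs', hpar, hE⟩ := exists_NF (F := F) hab hac had hbc hbd hcd s hs
    obtain ⟨a₂, b₂, c₂, d₂, s₂, h1, h5, h6, h7, h8, h9, hs₂, hE₂⟩ := Afn_hadam hpar hs'
    refine ⟨κ * κ' * (-4), a₂, b₂, c₂, d₂, s₂, mul_ne_zero (mul_ne_zero hκ hκ') h4, h1, h5, h6, h7, h8, h9, hs₂, ?_⟩
    funext x z
    simp only
    rw [hE, hξy, hξy, hE₂]
    ring
  have hyH : y ∉ decompositionStabilizer D ⊓ I := by
    rintro ⟨h1, -⟩
    obtain ⟨τ, hτ⟩ := mem_stab h1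
    have h5 := hτ 0 _ (hv 0)
    obtain ⟨i, hi⟩ : ∃ i : Fin 4, τ 0 ≠ i := ⟨if τ 0 = 0 then 1 else 0, by
      by_cases h : τ 0 = 0 <;> simp [h]⟩
    have h6 := hO _ _ hi _ h5 _ (hv i)
    have h7 : ξ ((y : Matrix _ _ F) *ᵥ v 0) i = 0 := h6
    rw [hξy] at h7
    have h8 : ξ (v 0) = ![1, 0, 0, 0] := by
      funext k
      rw [hξv]
      fin_cases k <;> simp
    rw [h8] at h7
    fin_cases i <;> simp [hadam] at h7
  -- the transvection
  obtain ⟨β, hβ⟩ := Cfsg.Agent.Lib.Elusive.HermEigen.exists_norm_eq hF (-1 : F) (by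
    have : (-1 : F) ^ 3 = -1 := by ring
    exact this) (neg_ne_zero.2 one_ne_zero)
  have hβσ : β * σ β = -1 := by
    rw [hσ]
    linear_combination hβ
  obtain ⟨l, hl0, hl⟩ := exists_trace_zero σ hf.ne_refl hf.involutive
  have hl1 : 1 + l ≠ 0 := by
    intro h
    have h5 : l = -1 := by linear_combination h
    rw [h5, map_neg, map_one] at hl
    apply h2
    linear_combination -hl
  have hσβ0 : σ β ≠ 0 := by
    intro h
    rw [h, mul_zero] at hβσ
    have : (1 : F) = 0 := by linear_combination hβσ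
    exact one_ne_zero this
  set u : Fin 4 → F := v 0 + β • v 1 with hu
  have huu : f u u = 0 := by
    rw [hu]
    simp only [hf.add_left, hf.smul_left, UForm.add_right hf, UForm.smul_right hf, hdual]
    simp
    linear_combination hβσ
  let A₀ : (Fin 4 → F) → (Fin 4 → F) → F := fun x z => 1 * Afn 0 2 1 3 1 (ξ x) (ξ z)
  have hA₀ : A₀ ∈ 𝒜 := ⟨1, 0, 2, 1, 3, 1, one_ne_zero, by decide, by decide, by decide, by decide, by decide, by decide, Or.inl rfl, rfl⟩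
  have hs : (fun x z => A₀ (((uT hf u l huu : GL _ F) : Matrix _ _ F) *ᵥ x) (((uT hf u l huu : GL _ F) : Matrix _ _ F) *ᵥ z)) ∉ 𝒜 := by
    rintro ⟨κ, a, b, c, d, s, hκ, hab, hac, had, hbc, hbd, hcd, hs, hE⟩
    obtain ⟨a', b', c', d', κ', s', hκ', hs', hpar, hE'⟩ := exists_NF (F := F) hab hac had hbc hbd hcd s hs
    have hval : ∀ x z, A₀ (((uT hf u l huu : GL _ F) : Matrix _ _ F) *ᵥ x) (((uT hf u l huu : GL _ F) : Matrix _ _ F) *ᵥ z) =
        κ * (κ' * Afn a' b' c' d' s' (ξ x) (ξ z)) := by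
      intro x z
      have := congrFun (congrFun hE x) z
      rw [this, hE']
    have hξu : ξ u = ![1, β, 0, 0] := by
      funext k
      change f _ _ = _
      rw [hu, hf.add_left, hf.smul_left, hdual, hdual]
      fin_cases k <;> simp
    have hξe : ∀ j k, ξ (v j) k = if j = k then 1 else 0 := hξv
    have hf0 : f (v 0) u = 1 := by
      rw [hu, UForm.add_right hf, UForm.smul_right hf, hdual, hdual]
      simp
    have hf1 : f (v 1) u = σ β := by
      rw [hu, UForm.add_right hf, UForm.smul_right hf, hdual, hdual]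
      simp
    have hf2 : f (v 2) u = 0 := by
      rw [hu, UForm.add_right hf, UForm.smul_right hf, hdual, hdual]
      simp
    have hs0 : ∀ k, ξ (((uT hf u l huu : GL _ F) : Matrix _ _ F) *ᵥ v 0) k = ξ (v 0) k + l * ξ u k := by
      intro k
      rw [uT_mulVec, hf0, one_smul, hξadd, hξsmul]
      rfl
    have hs1 : ∀ k, ξ (((uT hf u l huu : GL _ F) : Matrix _ _ F) *ᵥ v 1) k = ξ (v 1) k + σ β * (l * ξ u k) := by
      intro k
      rw [uT_mulVec, hf1, hξadd, hξsmul, hξsmul]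
      rfl
    have hs2 : ((uT hf u l huu : GL _ F) : Matrix _ _ F) *ᵥ v 2 = v 2 := by
      rw [uT_mulVec, hf2, zero_smul, add_zero]
    have hv0 := hval (v 0) (v 2)
    have hv1 := hval (v 1) (v 2)
    rw [hs2] at hv0 hv1
    have hl0' : A₀ (((uT hf u l huu : GL _ F) : Matrix _ _ F) *ᵥ v 0) (v 2) = 1 + l := by
      simp only [A₀, Afn, hs0, hξe, hξu]
      simp
    have hl1' : A₀ (((uT hf u l huu : GL _ F) : Matrix _ _ F) *ᵥ v 1) (v 2) = σ β * l := by
      simp only [A₀, Afn, hs1, hξe, hξu]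
      simp
    rw [hl0'] at hv0
    rw [hl1'] at hv1
    have hne0 := mul_ne_zero hσβ0 hl0
    rcases hpar with ⟨rfl, rfl, rfl, rfl⟩ | ⟨rfl, rfl, rfl, rfl⟩ | ⟨rfl, rfl, rfl, rfl⟩
    · apply hl1
      rw [hv0]
      simp [Afn, hξe]
    · apply hne0
      rw [hv1]
      simp [Afn, hξe]
    · apply hl1
      rw [hv0]
      simp [Afn, hξe]
  exact not_maximal_of_forms 𝒜 inf_le_right hHS y hyI hyS hyH (uT hf u l huu) (uT_mem_I hf hI u l huu hl) A₀ hA₀ hs

end Main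

end Cfsg.Agent.Lib.CmaxX.U4Frame
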