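/-
`SU₄(q)`, `q = 2, 3`: the stabiliser of a pair of totally isotropic planes is not maximal: it preserves an alternating form
up to scalars.
-/
import Cfsg.Agent.Lib.CmaxX.Dual

set_option autoImplicit false
set_option linter.unusedSectionVars false
set_option linter.unusedVariables false
set_option linter.style.haveILetI false

namespace Cfsg.Agent.Lib.CmaxX.U4Pair

open Matrix Module Cfsg Cfsg.Geo Cfsg.Agent.Lib.Geo.Basic Cfsg.Agent.Lib.Geo.UnitaryInSL Cfsg.Agent.Lib.Geo.SUGen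
open Cfsg.Agent.Lib.Geo.Centres Cfsg.Agent.Lib.CmaxX.Dual Cfsg.Agent.Lib.CmaxU.Proper
open scoped MatrixGroups

variable {F : Type*} [Field F] {σ : F ≃+* F} {f : (Fin 4 → F) → (Fin 4 → F) → F}

/-- A wedge of two conjugate-linear functionals. -/
def wedge (f : (Fin 4 → F) → (Fin 4 → F) → F) (p q x y : Fin 4 → F) : F := f x p * f y q - f x q * f y p

theorem wedge_comb (hf : IsUnitaryForm σ f) {u₀ u₁ v₀ v₁ : Fin 4 → F} {c₀₀ c₁₀ c₀₁ c₁₁ : F}
    (h0 : u₀ = c₀₀ • v₀ + c₁₀ • v₁) (h1 : u₁ = c₀₁ • v₀ + c₁₁ • v₁) (x y : Fin 4 → F) :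
    wedge f u₀ u₁ x y = σ (c₀₀ * c₁₁ - c₀₁ * c₁₀) * wedge f v₀ v₁ x y := by
  subst h0 h1
  simp only [wedge, UForm.add_right hf, UForm.smul_right hf, map_sub, map_mul]
  ring

/-- A dual basis to a pair of complementary isotropic planes. -/
theorem exists_basis (hf : IsUnitaryForm σ f) {D : Fin 2 → Submodule F (Fin 4 → F)} (hD : IsMDecomposition 2 D)
    (hDs : ∀ i, IsTotallySingularFor f (D i)) :
    ∃ a b : Fin 2 → (Fin 4 → F), (∀ i, a i ∈ D 0) ∧ (∀ i, b i ∈ D 1) ∧ ∀ i j, f (b j) (a i) = if i = j then 1 else 0 := by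
  classical
  let B := Module.finBasisOfFinrankEq F (D 0) (hD.finrank_eq 0)
  let a : Fin 2 → (Fin 4 → F) := fun i => ((B i : D 0) : Fin 4 → F)
  have ha : ∀ i, a i ∈ D 0 := fun i => (B i).2
  let L : (D 1) →ₗ[F] (Fin 2 → F) :=
    { toFun := fun y i => f y.1 (a i)
      map_add' := fun x y => by
        funext i
        exact hf.add_left _ _ _
      map_smul' := fun c x => by
        funext i
        exact hf.smul_left _ _ _ }
  have hsum : ∀ x ∈ D 0, ∃ c : Fin 2 → F, x = ∑ i, c i • a i := by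
    intro x hx
    refine ⟨fun i => B.repr ⟨x, hx⟩ i, ?_⟩
    have h1 : x = ((∑ i, B.repr ⟨x, hx⟩ i • B i : D 0) : Fin 4 → F) := by rw [B.sum_repr]
    refine h1.trans ?_
    rw [Submodule.coe_sum]
    exact Finset.sum_congr rfl fun i _ => rfl
  have hinj : Function.Injective L := by
    rw [← LinearMap.ker_eq_bot, LinearMap.ker_eq_bot']
    intro y hy
    have hyi : ∀ i, f y.1 (a i) = 0 := fun i => congrFun hy i
    apply Subtype.ext
    apply eq_zero_of_orth_decomp hf hD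
    intro i x hx
    fin_cases i
    · obtain ⟨c, rfl⟩ := hsum x hx
      apply UForm.refl hf
      simp only [Fin.sum_univ_two, UForm.add_right hf, UForm.smul_right hf, hyi, mul_zero, add_zero]
    · exact hDs 1 x hx y.1 y.2
  have hsurj : Function.Surjective L := by
    refine (LinearMap.injective_iff_surjective_of_finrank_eq_finrank ?_).1 hinj
    rw [hD.finrank_eq 1]
    simp
  have hb : ∀ j : Fin 2, ∃ y : D 1, L y = fun i => if i = j then 1 else 0 := fun j => hsurj _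
  choose b hb using hb
  refine ⟨a, fun j => (b j).1, ha, fun j => (b j).2, ?_⟩
  intro i j
  exact congrFun (hb j) i

theorem not_maximal (hf : IsUnitaryForm σ f) {I : Subgroup (GL (Fin 4) F)} (S : ∀ g : GL (Fin 4) F, g ∈ I ↔ IsIso f g ∧ (g : Matrix (Fin 4) (Fin 4) F).det = 1) [Finite F]
    (hfix : ∀ B : F, B ≠ 0 → σ B = B → B * B = 1)
    (hμ : ∃ μ : F, μ * σ μ = -1) (hl : ∃ l : F, l ≠ 0 ∧ l + σ l = 0)
    {D : Fin 2 → Submodule F (Fin 4 → F)} (hD : IsMDecomposition 2 D) (hDs : ∀ i, IsTotallySingularFor f (D i)) :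
    ∃ K : Subgroup (GL (Fin 4) F), decompositionStabilizer D ⊓ I < K ∧ K < I := by
  classical
  obtain ⟨a, b, ha, hb, hba⟩ := exists_basis hf hD hDs
  obtain ⟨μ, hμ⟩ := hμ
  obtain ⟨l, hl0, hl⟩ := hl
  set a₀ := a 0 with ha₀
  set a₁ := a 1 with ha₁
  set b₀ := b 0 with hb₀
  set b₁ := b 1 with hb₁
  have hI : ∀ g : GL (Fin 4) F, IsIso f g → (g : Matrix (Fin 4) (Fin 4) F).det = 1 → g ∈ I :=
    fun g h1 h2 => (S g).2 ⟨h1, h2⟩
  have haa : ∀ x ∈ D 0, ∀ y ∈ D 0, f x y = 0 := fun x hx y hy => hDs 0 x hx y hy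
  have hbb : ∀ x ∈ D 1, ∀ y ∈ D 1, f x y = 0 := fun x hx y hy => hDs 1 x hx y hy
  have ha₀m : a₀ ∈ D 0 := ha 0
  have ha₁m : a₁ ∈ D 0 := ha 1
  have hb₀m : b₀ ∈ D 1 := hb 0
  have hb₁m : b₁ ∈ D 1 := hb 1
  have b0a0 : f b₀ a₀ = 1 := by simpa using hba 0 0
  have b0a1 : f b₀ a₁ = 0 := by simpa using hba 1 0
  have b1a0 : f b₁ a₀ = 0 := by simpa using hba 0 1
  have b1a1 : f b₁ a₁ = 1 := by simpa using hba 1 1
  have a0b0 : f a₀ b₀ = 1 := by rw [hf.herm, b0a0, map_one]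
  have a0b1 : f a₀ b₁ = 0 := by rw [hf.herm, b1a0, map_zero]
  have a1b0 : f a₁ b₀ = 0 := by rw [hf.herm, b0a1, map_zero]
  have a1b1 : f a₁ b₁ = 1 := by rw [hf.herm, b1a1, map_one]
  -- expansions
  let u : Fin 4 → (Fin 4 → F) := ![a₀, a₁, b₀, b₁]
  let w : Fin 4 → (Fin 4 → F) := ![b₀, b₁, a₀, a₁]
  have hdual : ∀ i j, f (u i) (w j) = if i = j then 1 else 0 := by
    intro i j
    fin_cases i <;> fin_cases j <;>
      simp [u, w, a0b0, a0b1, a1b0, a1b1, b0a0, b0a1, b1a0, b1a1, haa _ ha₀m _ ha₀m, haa _ ha₀m _ ha₁m,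
        haa _ ha₁m _ ha₀m, haa _ ha₁m _ ha₁m, hbb _ hb₀m _ hb₀m, hbb _ hb₀m _ hb₁m, hbb _ hb₁m _ hb₀m, hbb _ hb₁m _ hb₁m]
  have hexp := expand hf hdual
  have hexp0 : ∀ x ∈ D 0, x = f x b₀ • a₀ + f x b₁ • a₁ := by
    intro x hx
    conv_lhs => rw [hexp x]
    simp [Fin.sum_univ_four, u, w, haa x hx _ ha₀m, haa x hx _ ha₁m]
  have hexp1 : ∀ x ∈ D 1, x = f x a₀ • b₀ + f x a₁ • b₁ := by
    intro x hx
    conv_lhs => rw [hexp x]
    simp [Fin.sum_univ_four, u, w, hbb x hx _ hb₀m, hbb x hx _ hb₁m]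
  -- the form
  let ω : (Fin 4 → F) → (Fin 4 → F) → F := fun x y => wedge f b₀ b₁ x y + wedge f a₀ a₁ x y
  have hK : decompositionStabilizer D ⊓ I ≤ similarityGroup ω ⊓ I := by
    rintro g ⟨hg1, hg2⟩
    refine ⟨?_, hg2⟩
    have hgI := (S g).1 hg2
    set h := g⁻¹ with hh
    have hhI := (S h).1 (I.inv_mem hg2)
    have hadj : ∀ x y, f ((g : Matrix _ _ F) *ᵥ x) y = f x ((h : Matrix _ _ F) *ᵥ y) := by
      intro x y
      have h1 := hgI.1 x ((h : Matrix _ _ F) *ᵥ y)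
      rw [Matrix.mulVec_mulVec, ← Units.val_mul, hh, mul_inv_cancel, Units.val_one, Matrix.one_mulVec] at h1
      exact h1
    have hwedge : ∀ p q x y, wedge f p q ((g : Matrix _ _ F) *ᵥ x) ((g : Matrix _ _ F) *ᵥ y) =
        wedge f ((h : Matrix _ _ F) *ᵥ p) ((h : Matrix _ _ F) *ᵥ q) x y := by
      intro p q x y
      simp only [wedge, hadj]
    obtain ⟨τ, hτ⟩ := mem_stab (Subgroup.inv_mem _ hg1)
    have hiso := hhI.1
    have hdet := hhI.2
    have hfin : ∀ P R : F, P * σ R = 1 → P * R = 1 → σ R = R ∧ σ P = R ∧ R ≠ 0 := by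
      intro P R h1 h2
      have h3 : σ R = R := by
        have hP : P ≠ 0 := left_ne_zero_of_mul_eq_one h2
        exact mul_left_cancel₀ hP (h1.trans h2.symm)
      have hR : R ≠ 0 := right_ne_zero_of_mul_eq_one h2
      have h4 := hfix R hR h3
      have h5 : P = R := by
        calc P = P * (R * R) := by rw [h4, mul_one]
          _ = (P * R) * R := by ring
          _ = R := by rw [h2, one_mul]
      rw [h5]
      exact ⟨h3, h3, hR⟩
    have hτ0 : (τ 0 = 0 ∧ τ 1 = 1) ∨ (τ 0 = 1 ∧ τ 1 = 0) := by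
      have hinj := τ.injective
      have h01 : τ 0 ≠ τ 1 := fun h => absurd (hinj h) (by decide)
      have hall : ∀ x y : Fin 2, x ≠ y → (x = 0 ∧ y = 1) ∨ (x = 1 ∧ y = 0) := by decide
      exact hall _ _ h01
    rcases hτ0 with ⟨ht0, ht1⟩ | ⟨ht0, ht1⟩
    · -- no swap
      have m0 : ∀ x ∈ D 0, (h : Matrix _ _ F) *ᵥ x ∈ D 0 := fun x hx => by
        have := hτ 0 x hx
        rwa [ht0] at this
      have m1 : ∀ x ∈ D 1, (h : Matrix _ _ F) *ᵥ x ∈ D 1 := fun x hx => by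
        have := hτ 1 x hx
        rwa [ht1] at this
      have ea0 := hexp0 _ (m0 a₀ ha₀m)
      have ea1 := hexp0 _ (m0 a₁ ha₁m)
      have eb0 := hexp1 _ (m1 b₀ hb₀m)
      have eb1 := hexp1 _ (m1 b₁ hb₁m)
      set p00 := f ((h : Matrix _ _ F) *ᵥ a₀) b₀
      set p10 := f ((h : Matrix _ _ F) *ᵥ a₀) b₁
      set p01 := f ((h : Matrix _ _ F) *ᵥ a₁) b₀
      set p11 := f ((h : Matrix _ _ F) *ᵥ a₁) b₁
      set r00 := f ((h : Matrix _ _ F) *ᵥ b₀) a₀
      set r10 := f ((h : Matrix _ _ F) *ᵥ b₀) a₁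
      set r01 := f ((h : Matrix _ _ F) *ᵥ b₁) a₀
      set r11 := f ((h : Matrix _ _ F) *ᵥ b₁) a₁
      have hform : ∀ c₀ c₁ d₀ d₁ : F, f (c₀ • a₀ + c₁ • a₁) (d₀ • b₀ + d₁ • b₁) = c₀ * σ d₀ + c₁ * σ d₁ := by
        intro c₀ c₁ d₀ d₁
        simp only [hf.add_left, hf.smul_left, UForm.add_right hf, UForm.smul_right hf, a0b0, a0b1, a1b0, a1b1]
        ring
      have e00 : p00 * σ r00 + p10 * σ r10 = 1 := by
        rw [← hform, ← ea0, ← eb0, hiso, a0b0]
      have e01 : p00 * σ r01 + p10 * σ r11 = 0 := by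
        rw [← hform, ← ea0, ← eb1, hiso, a0b1]
      have e10 : p01 * σ r00 + p11 * σ r10 = 0 := by
        rw [← hform, ← ea1, ← eb0, hiso, a1b0]
      have e11 : p01 * σ r01 + p11 * σ r11 = 1 := by
        rw [← hform, ← ea1, ← eb1, hiso, a1b1]
      have hPR : (p00 * p11 - p01 * p10) * σ (r00 * r11 - r01 * r10) = 1 := by
        rw [map_sub, map_mul, map_mul]
        linear_combination (p01 * σ r01 + p11 * σ r11) * e00 + e11 - (p01 * σ r00 + p11 * σ r10) * e01
      have hdetC : (p00 * p11 - p01 * p10) * (r00 * r11 - r01 * r10) = 1 := by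
        let C : Matrix (Fin 4) (Fin 4) F := !![p00, p01, 0, 0; p10, p11, 0, 0; 0, 0, r00, r01; 0, 0, r10, r11]
        have h1 := det_eq hf hdual (h : Matrix _ _ F) C (by
          intro j
          fin_cases j
          · simpa [Fin.sum_univ_four, u, C] using ea0
          · simpa [Fin.sum_univ_four, u, C] using ea1
          · simpa [Fin.sum_univ_four, u, C] using eb0
          · simpa [Fin.sum_univ_four, u, C] using eb1)
        rw [hdet] at h1
        have h2 : C.det = (p00 * p11 - p01 * p10) * (r00 * r11 - r01 * r10) := by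
          simp [C, Matrix.det_succ_row_zero, Fin.sum_univ_succ, Fin.succAbove]
          ring
        rw [← h2, ← h1]
      obtain ⟨h1, h2, h3⟩ := hfin _ _ hPR hdetC
      refine ⟨Units.mk0 _ h3, fun x y => ?_⟩
      simp only [ω, Units.val_mk0]
      rw [hwedge, hwedge, wedge_comb hf eb0 eb1, wedge_comb hf ea0 ea1, h1, h2]
      ring
    · -- swap
      have m0 : ∀ x ∈ D 0, (h : Matrix _ _ F) *ᵥ x ∈ D 1 := fun x hx => by
        have := hτ 0 x hx
        rwa [ht0] at this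
      have m1 : ∀ x ∈ D 1, (h : Matrix _ _ F) *ᵥ x ∈ D 0 := fun x hx => by
        have := hτ 1 x hx
        rwa [ht1] at this
      have ea0 := hexp1 _ (m0 a₀ ha₀m)
      have ea1 := hexp1 _ (m0 a₁ ha₁m)
      have eb0 := hexp0 _ (m1 b₀ hb₀m)
      have eb1 := hexp0 _ (m1 b₁ hb₁m)
      set r00 := f ((h : Matrix _ _ F) *ᵥ a₀) a₀
      set r10 := f ((h : Matrix _ _ F) *ᵥ a₀) a₁
      set r01 := f ((h : Matrix _ _ F) *ᵥ a₁) a₀
      set r11 := f ((h : Matrix _ _ F) *ᵥ a₁) a₁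
      set p00 := f ((h : Matrix _ _ F) *ᵥ b₀) b₀
      set p10 := f ((h : Matrix _ _ F) *ᵥ b₀) b₁
      set p01 := f ((h : Matrix _ _ F) *ᵥ b₁) b₀
      set p11 := f ((h : Matrix _ _ F) *ᵥ b₁) b₁
      have hform : ∀ c₀ c₁ d₀ d₁ : F, f (c₀ • a₀ + c₁ • a₁) (d₀ • b₀ + d₁ • b₁) = c₀ * σ d₀ + c₁ * σ d₁ := by
        intro c₀ c₁ d₀ d₁
        simp only [hf.add_left, hf.smul_left, UForm.add_right hf, UForm.smul_right hf, a0b0, a0b1, a1b0, a1b1]
        ring
      have e00 : p00 * σ r00 + p10 * σ r10 = 1 := by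
        rw [← hform, ← ea0, ← eb0, hiso, b0a0]
      have e01 : p00 * σ r01 + p10 * σ r11 = 0 := by
        rw [← hform, ← ea1, ← eb0, hiso, b0a1]
      have e10 : p01 * σ r00 + p11 * σ r10 = 0 := by
        rw [← hform, ← ea0, ← eb1, hiso, b1a0]
      have e11 : p01 * σ r01 + p11 * σ r11 = 1 := by
        rw [← hform, ← ea1, ← eb1, hiso, b1a1]
      have hPR : (p00 * p11 - p01 * p10) * σ (r00 * r11 - r01 * r10) = 1 := by
        rw [map_sub, map_mul, map_mul]
        linear_combination (p01 * σ r01 + p11 * σ r11) * e00 + e11 - (p01 * σ r00 + p11 * σ r10) * e01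
      have hdetC : (p00 * p11 - p01 * p10) * (r00 * r11 - r01 * r10) = 1 := by
        let C : Matrix (Fin 4) (Fin 4) F := !![0, 0, p00, p01; 0, 0, p10, p11; r00, r01, 0, 0; r10, r11, 0, 0]
        have h1 := det_eq hf hdual (h : Matrix _ _ F) C (by
          intro j
          fin_cases j
          · simpa [Fin.sum_univ_four, u, C] using ea0
          · simpa [Fin.sum_univ_four, u, C] using ea1
          · simpa [Fin.sum_univ_four, u, C] using eb0
          · simpa [Fin.sum_univ_four, u, C] using eb1)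
        rw [hdet] at h1
        have h2 : C.det = (p00 * p11 - p01 * p10) * (r00 * r11 - r01 * r10) := by
          simp [C, Matrix.det_succ_row_zero, Fin.sum_univ_succ, Fin.succAbove]
          ring
        rw [← h2, ← h1]
      obtain ⟨h1, h2, h3⟩ := hfin _ _ hPR hdetC
      refine ⟨Units.mk0 _ h3, fun x y => ?_⟩
      simp only [ω, Units.val_mk0]
      rw [hwedge, hwedge, wedge_comb hf eb0 eb1, wedge_comb hf ea0 ea1, h1, h2]
      ring
  -- the two transvections
  set v : Fin 4 → F := a₀ + μ • b₁ with hv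
  have hvv : f v v = 0 := by
    rw [hv]
    simp only [hf.add_left, hf.smul_left, UForm.add_right hf, UForm.smul_right hf, a0b1, b1a0,
      haa _ ha₀m _ ha₀m, hbb _ hb₁m _ hb₁m]
    ring
  have hωv : ∀ x, ω x v = μ * f x v := by
    intro x
    have hf1 : f x v = f x a₀ + σ μ * f x b₁ := by
      rw [hv, UForm.add_right hf, UForm.smul_right hf]
    have e1 : f v b₀ = 1 := by
      rw [hv, hf.add_left, hf.smul_left, a0b0, hbb _ hb₁m _ hb₀m]; ring
    have e2 : f v b₁ = 0 := by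
      rw [hv, hf.add_left, hf.smul_left, a0b1, hbb _ hb₁m _ hb₁m]; ring
    have e3 : f v a₀ = 0 := by
      rw [hv, hf.add_left, hf.smul_left, haa _ ha₀m _ ha₀m, b1a0]; ring
    have e4 : f v a₁ = μ := by
      rw [hv, hf.add_left, hf.smul_left, haa _ ha₀m _ ha₁m, b1a1]; ring
    simp only [ω, wedge, e1, e2, e3, e4]
    rw [hf1]
    linear_combination (-(f x b₁)) * hμ
  have hωa : ∀ x y, ω x y = - ω y x := by
    intro x y
    simp only [ω, wedge]
    ring
  have hωal : ∀ x y z, ω (x + y) z = ω x z + ω y z := by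
    intro x y z
    simp only [ω, wedge, hf.add_left]
    ring
  have hωsl : ∀ (c : F) x z, ω (c • x) z = c * ω x z := by
    intro c x z
    simp only [ω, wedge, hf.smul_left]
    ring
  have hωar : ∀ x y z, ω x (y + z) = ω x y + ω x z := by
    intro x y z
    simp only [ω, wedge, hf.add_left]
    ring
  have hωsr : ∀ (c : F) x z, ω x (c • z) = c * ω x z := by
    intro c x z
    simp only [ω, wedge, hf.smul_left]
    ring
  have hωself : ∀ x, ω x x = 0 := by
    intro x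
    simp only [ω, wedge]
    ring
  have hLt : decompositionStabilizer D ⊓ I < similarityGroup ω ⊓ I := by
    refine lt_of_le_of_ne hK ?_
    intro he
    have ht : uT hf v l hvv ∈ similarityGroup ω ⊓ I := by
      refine ⟨⟨1, fun x y => ?_⟩, uT_mem_I hf hI v l hvv hl⟩
      rw [uT_mulVec, uT_mulVec, smul_smul, smul_smul]
      simp only [hωal, hωar, hωsl, hωsr, hωself, hωv, Units.val_one]
      rw [hωa v y, hωv]
      ring
    rw [← he] at ht
    obtain ⟨τ, hτ⟩ := mem_stab ht.1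
    have h1 := hτ 0 a₁ ha₁m
    rw [uT_mulVec] at h1
    set y : Fin 4 → F := a₁ + f a₁ v • l • v with hy
    have hfa : f a₁ v = σ μ := by
      rw [hv, UForm.add_right hf, UForm.smul_right hf, haa _ ha₁m _ ha₀m, a1b1]
      ring
    have e1 : f y a₁ = l * σ μ * μ := by
      rw [hy, hf.add_left, hf.smul_left, hf.smul_left, haa _ ha₁m _ ha₁m, hfa, hv, hf.add_left, hf.smul_left,
        haa _ ha₀m _ ha₁m, b1a1]
      ring
    have e2 : f y b₁ = 1 := by
      rw [hy, hf.add_left, hf.smul_left, hf.smul_left, a1b1, hfa, hv, hf.add_left, hf.smul_left,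
        a0b1, hbb _ hb₁m _ hb₁m]
      ring
    have hμ0 : μ ≠ 0 := by
      rintro rfl
      simp at hμ
    have hσμ : σ μ ≠ 0 := by
      intro h
      rw [h, mul_zero] at hμ
      exact one_ne_zero (by linear_combination hμ : (1 : F) = 0)
    generalize τ 0 = t at h1
    fin_cases t
    · have := haa y h1 a₁ ha₁m
      rw [e1] at this
      exact mul_ne_zero (mul_ne_zero hl0 hσμ) hμ0 this
    · have := hbb y h1 b₁ hb₁m
      rw [e2] at this
      exact one_ne_zero this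
  have hLt2 : similarityGroup ω ⊓ I < I := by
    refine lt_of_le_of_ne inf_le_right ?_
    intro he
    have haa0 : f a₀ a₀ = 0 := haa _ ha₀m _ ha₀m
    have ht : uT hf a₀ l haa0 ∈ similarityGroup ω ⊓ I := by
      rw [he]
      exact uT_mem_I hf hI a₀ l haa0 hl
    obtain ⟨⟨κ, hκ⟩, -⟩ := ht
    have h1 := hκ b₀ a₁
    rw [uT_mulVec, uT_mulVec, haa _ ha₁m _ ha₀m, b0a0] at h1
    simp only [zero_smul, add_zero, one_smul, one_mul] at h1
    rw [hωal, hωsl] at h1
    have e1 : ω a₀ a₁ = 1 := by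
      simp only [ω, wedge, a0b0, a0b1, a1b0, a1b1, haa _ ha₀m _ ha₀m, haa _ ha₀m _ ha₁m, haa _ ha₁m _ ha₀m, haa _ ha₁m _ ha₁m]
      ring
    have e2 : ω b₀ a₁ = 0 := by
      simp only [ω, wedge, a0b0, a0b1, a1b0, a1b1, b0a0, b0a1, haa _ ha₁m _ ha₀m, haa _ ha₁m _ ha₁m, hbb _ hb₀m _ hb₀m, hbb _ hb₀m _ hb₁m]
      ring
    rw [e1, e2] at h1
    apply hl0
    linear_combination h1
  exact ⟨_, hLt, hLt2⟩

end Cfsg.Agent.Lib.CmaxX.U4Pair
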