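/-
`SU₄(q)`: the exclusions.
-/
import Cfsg.Agent.Lib.CmaxX.U4Pair
import Cfsg.Agent.Lib.CmaxX.U4Frame
import Cfsg.Agent.Lib.CmaxX.SU2b

set_option autoImplicit false
set_option linter.unusedSectionVars false
set_option linter.unusedVariables false

namespace Cfsg.Agent.Lib.CmaxX.U4

open Matrix Module Cfsg Cfsg.Geo Cfsg.Agent.Lib.Geo.Basic Cfsg.Agent.Lib.Geo.UnitaryInSL Cfsg.Agent.Lib.Geo.SUGen
open scoped MatrixGroups

variable {F : Type*} [Field F] [Fintype F]

theorem mem_SU4 {q : ℕ} (hF : Fintype.card F = q ^ 2) (g : GL (Fin 4) F) :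
    g ∈ GU 4 F q ⊓ specialLinear (Fin 4) F ↔ IsIso (hermForm 4 F q) g ∧ (g : Matrix (Fin 4) (Fin 4) F).det = 1 := by
  rw [Subgroup.mem_inf, mem_GU_iff, mem_specialLinear_iff]
  rfl

theorem pair_q23 {q : ℕ} (hF : Fintype.card F = q ^ 2) (hq : q = 2 ∨ q = 3) {D : Fin 2 → Submodule F (Fin 4 → F)}
    (hD : IsMDecomposition 2 D) (hDs : ∀ i, IsTotallySingularFor (hermForm 4 F q) (D i)) :
    ∃ K : Subgroup (GL (Fin 4) F), decompositionStabilizer D ⊓ (GU 4 F q ⊓ specialLinear (Fin 4) F) < K ∧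
      K < GU 4 F q ⊓ specialLinear (Fin 4) F := by
  have hf := hermForm_isUnitary 4 hF
  refine Cfsg.Agent.Lib.CmaxX.U4Pair.not_maximal hf (mem_SU4 hF) ?_ ?_ ?_ hD hDs
  · intro B hB h1
    rw [frobEquiv_apply] at h1
    rcases hq with rfl | rfl
    · have : B * (B - 1) = 0 := by linear_combination h1
      have h2 : B = 1 := by
        have := (mul_eq_zero.1 this).resolve_left hB
        linear_combination this
      rw [h2, one_mul]
    · have : B * (B * B - 1) = 0 := by linear_combination h1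
      have h2 := (mul_eq_zero.1 this).resolve_left hB
      linear_combination h2
  · have hn1 : (-1 : F) ^ q = -1 := by
      rcases hq with rfl | rfl
      · have h2 : (2 : F) = 0 := Cfsg.Agent.Lib.NotMax.SU2.two_zero (by rw [hF]; norm_num)
        linear_combination h2
      · ring
    obtain ⟨μ, hμ⟩ := Cfsg.Agent.Lib.Elusive.HermEigen.exists_norm_eq hF (-1 : F) hn1 (neg_ne_zero.2 one_ne_zero)
    refine ⟨μ, ?_⟩
    rw [frobEquiv_apply, ← hμ]
    ring
  · exact exists_trace_zero _ hf.ne_refl hf.involutive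

theorem frame_q3 (hF : Fintype.card F = 3 ^ 2) {D : Fin 4 → Submodule F (Fin 4 → F)}
    (hD : IsNondegenerateMDecomposition (hermForm 4 F 3) 1 D) :
    ∃ K : Subgroup (GL (Fin 4) F), decompositionStabilizer D ⊓ (GU 4 F 3 ⊓ specialLinear (Fin 4) F) < K ∧
      K < GU 4 F 3 ⊓ specialLinear (Fin 4) F :=
  Cfsg.Agent.Lib.CmaxX.U4Frame.frame_not_maximal hF (fun x => frobEquiv_apply hF x) (hermForm_isUnitary 4 hF)
    (mem_SU4 hF) hD

end Cfsg.Agent.Lib.CmaxX.U4
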