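/-
Explicit data in `SU₅(2)`: the group `L₂(11)` in a self-dual normal basis.
-/
import Cfsg.Agent.Lib.PrimeGraph.G24Field

set_option autoImplicit false
set_option maxRecDepth 100000

namespace Cfsg.Agent.Lib.CmaxX.U5Data

open Cfsg.Agent.Lib.PrimeGraph.G24Field Cfsg.Agent.Lib.PrimeGraph.G24Field.K4 Matrix

/-- An element of order `11`. -/
def x₀ : Matrix (Fin 5) (Fin 5) K4 := !![e, v, v, e, e; v, o, o, w, e; v, o, e, o, e; e, w, o, o, w; e, e, e, w, v]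
/-- The cyclic shift. -/
def y₀ : Matrix (Fin 5) (Fin 5) K4 := !![o, o, o, o, e; e, o, o, o, o; o, e, o, o, o; o, o, e, o, o; o, o, o, e, o]
/-- An involution of `L₂(11)`. -/
def z₀ : Matrix (Fin 5) (Fin 5) K4 := !![e, o, o, o, o; o, o, o, o, e; o, o, o, e, o; o, o, e, o, o; o, e, o, o, o]
/-- A transposition. -/
def t₀ : Matrix (Fin 5) (Fin 5) K4 := !![o, e, o, o, o; e, o, o, o, o; o, o, e, o, o; o, o, o, e, o; o, o, o, o, e]
/-- An orbit of `L₂(11)` on vectors. -/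
def L₀ : List (Fin 5 → K4) := [![o, o, e, e, e], ![o, e, o, w, v], ![o, e, o, v, w], ![o, e, e, e, o], ![o, w, o, v, v], ![o, w, w, o, v], ![o, w, v, o, e], ![o, v, o, w, w], ![o, v, w, o, e], ![o, v, v, o, w], ![e, o, o, e, e], ![e, o, w, v, o], ![e, o, v, w, o], ![e, e, o, o, e], ![e, e, e, o, o], ![e, e, w, v, w], ![e, e, v, w, v], ![e, w, e, w, w], ![e, w, w, e, w], ![e, w, w, v, v], ![e, w, v, w, e], ![e, v, e, v, v], ![e, v, w, v, e], ![e, v, v, e, v], ![e, v, v, w, w], ![w, o, e, o, v], ![w, o, v, o, w], ![w, o, v, v, o], ![w, e, e, w, v], ![w, e, w, e, w], ![w, e, w, w, e], ![w, e, v, v, w], ![w, w, o, v, o], ![w, w, e, w, e], ![w, w, e, v, v], ![w, w, v, v, e], ![w, v, o, e, o], ![w, v, e, e, v], ![w, v, w, e, e], ![w, v, v, e, w], ![v, o, e, o, w], ![v, o, w, o, v], ![v, o, w, w, o], ![v, e, e, v, w], ![v, e, w, w, v], ![v, e, v, e, v], ![v, e, v, v, e], ![v, w, o, e,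 o], ![v, w, e, e, w], ![v, w, w, e, v], ![v, w, v, e, e], ![v, v, o, w, o], ![v, v, e, w, w], ![v, v, e, v, e], ![v, v, w, w, e]]
/-- A vector of the orbit moved out of the cone. -/
def u₀ : Fin 5 → K4 := ![o, e, o, w, v]

theorem x_closed : ∀ u ∈ L₀, x₀ *ᵥ u ∈ L₀ := by decide +kernel
theorem y_closed : ∀ u ∈ L₀, y₀ *ᵥ u ∈ L₀ := by decide +kernel
theorem z_closed : ∀ u ∈ L₀, z₀ *ᵥ u ∈ L₀ := by decide +kernel

/-- All-ones. -/
def w₀ : Fin 5 → K4 := ![e, e, e, e, e]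

/-- The matrix of the cyclic vectors. -/
def B₀ : Matrix (Fin 5) (Fin 5) K4 := fun i j => ((x₀ ^ (j : ℕ)) *ᵥ w₀) i

theorem x_order : x₀ ^ 11 = 1 := by decide +kernel
theorem x_ne : x₀ ≠ 1 := by decide +kernel
theorem y_order : y₀ ^ 5 = 1 := by decide +kernel
theorem z_order : z₀ ^ 2 = 1 := by decide +kernel
theorem t_order : t₀ ^ 2 = 1 := by decide +kernel
theorem x_uni : ∀ j k, ∑ i, x₀ i j * (x₀ i k) ^ 2 = if j = k then 1 else 0 := by decide +kernel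
theorem y_uni : ∀ j k, ∑ i, y₀ i j * (y₀ i k) ^ 2 = if j = k then 1 else 0 := by decide +kernel
theorem z_uni : ∀ j k, ∑ i, z₀ i j * (z₀ i k) ^ 2 = if j = k then 1 else 0 := by decide +kernel
theorem t_uni : ∀ j k, ∑ i, t₀ i j * (t₀ i k) ^ 2 = if j = k then 1 else 0 := by decide +kernel
theorem yx : y₀ * x₀ = x₀ ^ 4 * y₀ := by decide +kernel
theorem trace_x : ∀ i : Fin 11, Matrix.trace (x₀ ^ (i : ℕ)) = Matrix.trace x₀ → (i : ℕ) = 1 ∨ (i : ℕ) = 3 ∨ (i : ℕ) = 4 ∨ (i : ℕ) = 5 ∨ (i : ℕ) = 9 := by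
  decide +kernel
theorem zx : ∀ j : Fin 11, z₀ * x₀ ≠ x₀ ^ (j : ℕ) * z₀ := by decide +kernel
theorem t_out : ∀ c : K4, ∀ u ∈ L₀, t₀ *ᵥ u₀ ≠ c • u := by decide +kernel
theorem u_mem : u₀ ∈ L₀ := by decide +kernel
theorem B_det : B₀.det ≠ 0 := by decide +kernel

end Cfsg.Agent.Lib.CmaxX.U5Data
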