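/-
Explicit normaliser computation for the element of order `11` in `SU₅(2)`.
-/
import Cfsg.Agent.Lib.CmaxX.U5Data

set_option autoImplicit false
set_option maxRecDepth 100000

namespace Cfsg.Agent.Lib.CmaxX.U5Norm

open Cfsg.Agent.Lib.PrimeGraph.G24Field Cfsg.Agent.Lib.PrimeGraph.G24Field.K4 Cfsg.Agent.Lib.CmaxX.U5Data Matrix

/-- The hermitian form over `K4`. -/
def hK (u v : Fin 5 → K4) : K4 := ∑ i, u i * (v i) ^ 2

/-- A `5 × 5` matrix with fast projections. -/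
structure M5 where
  (a0 a1 a2 a3 a4 b0 b1 b2 b3 b4 c0 c1 c2 c3 c4 d0 d1 d2 d3 d4 f0 f1 f2 f3 f4 : K4)

/-- The associated matrix. -/
def M5.toM (A : M5) : Matrix (Fin 5) (Fin 5) K4 :=
  !![A.a0, A.a1, A.a2, A.a3, A.a4; A.b0, A.b1, A.b2, A.b3, A.b4; A.c0, A.c1, A.c2, A.c3, A.c4;
     A.d0, A.d1, A.d2, A.d3, A.d4; A.f0, A.f1, A.f2, A.f3, A.f4]

/-- The powers of `x₀`. -/
def P' : ℕ → M5
  | 0 => ⟨e, o, o, o, o, o, e, o, o, o, o, o, e, o, o, o, o, o, e, o, o, o, o, o, e⟩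
  | 1 => ⟨e, v, v, e, e, v, o, o, w, e, v, o, e, o, e, e, w, o, o, w, e, e, e, w, v⟩
  | 2 => ⟨e, o, e, w, o, o, o, v, e, v, e, v, w, e, e, w, e, e, e, w, o, v, e, w, o⟩
  | 3 => ⟨o, o, w, e, v, o, e, o, e, v, w, o, o, w, e, e, e, w, v, e, v, v, e, e, e⟩
  | 4 => ⟨v, e, e, e, w, e, e, v, v, e, e, v, o, o, w, e, v, o, e, o, w, e, w, o, o⟩
  | 5 => ⟨o, w, e, w, o, w, v, e, e, e, e, e, e, v, v, w, e, v, o, o, o, e, v, o, e⟩
  | 6 => ⟨o, v, e, v, o, v, w, e, e, e, e, e, e, w, w, v, e, w, o, o, o, e, w, o, e⟩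
  | 7 => ⟨w, e, e, e, v, e, e, w, w, e, e, w, o, o, v, e, w, o, e, o, v, e, v, o, o⟩
  | 8 => ⟨o, o, v, e, w, o, e, o, e, w, v, o, o, v, e, e, e, v, w, e, w, w, e, e, e⟩
  | 9 => ⟨e, o, e, v, o, o, o, w, e, w, e, w, v, e, e, v, e, e, e, v, o, w, e, v, o⟩
  | _ => ⟨e, w, w, e, e, w, o, o, v, e, w, o, e, o, e, e, v, o, o, v, e, e, e, v, w⟩

/-- The values of the form on the orbit of `w₀`. -/
def g' : ℕ → K4
  | 0 => e
  | 1 => v
  | 2 => w
  | 3 => v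
  | 4 => v
  | 5 => v
  | 6 => w
  | 7 => w
  | 8 => w
  | 9 => v
  | _ => w

/-- The powers of `x₀`, as matrices. -/
def P (n : Fin 11) : Matrix (Fin 5) (Fin 5) K4 := (P' n).toM

/-- The inverse of `B₀`. -/
def Binv : Matrix (Fin 5) (Fin 5) K4 := !![w, o, w, v, w; v, v, o, w, w; o, w, e, v, o; o, w, v, w, v; w, w, e, e, o]

theorem P_eq : ∀ j : Fin 11, P j = x₀ ^ (j : ℕ) := by decide +kernel
theorem B_mul : B₀ * Binv = 1 := by decide +kernel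
theorem g_eq : ∀ n : Fin 11, hK (P n *ᵥ w₀) w₀ = g' n := by decide +kernel

/-- The matrix of an element normalising `⟨x₀⟩`, determined by the image of `w₀`. -/
def Bm (i : Fin 11) (t : Fin 5 → K4) : Matrix (Fin 5) (Fin 5) K4 :=
  fun r j => (P (i * Fin.castLE (by norm_num) j) *ᵥ t) r

/-- The images of `w₀` under powers of `x₀`. -/
def Q : Fin 11 → Fin 5 → K4 := ![![e, e, e, e, e], ![e, o, v, e, o], ![w, e, o, e, o], ![o, v, e, o, e], ![o, e, o, v, e], ![e, o, e, o, v], ![e, o, e, o, w], ![o, e, o, w, e], ![o, w, e, o, e], ![v, e, o, e, o], ![e, o, w, e, o]]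

theorem Q_eq : ∀ j : Fin 11, Q j = P j *ᵥ w₀ := by decide +kernel

/-- Powers of four modulo eleven. -/
def I : Fin 5 → Fin 11 := ![1, 4, 5, 9, 3]

/-- A fast scalar product. -/
def dot5 (x0 x1 x2 x3 x4 p q r s t : K4) : K4 :=
  K4.add (K4.mul x0 p) (K4.add (K4.mul x1 q) (K4.add (K4.mul x2 r) (K4.add (K4.mul x3 s) (K4.mul x4 t))))

/-- A fast form. -/
def fastH (A : M5) (p q r s t : K4) : K4 :=
  dot5 (dot5 A.a0 A.a1 A.a2 A.a3 A.a4 p q r s t) (dot5 A.b0 A.b1 A.b2 A.b3 A.b4 p q r s t)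
    (dot5 A.c0 A.c1 A.c2 A.c3 A.c4 p q r s t) (dot5 A.d0 A.d1 A.d2 A.d3 A.d4 p q r s t)
    (dot5 A.f0 A.f1 A.f2 A.f3 A.f4 p q r s t) (K4.mul p p) (K4.mul q q) (K4.mul r r) (K4.mul s s) (K4.mul t t)

theorem fastH_eq (A : M5) (p q r s t : K4) :
    hK (A.toM *ᵥ ![p, q, r, s, t]) ![p, q, r, s, t] = fastH A p q r s t := by
  have hadd : ∀ x y : K4, K4.add x y = x + y := fun _ _ => rfl
  have hmul : ∀ x y : K4, K4.mul x y = x * y := fun _ _ => rfl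
  simp only [fastH, dot5, hadd, hmul, hK, M5.toM, Matrix.mulVec, dotProduct, Fin.sum_univ_five]
  simp [pow_two]
  ring

/-- Equality test. -/
def eqb (x y : K4) : Bool := decide (x = y)

/-- The fast test. -/
def fastCond (i : Fin 11) (p q r s t : K4) : Bool :=
  [0, 1, 2, 3, 4, 5, 6, 7, 8, 9, 10].all fun n => eqb (fastH (P' ((i.val * n) % 11)) p q r s t) (g' n)

theorem classify_fast : ∀ i : Fin 11, ∀ p q r s t : K4, fastCond i p q r s t = true →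
    (∃ m : Fin 5, i = I m) ∧ ∃ j : Fin 11, ∃ c' : K4, ![p, q, r, s, t] = c' • Q j := by
  decide +kernel

theorem classify (i : Fin 11) (t : Fin 5 → K4)
    (h : ∀ n : Fin 11, hK (P (i * n) *ᵥ t) t = hK (P n *ᵥ w₀) w₀) :
    (∃ m : Fin 5, i = I m) ∧ ∃ j : Fin 11, ∃ c' : K4, t = c' • Q j := by
  have h1 : ![t 0, t 1, t 2, t 3, t 4] = t := by
    ext j
    fin_cases j <;> rfl
  have h2 := classify_fast i (t 0) (t 1) (t 2) (t 3) (t 4) (by
    rw [fastCond, List.all_eq_true]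
    intro n hn
    have hn' : n < 11 := by
      simp only [List.mem_cons, List.not_mem_nil, or_false] at hn
      omega
    have h3 := h ⟨n, hn'⟩
    rw [g_eq] at h3
    have h4 : P (i * ⟨n, hn'⟩) = (P' ((i.val * n) % 11)).toM := by
      simp [P, Fin.val_mul]
    rw [h4, ← h1, fastH_eq] at h3
    simp only [eqb, decide_eq_true_eq]
    exact h3)
  rw [h1] at h2
  exact h2

theorem hY : ∀ m : Fin 5, y₀ ^ (m : ℕ) * x₀ = x₀ ^ (I m : ℕ) * y₀ ^ (m : ℕ) := by decide +kernel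
theorem yw : y₀ *ᵥ w₀ = w₀ := by decide +kernel

end Cfsg.Agent.Lib.CmaxX.U5Norm
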