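/-
`SU₅(2)`: the normaliser of a field of degree five is not maximal, it lies in `L₂(11)`.
-/
import Cfsg.Agent.Lib.CmaxX.U5Data
import Cfsg.Agent.Lib.CmaxX.U5Norm
import Cfsg.Agent.Lib.CmaxX.U5Field

set_option autoImplicit false
set_option linter.unusedSectionVars false
set_option linter.unusedVariables false
set_option linter.style.haveILetI false
set_option maxHeartbeats 2000000

namespace Cfsg.Agent.Lib.CmaxX.U5

open Matrix Module Cfsg Cfsg.Geo Cfsg.Agent.Lib.Geo.Basic Cfsg.Agent.Lib.Geo.UnitaryInSL Cfsg.Agent.Lib.Geo.SUGen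
open Cfsg.Agent.Lib.NotMax.SetStab Cfsg.Agent.Lib.NotMax.SU2 Cfsg.Agent.Lib.CmaxX.U5Field Cfsg.Agent.Lib.CmaxX.U5Data Cfsg.Agent.Lib.CmaxX.U5Norm
open Cfsg.Agent.Lib.PrimeGraph.G24Field
open scoped MatrixGroups

variable {F : Type*} [Field F] [Fintype F]

theorem mem_SU5 {q : ℕ} (hF : Fintype.card F = q ^ 2) (g : GL (Fin 5) F) :
    g ∈ GU 5 F q ⊓ specialLinear (Fin 5) F ↔ IsIso (hermForm 5 F q) g ∧ (g : Matrix (Fin 5) (Fin 5) F).det = 1 := by
  rw [Subgroup.mem_inf, mem_GU_iff, mem_specialLinear_iff]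
  rfl

/-- Unitary matrices in terms of columns. -/
theorem iso_of_uni {n : ℕ} (hF : Fintype.card F = 4) (M : Matrix (Fin n) (Fin n) F)
    (h : ∀ j k, ∑ i, M i j * (M i k) ^ 2 = if j = k then 1 else 0) (u v : Fin n → F) :
    hermForm n F 2 (M *ᵥ u) (M *ᵥ v) = hermForm n F 2 u v := by
  classical
  simp only [hermForm, Matrix.mulVec, dotProduct]
  have h1 : ∀ i, (∑ k, M i k * v k) ^ 2 = ∑ k, (M i k) ^ 2 * (v k) ^ 2 := by
    intro i
    rw [sum_sq hF]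
    exact Finset.sum_congr rfl fun k _ => by ring
  simp only [h1]
  calc ∑ i, (∑ j, M i j * u j) * ∑ k, M i k ^ 2 * v k ^ 2
      = ∑ i, ∑ j, ∑ k, u j * v k ^ 2 * (M i j * M i k ^ 2) := by
        refine Finset.sum_congr rfl fun i _ => ?_
        rw [Finset.sum_mul_sum]
        exact Finset.sum_congr rfl fun j _ => Finset.sum_congr rfl fun k _ => by ring
    _ = ∑ j, ∑ k, u j * v k ^ 2 * ∑ i, M i j * M i k ^ 2 := by
        rw [Finset.sum_comm]
        refine Finset.sum_congr rfl fun j _ => ?_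
        rw [Finset.sum_comm]
        refine Finset.sum_congr rfl fun k _ => ?_
        rw [Finset.mul_sum]
    _ = ∑ j, u j * v j ^ 2 := by
        refine Finset.sum_congr rfl fun j _ => ?_
        rw [Finset.sum_eq_single j]
        · rw [h, if_pos rfl, mul_one]
        · intro k _ hk
          rw [h, if_neg (Ne.symm hk), mul_zero]
        · simp

theorem det_one_of_pow (hF : Fintype.card F = 4) {n : ℕ} (hn : Nat.Coprime n 3) {c : F} (hc : c ^ n = 1) : c = 1 := by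
  have hc0 : c ≠ 0 := by
    rintro rfl
    have h0 : n ≠ 0 := by
      rintro rfl
      simp at hn
    simp [h0] at hc
  have h3 := cube_eq_one hF hc0
  have : orderOf c ∣ Nat.gcd n 3 := Nat.dvd_gcd (orderOf_dvd_of_pow_eq_one hc) (orderOf_dvd_of_pow_eq_one h3)
  rw [hn.gcd_eq_one, Nat.dvd_one, orderOf_eq_one_iff] at this
  exact this

/-! ### The computation over `K4` -/

theorem pow_closed {A : Matrix (Fin 5) (Fin 5) K4} (hA : ∀ u ∈ L₀, A *ᵥ u ∈ L₀) (n : ℕ) :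
    ∀ u ∈ L₀, (A ^ n) *ᵥ u ∈ L₀ := by
  induction n with
  | zero => intro u hu; simpa using hu
  | succ n ih =>
    intro u hu
    rw [pow_succ, ← Matrix.mulVec_mulVec]
    exact ih _ (hA u hu)

theorem bm_of (A : Matrix (Fin 5) (Fin 5) K4) (i : Fin 11) (hc : A * x₀ = x₀ ^ (i : ℕ) * A) :
    (∀ n : Fin 11, A *ᵥ (P n *ᵥ w₀) = P (i * n) *ᵥ (A *ᵥ w₀)) ∧ A = Bm i (A *ᵥ w₀) * Binv := by
  have hpow : ∀ n : ℕ, A * x₀ ^ n = (x₀ ^ (i : ℕ)) ^ n * A := by
    intro n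
    induction n with
    | zero => simp
    | succ n ih => rw [pow_succ, ← mul_assoc, ih, pow_succ, mul_assoc, hc, mul_assoc]
  have hP : ∀ n : Fin 11, A *ᵥ (P n *ᵥ w₀) = P (i * n) *ᵥ (A *ᵥ w₀) := by
    intro n
    rw [P_eq, P_eq, Matrix.mulVec_mulVec, hpow, ← pow_mul, Matrix.mulVec_mulVec, Fin.val_mul]
    congr 2
    exact pow_eq_pow_mod _ x_order
  refine ⟨hP, ?_⟩
  have hB : A * B₀ = Bm i (A *ᵥ w₀) := by
    ext r j
    have h2 := congrFun (hP (Fin.castLE (by norm_num) j)) r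
    rw [P_eq] at h2
    have h3 : (A * B₀) r j = (A *ᵥ (fun s => B₀ s j)) r := rfl
    rw [h3]
    exact h2
  rw [← hB, mul_assoc, B_mul, mul_one]

theorem stab_cone (h : Matrix (Fin 5) (Fin 5) K4) (i : Fin 11) (hc : h * x₀ = x₀ ^ (i : ℕ) * h)
    (huni : ∀ a b, hK (h *ᵥ a) (h *ᵥ b) = hK a b) :
    ∀ u ∈ L₀, ∃ c' : K4, ∃ u' ∈ L₀, h *ᵥ u = c' • u' := by
  obtain ⟨hP, hh⟩ := bm_of h i hc
  obtain ⟨⟨m, hm⟩, j, c', hj⟩ := classify i (h *ᵥ w₀) (fun n => by rw [← hP, huni])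
  subst hm
  have hxy : x₀ ^ (j : ℕ) * x₀ ^ (I m : ℕ) = x₀ ^ (I m : ℕ) * x₀ ^ (j : ℕ) := by
    rw [← pow_add, ← pow_add, add_comm]
  set A := c' • (x₀ ^ (j : ℕ) * y₀ ^ (m : ℕ)) with hAdef
  have hA : A * x₀ = x₀ ^ (I m : ℕ) * A := by
    rw [hAdef, Matrix.smul_mul, Matrix.mul_smul, mul_assoc, hY, ← mul_assoc, hxy, mul_assoc]
  have hyw : ∀ n : ℕ, y₀ ^ n *ᵥ w₀ = w₀ := by
    intro n
    induction n with
    | zero => simp
    | succ n ih => rw [pow_succ, ← Matrix.mulVec_mulVec, yw, ih]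
  have hAw : A *ᵥ w₀ = h *ᵥ w₀ := by
    rw [hj, hAdef, Matrix.smul_mulVec, ← Matrix.mulVec_mulVec, hyw, Q_eq, P_eq]
  have hhA : h = A := by
    rw [hh, ← hAw]
    exact (bm_of A _ hA).2.symm
  intro u hu
  refine ⟨c', _, pow_closed x_closed j _ (pow_closed y_closed m u hu), ?_⟩
  rw [hhA, hAdef, Matrix.smul_mulVec, Matrix.mulVec_mulVec]

/-! ### Transfer along an isomorphism `K4 ≃ F` -/

section transfer

variable (ψ : K4 ≃+* F)

/-- The cone over the orbit. -/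
def cone : Set (Fin 5 → F) := {y | ∃ c : K4, ∃ u ∈ L₀, y = ψ ∘ (c • u)}

theorem map_mulVec' (A : Matrix (Fin 5) (Fin 5) K4) (u : Fin 5 → K4) :
    (A.map ψ) *ᵥ (ψ ∘ u) = ψ ∘ (A *ᵥ u) := by
  ext i
  simp [Matrix.mulVec, dotProduct, map_sum, map_mul]

theorem cone_mulVec (A : Matrix (Fin 5) (Fin 5) K4) (hA : ∀ u ∈ L₀, ∃ c' : K4, ∃ u' ∈ L₀, A *ᵥ u = c' • u') :
    ∀ y ∈ cone ψ, (A.map ψ) *ᵥ y ∈ cone ψ := by
  rintro y ⟨c, u, hu, rfl⟩
  obtain ⟨c', u', hu', h⟩ := hA u hu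
  refine ⟨c * c', u', hu', ?_⟩
  rw [map_mulVec', Matrix.mulVec_smul, h, smul_smul]

theorem map_mul' (A B : Matrix (Fin 5) (Fin 5) K4) : (A * B).map ψ = A.map ψ * B.map ψ :=
  Matrix.map_mul

theorem map_one' : (1 : Matrix (Fin 5) (Fin 5) K4).map ψ = 1 := by
  simp

theorem map_pow' (A : Matrix (Fin 5) (Fin 5) K4) (n : ℕ) : (A ^ n).map ψ = (A.map ψ) ^ n := by
  induction n with
  | zero => simp
  | succ n ih => rw [pow_succ, pow_succ, map_mul', ih]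

theorem map_inj' {A B : Matrix (Fin 5) (Fin 5) K4} (h : A.map ψ = B.map ψ) : A = B := by
  ext i j
  exact ψ.injective (congrFun (congrFun h i) j)

/-- A matrix over `K4` with a given inverse, seen over `F`. -/
def glOf (M N : Matrix (Fin 5) (Fin 5) K4) (h : M * N = 1) : GL (Fin 5) F :=
  ⟨M.map ψ, N.map ψ, by rw [← map_mul', h, map_one'], by rw [← map_mul', mul_eq_one_comm.mp h, map_one']⟩

@[simp] theorem glOf_val (M N : Matrix (Fin 5) (Fin 5) K4) (h : M * N = 1) :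
    ((glOf ψ M N h : GL (Fin 5) F) : Matrix (Fin 5) (Fin 5) F) = M.map ψ := rfl

theorem glOf_mem (hF : Fintype.card F = 4) (M N : Matrix (Fin 5) (Fin 5) K4) (h : M * N = 1)
    (huni : ∀ j k, ∑ i, M i j * (M i k) ^ 2 = if j = k then 1 else 0) {n : ℕ} (hn : Nat.Coprime n 3) (hp : M ^ n = 1) :
    glOf ψ M N h ∈ GU 5 F 2 ⊓ specialLinear (Fin 5) F := by
  rw [mem_SU5 (by rw [hF]; norm_num : Fintype.card F = 2 ^ 2)]
  constructor
  · intro u v
    refine iso_of_uni hF _ ?_ u v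
    intro j k
    have := congrArg ψ (huni j k)
    rw [map_sum] at this
    simp only [map_mul, map_pow, apply_ite ψ, map_one, map_zero] at this
    exact this
  · apply det_one_of_pow hF hn
    have h1 : (M.map ψ).det = ψ M.det := by
      exact (RingHom.map_det (ψ : K4 →+* F) M).symm
    rw [glOf_val, h1, ← map_pow, ← Matrix.det_pow, hp, Matrix.det_one, _root_.map_one]

theorem stab_of_norm (h₀ : Matrix (Fin 5) (Fin 5) F) (i : Fin 11)
    (hc : h₀ * x₀.map ψ = (x₀ ^ (i : ℕ)).map ψ * h₀)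
    (huni : ∀ u v, hermForm 5 F 2 (h₀ *ᵥ u) (h₀ *ᵥ v) = hermForm 5 F 2 u v) :
    ∀ y ∈ cone ψ, h₀ *ᵥ y ∈ cone ψ := by
  have h1 : (h₀.map ψ.symm).map ψ = h₀ := by
    ext i j
    simp
  rw [← h1]
  apply cone_mulVec
  apply stab_cone _ i
  · apply map_inj' ψ
    rw [map_mul', map_mul', h1, hc]
  · intro a b
    apply ψ.injective
    have h2 : ∀ a b : Fin 5 → K4, ψ (hK a b) = hermForm 5 F 2 (ψ ∘ a) (ψ ∘ b) := by
      intro a b
      simp [hK, hermForm, map_sum, map_mul, map_pow]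
    rw [h2, h2, ← map_mulVec', ← map_mulVec', h1, huni]

end transfer

/-! ### The field -/

section field

variable {K : Subalgebra F (Matrix (Fin 5) (Fin 5) F)}

theorem isField_of (hK : IsFieldSubalgebra 5 K) : IsField K where
  exists_pair_ne := exists_pair_ne K
  mul_comm := fun x y => Subtype.ext (hK.comm _ x.2 _ y.2)
  mul_inv_cancel := by
    intro x hx
    obtain ⟨y, hy, hxy⟩ := hK.inv x.1 x.2 (fun h => hx (Subtype.ext h))
    exact ⟨⟨y, hy⟩, Subtype.ext hxy⟩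

theorem root_in_K (hK : IsFieldSubalgebra 5 K) {ζ u : Matrix (Fin 5) (Fin 5) F} (hζ : ζ ∈ K) (hu : u ∈ K)
    (h1 : ζ ^ 11 = 1) (h2 : ζ ≠ 1) (h3 : u ^ 11 = 1) : ∃ i < 11, ζ ^ i = u := by
  letI fld : Field K := (isField_of hK).toField
  have h11 : Nat.Prime 11 := by norm_num
  obtain ⟨i, hi, h⟩ := pow_root (L := K) (ζ := ⟨ζ, hζ⟩) (u := ⟨u, hu⟩) h11 (Subtype.ext h1)
    (fun h => h2 (congrArg Subtype.val h)) (Subtype.ext h3)
  exact ⟨i, hi, congrArg Subtype.val h⟩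

/-- A non-degeneracy consequence: adjoints are unique. -/
theorem adj_unique (hF : Fintype.card F = 4) {k₁ k₂ : Matrix (Fin 5) (Fin 5) F}
    (h : ∀ u v, hermForm 5 F 2 u (k₁ *ᵥ v) = hermForm 5 F 2 u (k₂ *ᵥ v)) : k₁ = k₂ := by
  have hu := hermForm_isUnitary 5 (by rw [hF]; norm_num : Fintype.card F = 2 ^ 2)
  apply Matrix.mulVec_injective
  funext v
  by_contra hne
  have h0 : k₁ *ᵥ v - k₂ *ᵥ v ≠ 0 := sub_ne_zero.2 hne
  obtain ⟨⟨x, hx⟩, -⟩ := hu.nondegenerate _ h0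
  apply hx
  have h1 : k₁ *ᵥ v = (k₁ *ᵥ v - k₂ *ᵥ v) + k₂ *ᵥ v := by abel
  have h2 := h x v
  rw [h1, f_add_right hF] at h2
  have h3 : ∀ a b : F, a + b = b → a = 0 := by
    intro a b hab
    simpa using hab
  exact h3 _ _ h2

theorem exists_x (hF : Fintype.card F = 4) (hK : IsFieldSubalgebra 5 K) (hcl : IsAdjointClosedFor (hermForm 5 F 2) K) :
    ∃ X : GL (Fin 5) F, X ∈ GU 5 F 2 ⊓ specialLinear (Fin 5) F ∧ X ^ 11 = 1 ∧ X ≠ 1 ∧
      ∀ n : ℕ, ((X ^ n : GL (Fin 5) F) : Matrix (Fin 5) (Fin 5) F) ∈ K := by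
  letI fld : Field K := (isField_of hK).toField
  haveI : Finite K := inferInstance
  haveI : FiniteDimensional F K := Module.Finite.of_finite
  letI : Fintype K := Fintype.ofFinite K
  have hcard : Fintype.card K = 1024 := by
    rw [Module.card_eq_pow_finrank (K := F) (V := K), hK.finrank_eq, hF]
    norm_num
  choose adj hadjK hadj using fun k : K => hcl k.1 k.2
  let a : K → K := fun k => ⟨adj k, hadjK k⟩
  have ha_spec : ∀ (k : K) u v, hermForm 5 F 2 (k.1 *ᵥ u) v = hermForm 5 F 2 u ((a k).1 *ᵥ v) := hadj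
  have a_unique : ∀ k k' : K, (∀ u v, hermForm 5 F 2 (k.1 *ᵥ u) v = hermForm 5 F 2 u (k'.1 *ᵥ v)) → a k = k' := by
    intro k k' h
    apply Subtype.ext
    apply adj_unique hF
    intro u v
    rw [← ha_spec, h]
  let aR : K →+* K :=
    { toFun := a
      map_one' := a_unique 1 1 (fun u v => by
        change hermForm 5 F 2 ((1 : Matrix (Fin 5) (Fin 5) F) *ᵥ u) v = hermForm 5 F 2 u ((1 : Matrix (Fin 5) (Fin 5) F) *ᵥ v)
        simp)
      map_mul' := fun x y => a_unique (x * y) (a x * a y) (fun u v => by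
        have h1 : ((x * y : K) : Matrix (Fin 5) (Fin 5) F) = x.1 * y.1 := rfl
        have h2 : ((a x * a y : K) : Matrix (Fin 5) (Fin 5) F) = (a y).1 * (a x).1 := hK.comm _ (a x).2 _ (a y).2
        rw [h1, h2, ← Matrix.mulVec_mulVec, ← Matrix.mulVec_mulVec, ha_spec, ha_spec])
      map_zero' := a_unique 0 0 (fun u v => by
        change hermForm 5 F 2 ((0 : Matrix (Fin 5) (Fin 5) F) *ᵥ u) v = hermForm 5 F 2 u ((0 : Matrix (Fin 5) (Fin 5) F) *ᵥ v)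
        simp [hermForm, Matrix.zero_mulVec])
      map_add' := fun x y => a_unique (x + y) (a x + a y) (fun u v => by
        have h1 : ((x + y : K) : Matrix (Fin 5) (Fin 5) F) = x.1 + y.1 := rfl
        have h2 : ((a x + a y : K) : Matrix (Fin 5) (Fin 5) F) = (a x).1 + (a y).1 := rfl
        rw [h1, h2, Matrix.add_mulVec, Matrix.add_mulVec, f_add_left, f_add_right hF, ha_spec, ha_spec]) }
  have hA : ∀ x, aR x = a x := fun x => rfl
  have haa : ∀ x, aR (aR x) = x := by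
    intro x
    rw [hA, hA]
    apply a_unique
    intro u v
    rw [f_symm hF v, ← ha_spec, ← f_symm hF]
  have hac : ∀ c : F, aR (algebraMap F K c) = algebraMap F K (c ^ 2) := by
    intro c
    rw [hA]
    apply a_unique
    intro u v
    have h1 : ((algebraMap F K c : K) : Matrix (Fin 5) (Fin 5) F) = algebraMap F _ c := rfl
    have h2 : ((algebraMap F K (c ^ 2) : K) : Matrix (Fin 5) (Fin 5) F) = algebraMap F _ (c ^ 2) := rfl
    rw [h1, h2, Algebra.algebraMap_eq_smul_one, Algebra.algebraMap_eq_smul_one, Matrix.smul_mulVec, Matrix.smul_mulVec,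
      Matrix.one_mulVec, Matrix.one_mulVec, f_smul_left, f_smul_right]
    congr 1
    have := pow_four hF c
    rw [← pow_mul]
    exact this.symm
  have h32 : ∀ x : K, aR x = x ^ 32 := adj_eq_pow hF hK.finrank_eq aR haa hac
  -- an element of order 11
  haveI : Fact (Nat.Prime 11) := ⟨by norm_num⟩
  have hdvd : 11 ∣ Nat.card Kˣ := by
    rw [Nat.card_units, Nat.card_eq_fintype_card, hcard]
    norm_num
  obtain ⟨ξ, hξ⟩ := exists_prime_orderOf_dvd_card' 11 hdvd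
  have hξ1 : (ξ : K) ^ 11 = 1 := by
    rw [← Units.val_pow_eq_pow_val, ← hξ, pow_orderOf_eq_one, Units.val_one]
  have hξ2 : (ξ : K) ≠ 1 := by
    intro h
    have : ξ = 1 := Units.ext h
    rw [this, orderOf_one] at hξ
    omega
  set x : K := (ξ : K) with hx
  have hm1 : (x.1) ^ 11 = 1 := by
    have := congrArg Subtype.val hξ1
    exact this
  have hm2 : x.1 ≠ 1 := fun h => hξ2 (Subtype.ext h)
  have hmm : x.1 * x.1 ^ 10 = 1 := by
    rw [← pow_succ']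
    exact hm1
  refine ⟨⟨x.1, x.1 ^ 10, hmm, by rw [← pow_succ]; exact hm1⟩, ?_, ?_, ?_, ?_⟩
  · rw [mem_SU5 (by rw [hF]; norm_num : Fintype.card F = 2 ^ 2)]
    constructor
    · intro u v
      change hermForm 5 F 2 (x.1 *ᵥ u) (x.1 *ᵥ v) = _
      have h1 : (a x).1 = x.1 ^ 32 := by
        have := h32 x
        rw [hA] at this
        rw [this]
        rfl
      rw [ha_spec, h1, Matrix.mulVec_mulVec, ← pow_succ]
      have h2 : x.1 ^ (32 + 1) = (x.1 ^ 11) ^ 3 := by rw [← pow_mul]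
      rw [h2, hm1, one_pow, Matrix.one_mulVec]
    · apply det_one_of_pow hF (by norm_num : Nat.Coprime 11 3)
      change x.1.det ^ 11 = 1
      rw [← Matrix.det_pow, hm1, Matrix.det_one]
  · exact Units.ext hm1
  · intro h
    exact hm2 (congrArg Units.val h)
  · intro n
    rw [Units.val_pow_eq_pow_val]
    exact K.pow_mem x.2 n

end field

theorem conj_norm {G : Type*} [Group G] (g h x : G) (i : ℕ) (H : (g * x * g⁻¹) ^ i = h * (g * x * g⁻¹) * h⁻¹) :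
    (g⁻¹ * h * g) * x = x ^ i * (g⁻¹ * h * g) := by
  rw [conj_pow] at H
  have h1 : x ^ i = (g⁻¹ * h * g) * x * (g⁻¹ * h * g)⁻¹ := by
    calc x ^ i = g⁻¹ * (g * x ^ i * g⁻¹) * g := by group
      _ = g⁻¹ * (h * (g * x * g⁻¹) * h⁻¹) * g := by rw [H]
      _ = _ := by group
  rw [h1]
  group

theorem no_11_sq (hF : Fintype.card F = 4) : ¬ 11 ^ 2 ∣ Nat.card ↥(GU 5 F 2 ⊓ specialLinear (Fin 5) F) := by
  intro h
  have h1 := h.trans (Subgroup.card_subgroup_dvd_card _)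
  rw [Matrix.card_GL_field, hF, Fin.prod_univ_five] at h1
  norm_num at h1

theorem field5 (hF : Fintype.card F = 2 ^ 2) {K : Subalgebra F (Matrix (Fin 5) (Fin 5) F)} (hK : IsFieldSubalgebra 5 K)
    (hcl : IsAdjointClosedFor (hermForm 5 F 2) K) :
    ∃ Y : Subgroup (GL (Fin 5) F), subalgebraNormalizer K ⊓ (GU 5 F 2 ⊓ specialLinear (Fin 5) F) < Y ∧
      Y < GU 5 F 2 ⊓ specialLinear (Fin 5) F := by
  have hF4 : Fintype.card F = 4 := by rw [hF]; norm_num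
  set SU5 := GU 5 F 2 ⊓ specialLinear (Fin 5) F with hSU5
  let ψ : K4 ≃+* F := FiniteField.ringEquivOfCardEq (K4.card_eq.trans hF4.symm)
  have hx10 : x₀ * x₀ ^ 10 = 1 := by rw [← pow_succ']; exact x_order
  have hz2 : z₀ * z₀ = 1 := by rw [← pow_two]; exact z_order
  have ht2 : t₀ * t₀ = 1 := by rw [← pow_two]; exact t_order
  let GX : GL (Fin 5) F := glOf ψ x₀ (x₀ ^ 10) hx10
  let GZ : GL (Fin 5) F := glOf ψ z₀ z₀ hz2
  let GT : GL (Fin 5) F := glOf ψ t₀ t₀ ht2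
  have hGX : GX ∈ SU5 := glOf_mem ψ hF4 _ _ _ x_uni (by norm_num : Nat.Coprime 11 3) x_order
  have hGZ : GZ ∈ SU5 := glOf_mem ψ hF4 _ _ _ z_uni (by norm_num : Nat.Coprime 2 3) z_order
  have hGT : GT ∈ SU5 := glOf_mem ψ hF4 _ _ _ t_uni (by norm_num : Nat.Coprime 2 3) t_order
  have hGXpow : ∀ i : ℕ, ((GX ^ i : GL (Fin 5) F) : Matrix (Fin 5) (Fin 5) F) = (x₀ ^ i).map ψ := by
    intro i
    rw [Units.val_pow_eq_pow_val, glOf_val, map_pow']
  have hGX1 : GX ^ 11 = 1 := Units.ext (by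
    rw [hGXpow, x_order, map_one']
    rfl)
  have hGXne : GX ≠ 1 := fun h => x_ne (map_inj' ψ (by rw [map_one']; exact congrArg Units.val h))
  obtain ⟨X, hXI, hX1, hXne, hXK⟩ := exists_x hF4 hK hcl
  have h11 : Nat.Prime 11 := by norm_num
  haveI : Fact (Nat.Prime 11) := ⟨h11⟩
  obtain ⟨g, hg⟩ := sylow_conj (G := ↥SU5) h11 (no_11_sq hF4) (a := ⟨GX, hGX⟩) (b := ⟨X, hXI⟩)
    (orderOf_eq_prime (Subtype.ext hGX1) (fun h => hGXne (congrArg Subtype.val h)))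
    (orderOf_eq_prime (Subtype.ext hX1) (fun h => hXne (congrArg Subtype.val h)))
  obtain ⟨n, hn⟩ := (mem_powers_iff_mem_zpowers).2 hg
  set g₁ : GL (Fin 5) F := g.1 with hg₁
  have hg₁I : g₁ ∈ SU5 := g.2
  have hy : X ^ n = g₁ * GX * g₁⁻¹ := congrArg Subtype.val hn
  set y : GL (Fin 5) F := g₁ * GX * g₁⁻¹ with hydef
  have hyK : (y : Matrix (Fin 5) (Fin 5) F) ∈ K := by
    rw [← hy]
    exact hXK n
  have hy11 : y ^ 11 = 1 := by
    rw [hydef, conj_pow, hGX1]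
    group
  have hyne : y ≠ 1 := by
    intro h
    apply hGXne
    have h2 : GX = g₁⁻¹ * y * g₁ := by rw [hydef]; group
    rw [h2, h]
    group
  have key : ∀ h : GL (Fin 5) F, h ∈ subalgebraNormalizer K → ∃ i : Fin 11,
      (((g₁⁻¹ * h * g₁ : GL (Fin 5) F)) : Matrix (Fin 5) (Fin 5) F) * x₀.map ψ =
        (x₀ ^ (i : ℕ)).map ψ * (((g₁⁻¹ * h * g₁ : GL (Fin 5) F)) : Matrix (Fin 5) (Fin 5) F) := by
    intro h hh
    have hhy : (h : Matrix (Fin 5) (Fin 5) F) * y * ((h⁻¹ : GL (Fin 5) F) : Matrix (Fin 5) (Fin 5) F) ∈ K := (hh _).1 hyK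
    have hpow : (h * y * h⁻¹) ^ 11 = 1 := by
      rw [conj_pow, hy11]
      group
    obtain ⟨i, hi, hiy⟩ := root_in_K hK hyK hhy (congrArg Units.val hy11) (fun h => hyne (Units.ext h))
      (congrArg Units.val hpow)
    have hGL : y ^ i = h * y * h⁻¹ := Units.ext hiy
    have h3 := conj_norm g₁ h GX i hGL
    refine ⟨⟨i, hi⟩, ?_⟩
    have h4 : ((g₁⁻¹ * h * g₁ : GL (Fin 5) F) : Matrix (Fin 5) (Fin 5) F) * (GX : Matrix (Fin 5) (Fin 5) F) =
        ((GX ^ i : GL (Fin 5) F) : Matrix (Fin 5) (Fin 5) F) * ((g₁⁻¹ * h * g₁ : GL (Fin 5) F) : Matrix (Fin 5) (Fin 5) F) := by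
      rw [← Units.val_mul, ← Units.val_mul, h3]
    rw [hGXpow] at h4
    exact h4
  have hmem₀ : ∀ h : GL (Fin 5) F, h ∈ SU5 → g₁⁻¹ * h * g₁ ∈ SU5 := fun h hh =>
    SU5.mul_mem (SU5.mul_mem (SU5.inv_mem hg₁I) hh) hg₁I
  have hconjmem : ∀ A : GL (Fin 5) F, A ∈ SU5 → g₁ * A * g₁⁻¹ ∈ SU5 := fun A hA =>
    SU5.mul_mem (SU5.mul_mem hg₁I hA) (SU5.inv_mem hg₁I)
  let S : Set (Fin 5 → F) := {v | ((g₁⁻¹ : GL (Fin 5) F) : Matrix (Fin 5) (Fin 5) F) *ᵥ v ∈ cone ψ}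
  have hginv : ∀ (A : GL (Fin 5) F) (x : Fin 5 → F), ((g₁⁻¹ : GL (Fin 5) F) : Matrix (Fin 5) (Fin 5) F) *ᵥ
      (((g₁ * A * g₁⁻¹ : GL (Fin 5) F) : Matrix (Fin 5) (Fin 5) F) *ᵥ x) =
        (A : Matrix (Fin 5) (Fin 5) F) *ᵥ (((g₁⁻¹ : GL (Fin 5) F) : Matrix (Fin 5) (Fin 5) F) *ᵥ x) := by
    intro A x
    rw [Matrix.mulVec_mulVec, Matrix.mulVec_mulVec, ← Units.val_mul, ← Units.val_mul]
    congr 2
    group
  have hcancel : ∀ v : Fin 5 → F, ((g₁⁻¹ : GL (Fin 5) F) : Matrix (Fin 5) (Fin 5) F) *ᵥ ((g₁ : Matrix (Fin 5) (Fin 5) F) *ᵥ v) = v := by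
    intro v
    rw [Matrix.mulVec_mulVec, ← Units.val_mul, inv_mul_cancel, Units.val_one, Matrix.one_mulVec]
  have conj_S : ∀ A : GL (Fin 5) F, (∀ y ∈ cone ψ, (A : Matrix (Fin 5) (Fin 5) F) *ᵥ y ∈ cone ψ) →
      ∀ x ∈ S, ((g₁ * A * g₁⁻¹ : GL (Fin 5) F) : Matrix (Fin 5) (Fin 5) F) *ᵥ x ∈ S := by
    intro A hA x hx
    change _ ∈ cone ψ
    rw [hginv]
    exact hA _ hx
  refine not_maximal_of_set S inf_le_right ?_ (g₁ * GZ * g₁⁻¹) (hconjmem _ hGZ) ?_ ?_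
    (g₁ * GT * g₁⁻¹) (hconjmem _ hGT) ((g₁ : Matrix (Fin 5) (Fin 5) F) *ᵥ (ψ ∘ u₀)) ?_ ?_
  · rintro h ⟨hN, hI⟩ x hx
    obtain ⟨i, hi⟩ := key h hN
    have h₀I := hmem₀ h hI
    have hiso := ((mem_SU5 hF _).1 h₀I).1
    have hstab := stab_of_norm ψ _ i hi hiso
    have h5 : h = g₁ * (g₁⁻¹ * h * g₁) * g₁⁻¹ := by group
    rw [h5]
    exact conj_S _ hstab x hx
  · apply conj_S
    apply cone_mulVec
    intro u hu
    exact ⟨1, _, z_closed u hu, by rw [one_smul]⟩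
  · rintro ⟨hN, -⟩
    obtain ⟨i, hi⟩ := key _ hN
    have h6 : g₁⁻¹ * (g₁ * GZ * g₁⁻¹) * g₁ = GZ := by group
    rw [h6] at hi
    apply zx i
    apply map_inj' ψ
    rw [map_mul', map_mul']
    exact hi
  · change _ ∈ cone ψ
    rw [hcancel]
    exact ⟨1, u₀, u_mem, by rw [one_smul]⟩
  · intro hs
    change _ ∈ cone ψ at hs
    rw [hginv, hcancel] at hs
    obtain ⟨c, u, hu, huc⟩ := hs
    rw [glOf_val, map_mulVec'] at huc
    apply t_out c u hu
    funext i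
    exact ψ.injective (congrFun huc i)

end Cfsg.Agent.Lib.CmaxX.U5
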