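/-
The list of maximal subgroups of `SU_5(q)`, given Aschbacher's theorem for the unitary groups.
-/
import Cfsg.Agent.Lib.CmaxU.Arith
import Cfsg.Agent.Lib.CmaxU.Master
import Cfsg.Agent.Lib.CmaxX.U5

set_option autoImplicit false
set_option linter.unusedVariables false
set_option maxHeartbeats 1000000

namespace Cfsg.Agent.Lib.CmaxX.RowU5

theorem s5796  {F : Type*} [Field F] [Fintype F] (q : ℕ) (hF : Fintype.card F = q ^ 2) (H : Subgroup (Matrix.GeneralLinearGroup (Fin 5) F)) (hH : Cfsg.Geo.IsMaximalIn (Cfsg.GU 5 F q ⊓ Cfsg.Geo.specialLinear (Fin 5) F) H)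
    (hA : (∃ M, Cfsg.Geo.InUnitaryClass 5 F q M ∧ H ≤ M) ∨ Cfsg.Geo.InUnitaryResidualClass H) :
    (∃ W : Submodule F (Fin 5 → F), W ≠ ⊥ ∧ Cfsg.Geo.IsTotallySingularFor (Cfsg.hermForm 5 F q) W ∧ H = Cfsg.Geo.subspaceStabilizer W ⊓ (Cfsg.GU 5 F q ⊓ Cfsg.Geo.specialLinear (Fin 5) F)) ∨
    (∃ W : Submodule F (Fin 5 → F), W ≠ ⊥ ∧ Cfsg.Geo.IsNondegenerateOn (Cfsg.hermForm 5 F q) W ∧ 2 * Module.finrank F W < 5 ∧ H = Cfsg.Geo.subspaceStabilizer W ⊓ (Cfsg.GU 5 F q ⊓ Cfsg.Geo.specialLinear (Fin 5) F)) ∨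
    (∃ D : Fin 5 → Submodule F (Fin 5 → F), Cfsg.Geo.IsNondegenerateMDecomposition (Cfsg.hermForm 5 F q) 1 D ∧ H = Cfsg.Geo.decompositionStabilizer D ⊓ (Cfsg.GU 5 F q ⊓ Cfsg.Geo.specialLinear (Fin 5) F)) ∨
    (3 ≤ q ∧ ∃ K : Subalgebra F (Matrix (Fin 5) (Fin 5) F), Cfsg.Geo.IsFieldSubalgebra 5 K ∧ Cfsg.Geo.IsAdjointClosedFor (Cfsg.hermForm 5 F q) K ∧ H = Cfsg.Geo.subalgebraNormalizer K ⊓ (Cfsg.GU 5 F q ⊓ Cfsg.Geo.specialLinear (Fin 5) F)) ∨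
    (∃ (F₀ : Subfield F) (r : ℕ) (P : Matrix.GeneralLinearGroup (Fin 5) F), r.Prime ∧ Odd r ∧ Fintype.card F = Nat.card F₀ ^ r ∧ Cfsg.Geo.IsFormRationalStructure (Cfsg.hermForm 5 F q) F₀ 1 P ∧ H = Cfsg.Geo.subfieldSubgroup F₀ P ⊓ (Cfsg.GU 5 F q ⊓ Cfsg.Geo.specialLinear (Fin 5) F)) ∨
    (Odd q ∧ ∃ (F₀ : Subfield F) (P : Matrix.GeneralLinearGroup (Fin 5) F), Fintype.card F = Nat.card F₀ ^ 2 ∧ Cfsg.Geo.IsFormRationalStructure (Cfsg.hermForm 5 F q) F₀ 1 P ∧ H = Cfsg.Geo.subfieldSubgroup F₀ P ⊓ (Cfsg.GU 5 F q ⊓ Cfsg.Geo.specialLinear (Fin 5) F)) ∨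
    (∃ (p : ℕ) (R : Subgroup (Matrix.GeneralLinearGroup (Fin 5) F)), p.Prime ∧ CharP F p ∧ ((q = p ∧ p % 5 = 4) ∨ (q = p ^ 2 ∧ (p % 5 = 2 ∨ p % 5 = 3))) ∧ Cfsg.Geo.IsSymplecticTypeGroup 5 R ∧ Cfsg.Geo.ActsAbsolutelyIrreducibly (Cfsg.Geo.matrixSet R) ∧ R ≤ Cfsg.Geo.similarityGroup (Cfsg.hermForm 5 F q) ∧ Nat.card R = 125 ∧ Nat.card (Subgroup.center R) = 5 ∧ H = Cfsg.Geo.subgroupNormalizer R ⊓ (Cfsg.GU 5 F q ⊓ Cfsg.Geo.specialLinear (Fin 5) F)) ∨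
    Cfsg.Geo.InUnitaryResidualClass H := by
  have hq2 : 2 ≤ q := Cfsg.Agent.Lib.HermCount.Field.two_le hF
  have hH' := hH
  rcases Cfsg.Agent.Lib.CmaxU.Master.master hF (by norm_num) (by omega) H hH hA with
    ⟨W, h0, hW, hE⟩ | ⟨W, h0, hW, hlt, hE⟩ | ⟨t, k, D, hD, htk, hk2, hE⟩ | ⟨k, D, hk2, hD, hDs, hE⟩ |
    ⟨F₀, r, P, hr, hro, hc, hrat, hE⟩ | ⟨F₀, P, hodd, hc, hrat, hE⟩ | ⟨F₀, P, ζ, hev, hc, hζ, hζq, hrat, hzero, hE⟩ |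
    ⟨r, R, p, e, k, hR, hRA, hRs, hrp, hmin, hrk, halts, hE⟩ | ⟨r, K, hr, hro, hrn, hK, hcl, hE⟩ |
    ⟨n₁, n₂, e, P, f₁, f₂, hn₁, hn₂, hcn, hq3, hf₁, hf₂, hT, hE⟩ | ⟨k, t, e, P, f₁, hk, ht, hcn, hex, hf₁, hT, hE⟩ | hres
  · exact Or.inl ⟨W, h0, hW, hE⟩
  · exact Or.inr <| Or.inl ⟨W, h0, hW, hlt, hE⟩
  · obtain ⟨rfl, rfl⟩ := Cfsg.Agent.Lib.CmaxL.Arith.tm5 hD.decomp.two_le hD.decomp.pos htk
    exact Or.inr <| Or.inr <| Or.inl ⟨D, hD, hE⟩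
  · omega
  · exact Or.inr <| Or.inr <| Or.inr <| Or.inr <| Or.inl ⟨F₀, r, P, hr, hro, hc, hrat, hE⟩
  · exact Or.inr <| Or.inr <| Or.inr <| Or.inr <| Or.inr <| Or.inl ⟨hodd, F₀, P, hc, hrat, hE⟩
  · exact absurd hev (by decide)
  · obtain ⟨rfl, rfl⟩ := Cfsg.Agent.Lib.CmaxU.Arith.rk_prime (by norm_num) hR.prime hrk
    rcases halts with ⟨hro, hZ, hk1, hcR⟩ | ⟨h2, -⟩
    · rw [hZ] at hmin
      obtain ⟨d, hp, hcp, hqd, hed, hd0, hp0, hlt, hnd, hpw, hmn⟩ := Cfsg.Agent.Lib.CmaxU.Arith.odd_data hF hR.prime hrp hmin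
      rcases Cfsg.Agent.Lib.CmaxU.Arith.arith5 (Nat.mod_lt _ (by norm_num)) hp0 hlt ⟨d, by omega⟩ (by omega) hpw hmn with ⟨he, hx⟩ | ⟨he, hx⟩
      · obtain rfl : d = 1 := by omega
        exact Or.inr <| Or.inr <| Or.inr <| Or.inr <| Or.inr <| Or.inr <| Or.inl ⟨p, R, hp, hcp, Or.inl ⟨by simpa using hqd, hx⟩, hR, hRA, hRs, by rw [hcR]; norm_num, hZ, hE⟩
      · obtain rfl : d = 2 := by omega
        exact Or.inr <| Or.inr <| Or.inr <| Or.inr <| Or.inr <| Or.inr <| Or.inl ⟨p, R, hp, hcp, Or.inr ⟨hqd, hx⟩, hR, hRA, hRs, by rw [hcR]; norm_num, hZ, hE⟩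
    · omega
  · obtain rfl := Cfsg.Agent.Lib.CmaxL.Arith.pr5 hr hrn
    have h3 : 3 ≤ q := by
      by_contra hlt
      have hq : q = 2 := by omega
      subst hq
      exact Cfsg.Agent.Lib.CmaxS.Master.no_between hH' hE (Cfsg.Agent.Lib.CmaxX.U5.field5 hF hK hcl)
    exact Or.inr <| Or.inr <| Or.inr <| Or.inl ⟨h3, K, hK, hcl, hE⟩
  · exact (Cfsg.Agent.Lib.CmaxL.Arith.ten5 hn₁ hn₂ hcn).elim
  · have := Cfsg.Agent.Lib.CmaxL.Arith.pow_lower hk ht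
    omega
  · exact Or.inr <| Or.inr <| Or.inr <| Or.inr <| Or.inr <| Or.inr <| Or.inr <| hres

end Cfsg.Agent.Lib.CmaxX.RowU5
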