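/-
`SU₆(2)`: the normaliser of a field of degree three is not maximal, it lies in `Sp₆(2) × 3`.

The abstract part: a field `L` of degree three over `F`, `|F| = 4`, acting on `F⁶` compatibly with the
unitary form.
-/
import Cfsg.Agent.Lib.CmaxX.Dual
import Cfsg.Agent.Lib.NotMax.SU2
import Cfsg.Agent.Lib.CmaxX.U5Field

set_option autoImplicit false
set_option linter.unusedSectionVars false
set_option linter.unusedVariables false
set_option linter.style.haveILetI false
set_option maxHeartbeats 1000000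

namespace Cfsg.Agent.Lib.CmaxX.U6Field

open Matrix Module Cfsg Cfsg.Geo Cfsg.Agent.Lib.Geo.Basic Cfsg.Agent.Lib.Geo.UnitaryInSL Cfsg.Agent.Lib.Geo.SUGen
open Cfsg.Agent.Lib.NotMax.SetStab Cfsg.Agent.Lib.NotMax.SU2 Cfsg.Agent.Lib.CmaxX.Dual Cfsg.Agent.Lib.CmaxU.Proper
open scoped MatrixGroups

variable {F : Type*} [Field F] [Fintype F]

local notation "f" => hermForm 6 F 2

section abstract

variable {L : Type*} [Field L] [Algebra F L]
  (ρ : L →ₐ[F] Matrix (Fin 6) (Fin 6) F)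

/-- The action of the field. -/
def act (k : L) (x : Fin 6 → F) : Fin 6 → F := ρ k *ᵥ x

theorem act_mul (k l : L) (x : Fin 6 → F) : act ρ (k * l) x = act ρ k (act ρ l x) := by
  simp only [act, map_mul, Matrix.mulVec_mulVec]

theorem act_add (k l : L) (x : Fin 6 → F) : act ρ (k + l) x = act ρ k x + act ρ l x := by
  simp only [act, map_add, Matrix.add_mulVec]

theorem act_one (x : Fin 6 → F) : act ρ 1 x = x := by
  simp only [act, _root_.map_one, Matrix.one_mulVec]

theorem act_zero (x : Fin 6 → F) : act ρ 0 x = 0 := by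
  simp only [act, _root_.map_zero, Matrix.zero_mulVec]

theorem act_smul (c : F) (k : L) (x : Fin 6 → F) : act ρ (c • k) x = c • act ρ k x := by
  simp only [act, map_smul, Matrix.smul_mulVec]

theorem act_algebraMap (c : F) (x : Fin 6 → F) : act ρ (algebraMap F L c) x = c • x := by
  rw [Algebra.algebraMap_eq_smul_one, act_smul, act_one]

theorem act_add_right (k : L) (x y : Fin 6 → F) : act ρ k (x + y) = act ρ k x + act ρ k y := by
  simp only [act, Matrix.mulVec_add]

theorem act_smul_right (k : L) (c : F) (x : Fin 6 → F) : act ρ k (c • x) = c • act ρ k x := by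
  simp only [act, Matrix.mulVec_smul]

theorem act_zero_right (k : L) : act ρ k (0 : Fin 6 → F) = 0 := by
  simp only [act, Matrix.mulVec_zero]

theorem act_eq_zero {k : L} (hk : k ≠ 0) {x : Fin 6 → F} (h : act ρ k x = 0) : x = 0 := by
  have h1 : act ρ (k⁻¹ * k) x = 0 := by rw [act_mul, h, act_zero_right]
  rwa [inv_mul_cancel₀ hk, act_one] at h1

variable (hF : Fintype.card F = 4) (a : L →+* L)
  (hadj : ∀ (k : L) (u v : Fin 6 → F), hermForm 6 F 2 (act ρ k u) v = hermForm 6 F 2 u (act ρ (a k) v))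
  (haa : ∀ k, a (a k) = k)

include hadj haa in
theorem form_act (k l : L) (x y : Fin 6 → F) : f (act ρ k x) (act ρ l y) = f (act ρ (a l * k) x) y := by
  rw [act_mul, hadj (a l) (act ρ k x) y, haa]

/-- The values of the form on a line. -/
def TT (x : Fin 6 → F) (k : L) : F := f (act ρ k x) x

theorem TT_add (x : Fin 6 → F) (k l : L) : TT ρ x (k + l) = TT ρ x k + TT ρ x l := by
  simp only [TT, act_add, Cfsg.Agent.Lib.NotMax.SU2.f_add_left]

theorem TT_smul (x : Fin 6 → F) (c : F) (k : L) : TT ρ x (c • k) = c * TT ρ x k := by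
  simp only [TT, act_smul, Cfsg.Agent.Lib.NotMax.SU2.f_smul_left]

theorem TT_zero (x : Fin 6 → F) : TT ρ x (0 : L) = 0 := by
  have := TT_smul ρ x (0 : F) (0 : L)
  simpa using this

theorem TT_algebraMap_mul (x : Fin 6 → F) (c : F) (k : L) : TT ρ x (algebraMap F L c * k) = c * TT ρ x k := by
  rw [← Algebra.smul_def, TT_smul]

include hadj haa in
theorem TT_act (x : Fin 6 → F) (k l : L) : TT ρ (act ρ k x) l = TT ρ x (l * (k * a k)) := by
  simp only [TT]
  rw [← act_mul, form_act ρ a hadj haa]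
  congr 2
  ring

include hF hadj haa in
theorem TT_adj (x : Fin 6 → F) (k : L) : TT ρ x (a k) = (TT ρ x k) ^ 2 := by
  simp only [TT]
  rw [hadj, haa]
  exact f_symm hF _ _

variable (ha8 : ∀ k, a k = k ^ 8) (h64 : ∀ k : L, k ^ 64 = k)
  (hL3 : Module.finrank F L = 3)
  (ζ : L) (ω : F) (hζ3 : ζ ^ 3 = algebraMap F L ω) (hω1 : ω ≠ 1) (hω0 : ω ≠ 0)

include hF in
theorem two_L : (2 : L) = 0 := by
  have h1 := congrArg (algebraMap F L) (two_zero hF)
  rwa [map_ofNat, _root_.map_zero] at h1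

include hF hω1 hω0 in
theorem omega_eq : ω ^ 2 + ω + 1 = 0 := by
  have h1 := cube_eq_one hF hω0
  have h2 : (ω - 1) * (ω ^ 2 + ω + 1) = 0 := by linear_combination h1
  rcases mul_eq_zero.1 h2 with h3 | h3
  · exact (hω1 (by linear_combination h3)).elim
  · exact h3

include hF in
theorem pow_four_L (c : F) : (algebraMap F L c) ^ 4 = algebraMap F L c := by
  rw [← map_pow, pow_four hF]

/-- `x ↦ x⁴` is additive. -/
theorem add_four (h2 : (2 : L) = 0) (x y : L) : (x + y) ^ 4 = x ^ 4 + y ^ 4 := by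
  linear_combination (2 * x ^ 3 * y + 3 * x ^ 2 * y ^ 2 + 2 * x * y ^ 3) * h2

include hF hω1 hω0 in
theorem w_eq : (algebraMap F L ω) ^ 2 + algebraMap F L ω + 1 = 0 := by
  have := congrArg (algebraMap F L) (omega_eq hF ω hω1 hω0)
  simpa [map_add, map_pow] using this

include hF hω0 in
theorem w_cube : (algebraMap F L ω) ^ 3 = 1 := by
  rw [← map_pow, cube_eq_one hF hω0, _root_.map_one]

include hω0 hζ3 in
theorem zeta_ne : ζ ≠ 0 := by
  rintro rfl
  rw [zero_pow (by norm_num)] at hζ3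
  exact hω0 ((algebraMap F L).injective (by rw [← hζ3, _root_.map_zero]))

include hF hζ3 hω0 in
theorem zeta_nine : ζ ^ 9 = 1 := by
  have : ζ ^ 9 = (ζ ^ 3) ^ 3 := by ring
  rw [this, hζ3, w_cube hF ω hω0]

include hF hζ3 hω1 hω0 in
/-- `1, ζ, ζ²` are independent. -/
theorem indep (c₀ c₁ c₂ : F)
    (h : algebraMap F L c₀ + algebraMap F L c₁ * ζ + algebraMap F L c₂ * ζ ^ 2 = 0) : c₀ = 0 ∧ c₁ = 0 ∧ c₂ = 0 := by
  have h2 := two_L (L := L) hF
  have hw2 := w_eq (L := L) hF ω hω1 hω0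
  have hw3 := w_cube (L := L) hF ω hω0
  have hz0 := zeta_ne ζ ω hζ3 hω0
  set w := algebraMap F L ω with hw
  have h4 : ∀ c : F, (algebraMap F L c) ^ 4 = algebraMap F L c := pow_four_L hF
  have hz4 : ζ ^ 4 = w * ζ := by rw [pow_succ, hζ3]
  have hz8 : (ζ ^ 2) ^ 4 = w ^ 2 * ζ ^ 2 := by
    have : (ζ ^ 2) ^ 4 = (ζ ^ 4) ^ 2 := by ring
    rw [this, hz4]
    ring
  have frob : ∀ x y z : L, x ^ 4 = x → y ^ 4 = y → z ^ 4 = z → x + y * ζ + z * ζ ^ 2 = 0 →
      x + y * (w * ζ) + z * (w ^ 2 * ζ ^ 2) = 0 := by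
    intro x y z hx hy hz hh
    have h5 : (x + y * ζ + z * ζ ^ 2) ^ 4 = 0 := by rw [hh]; norm_num
    rw [add_four h2, add_four h2, mul_pow, mul_pow, hx, hy, hz, hz4, hz8] at h5
    exact h5
  have hw4 : w ^ 4 = w := h4 ω
  set x := algebraMap F L c₀ with hx
  set y := algebraMap F L c₁ with hy
  set z := algebraMap F L c₂ with hz
  have e1 := frob x y z (h4 _) (h4 _) (h4 _) h
  have e2 := frob x (y * w) (z * w ^ 2) (h4 _) (by rw [mul_pow, h4, hw4]) (by
    rw [mul_pow, h4, ← pow_mul, mul_comm 2 4, pow_mul, hw4]) (by linear_combination e1)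
  have r0 : x = 0 := by
    linear_combination h + e1 + e2 - x * h2 - y * ζ * hw2 - z * ζ ^ 2 * hw2 - z * ζ ^ 2 * w * hw3
  have r1 : y * ζ = 0 := by
    linear_combination h + w ^ 2 * e1 + w * e2 - x * hw2 - y * ζ * h2 - (2 * y * ζ) * hw3 - z * ζ ^ 2 * hw2 -
      z * ζ ^ 2 * (w + w ^ 2) * hw3
  have r2 : z * ζ ^ 2 = 0 := by
    linear_combination h + w * e1 + w ^ 2 * e2 - x * hw2 - y * ζ * hw2 - y * ζ * w * hw3 - z * ζ ^ 2 * h2 -
      z * ζ ^ 2 * (w ^ 3 + 2) * hw3
  have hy0 : y = 0 := (mul_eq_zero.1 r1).resolve_right hz0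
  have hz00 : z = 0 := (mul_eq_zero.1 r2).resolve_right (pow_ne_zero _ hz0)
  refine ⟨?_, ?_, ?_⟩
  · exact (algebraMap F L).injective (by rw [_root_.map_zero]; exact r0)
  · exact (algebraMap F L).injective (by rw [_root_.map_zero]; exact hy0)
  · exact (algebraMap F L).injective (by rw [_root_.map_zero]; exact hz00)

include hF hζ3 hω1 hω0 hL3 in
/-- `1, ζ, ζ²` span. -/
theorem span3 (k : L) : ∃ c₀ c₁ c₂ : F, k = algebraMap F L c₀ + algebraMap F L c₁ * ζ + algebraMap F L c₂ * ζ ^ 2 := by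
  have hli : LinearIndependent F ![(1 : L), ζ, ζ ^ 2] := by
    rw [Fintype.linearIndependent_iff]
    intro g hg i
    rw [Fin.sum_univ_three] at hg
    simp only [Matrix.cons_val_zero, Matrix.cons_val_one, Matrix.cons_val, Algebra.smul_def, mul_one] at hg
    obtain ⟨h0, h1, h2⟩ := indep hF ζ ω hζ3 hω1 hω0 (g 0) (g 1) (g 2) hg
    fin_cases i
    · exact h0
    · exact h1
    · exact h2
  haveI : FiniteDimensional F L := Module.finite_of_finrank_pos (by rw [hL3]; norm_num)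
  have hspan := hli.span_eq_top_of_card_eq_finrank' (by rw [hL3]; simp)
  have hk : k ∈ Submodule.span F (Set.range ![(1 : L), ζ, ζ ^ 2]) := by
    rw [hspan]
    trivial
  obtain ⟨g, hg⟩ := (Submodule.mem_span_range_iff_exists_fun F).1 hk
  refine ⟨g 0, g 1, g 2, ?_⟩
  rw [← hg, Fin.sum_univ_three]
  simp only [Matrix.cons_val_zero, Matrix.cons_val_one, Matrix.cons_val, Algebra.smul_def, mul_one]

include hF hζ3 hω0 ha8 in
theorem a_zeta : a ζ = (algebraMap F L ω) ^ 2 * ζ ^ 2 := by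
  rw [ha8, ← hζ3]
  ring

include hF hζ3 hω0 ha8 in
theorem a_zeta2 : a (ζ ^ 2) = (algebraMap F L ω) ^ 2 * ζ := by
  have hw3 := w_cube (L := L) hF ω hω0
  rw [map_pow, a_zeta hF a ha8 ζ ω hζ3 hω0]
  set w := algebraMap F L ω
  linear_combination (w ^ 4 * ζ) * hζ3 + (w ^ 2 * ζ) * hw3

include hF hadj haa ha8 hL3 hζ3 hω1 hω0 in
/-- Normalisation of a non-isotropic vector. -/
theorem normalize (u : Fin 6 → F) (hu : f u u ≠ 0) :
    ∃ k : L, TT ρ (act ρ k u) 1 = 1 ∧ TT ρ (act ρ k u) ζ = 0 ∧ TT ρ (act ρ k u) (ζ ^ 2) = 0 := by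
  have hw3 := w_cube (L := L) hF ω hω0
  let lmap : L →ₗ[F] (Fin 3 → F) :=
    { toFun := fun l => ![TT ρ u l, TT ρ u (ζ * l), TT ρ u (ζ ^ 2 * l)]
      map_add' := fun x y => by
        funext i
        fin_cases i <;> simp [TT_add, mul_add]
      map_smul' := fun c x => by
        funext i
        fin_cases i <;> simp [TT_smul, mul_smul_comm] }
  have hinj : Function.Injective lmap := by
    rw [injective_iff_map_eq_zero]
    intro x hx
    by_contra hx0
    have h0 : TT ρ u x = 0 := congrFun hx 0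
    have h1 : TT ρ u (ζ * x) = 0 := congrFun hx 1
    have h2 : TT ρ u (ζ ^ 2 * x) = 0 := congrFun hx 2
    obtain ⟨c₀, c₁, c₂, hc⟩ := span3 hF hL3 ζ ω hζ3 hω1 hω0 x⁻¹
    have h3 : x⁻¹ * x = 1 := inv_mul_cancel₀ hx0
    have h4 : TT ρ u 1 = 0 := by
      rw [← h3, hc, add_mul, add_mul, TT_add, TT_add, TT_algebraMap_mul, mul_assoc, TT_algebraMap_mul, mul_assoc,
        TT_algebraMap_mul, h0, h1, h2]
      ring
    apply hu
    simpa [TT, act_one] using h4
  haveI : FiniteDimensional F L := Module.finite_of_finrank_pos (by rw [hL3]; norm_num)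
  have hsurj : Function.Surjective lmap :=
    (LinearMap.injective_iff_surjective_of_finrank_eq_finrank (by rw [hL3]; simp)).1 hinj
  obtain ⟨x, hx⟩ := hsurj ![1, 0, 0]
  have h0 : TT ρ u x = 1 := congrFun hx 0
  have h1 : TT ρ u (ζ * x) = 0 := congrFun hx 1
  have h2 : TT ρ u (ζ ^ 2 * x) = 0 := congrFun hx 2
  have hax : a x = x := by
    apply hinj
    rw [hx]
    have e1 : ζ * a x = a (a ζ * x) := by rw [map_mul, haa]
    have e2 : ζ ^ 2 * a x = a (a (ζ ^ 2) * x) := by rw [map_mul, haa]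
    have e3 : TT ρ u (a x) = 1 := by rw [TT_adj ρ hF a hadj haa, h0, one_pow]
    have e4 : TT ρ u (ζ * a x) = 0 := by
      rw [e1, TT_adj ρ hF a hadj haa, a_zeta hF a ha8 ζ ω hζ3 hω0, mul_assoc, ← map_pow, TT_algebraMap_mul, h2]
      simp
    have e5 : TT ρ u (ζ ^ 2 * a x) = 0 := by
      rw [e2, TT_adj ρ hF a hadj haa, a_zeta2 hF a ha8 ζ ω hζ3 hω0, mul_assoc, ← map_pow, TT_algebraMap_mul, h1]
      simp
    funext i
    fin_cases i
    · exact e3
    · exact e4
    · exact e5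
  have hx8 : x ^ 8 = x := by rw [← ha8, hax]
  have hk : x ^ 4 * a (x ^ 4) = x := by
    rw [map_pow, hax, ← pow_add]
    exact hx8
  refine ⟨x ^ 4, ?_, ?_, ?_⟩
  · rw [TT_act ρ a hadj haa, hk, one_mul]
    exact h0
  · rw [TT_act ρ a hadj haa, hk]
    exact h1
  · rw [TT_act ρ a hadj haa, hk]
    exact h2

/-- The frame on a normalised line. -/
theorem orth_three (hw3 : (algebraMap F L ω) ^ 3 = 1) {x : Fin 6 → F} (h1 : TT ρ x (1 : L) = 1) (h2 : TT ρ x ζ = 0) (h3 : TT ρ x (ζ ^ 2) = 0)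
    (hz3 : ζ ^ 3 = algebraMap F L ω) (hadj : ∀ (k : L) (u v : Fin 6 → F), hermForm 6 F 2 (act ρ k u) v = hermForm 6 F 2 u (act ρ (a k) v))
    (haa : ∀ k, a (a k) = k) (hz : a ζ = (algebraMap F L ω) ^ 2 * ζ ^ 2) (hz' : a (ζ ^ 2) = (algebraMap F L ω) ^ 2 * ζ)
    (i j : Fin 3) : f (act ρ (ζ ^ (i : ℕ)) x) (act ρ (ζ ^ (j : ℕ)) x) = if i = j then 1 else 0 := by
  rw [form_act ρ a hadj haa]
  change TT ρ x _ = _
  set w := algebraMap F L ω with hw
  have h4 : TT ρ x (w ^ 2 * ζ) = 0 := by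
    rw [hw, ← map_pow, TT_algebraMap_mul, h2, mul_zero]
  have h5 : TT ρ x (w ^ 2 * ζ ^ 2) = 0 := by
    rw [hw, ← map_pow, TT_algebraMap_mul, h3, mul_zero]
  have t00 : TT ρ x (a (ζ ^ 0) * ζ ^ 0) = 1 := by simpa using h1
  have t01 : TT ρ x (a (ζ ^ 1) * ζ ^ 0) = 0 := by
    rw [pow_one, pow_zero, mul_one, hz]; exact h5
  have t02 : TT ρ x (a (ζ ^ 2) * ζ ^ 0) = 0 := by
    rw [pow_zero, mul_one, hz']; exact h4
  have t10 : TT ρ x (a (ζ ^ 0) * ζ ^ 1) = 0 := by
    rw [pow_zero, pow_one, _root_.map_one, one_mul]; exact h2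
  have t11 : TT ρ x (a (ζ ^ 1) * ζ ^ 1) = 1 := by
    rw [pow_one, hz, show w ^ 2 * ζ ^ 2 * ζ = w ^ 2 * ζ ^ 3 by ring, hz3, show w ^ 2 * w = w ^ 3 by ring, hw3]; exact h1
  have t12 : TT ρ x (a (ζ ^ 2) * ζ ^ 1) = 0 := by
    rw [pow_one, hz', show w ^ 2 * ζ * ζ = w ^ 2 * ζ ^ 2 by ring]; exact h5
  have t20 : TT ρ x (a (ζ ^ 0) * ζ ^ 2) = 0 := by
    rw [pow_zero, _root_.map_one, one_mul]; exact h3
  have t21 : TT ρ x (a (ζ ^ 1) * ζ ^ 2) = 0 := by
    rw [pow_one, hz, show w ^ 2 * ζ ^ 2 * ζ ^ 2 = w ^ 2 * (ζ ^ 3 * ζ) by ring, hz3, show w ^ 2 * (w * ζ) = w ^ 3 * ζ by ring, hw3, one_mul]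
    exact h2
  have t22 : TT ρ x (a (ζ ^ 2) * ζ ^ 2) = 1 := by
    rw [hz', show w ^ 2 * ζ * ζ ^ 2 = w ^ 2 * ζ ^ 3 by ring, hz3, show w ^ 2 * w = w ^ 3 by ring, hw3]; exact h1
  fin_cases i <;> fin_cases j
  · exact t00
  · exact t01
  · exact t02
  · exact t10
  · exact t11
  · exact t12
  · exact t20
  · exact t21
  · exact t22

end abstract

/-- A vector of non-zero norm orthogonal to three orthonormal vectors. -/
theorem exists_perp (hF : Fintype.card F = 4) (hF' : Fintype.card F = 2 ^ 2) (e : Fin 3 → (Fin 6 → F))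
    (he : ∀ i j, f (e i) (e j) = if i = j then 1 else 0) :
    ∃ y, (∀ i, f y (e i) = 0) ∧ f y y ≠ 0 := by
  classical
  by_contra hcon
  push Not at hcon
  have h2 : (2 : F) = 0 := two_zero hF
  have hu := hermForm_isUnitary 6 hF'
  have hsl : ∀ (g : Fin 3 → F) (z : Fin 6 → F), f (∑ i, g i • e i) z = ∑ i, g i * f (e i) z := by
    intro g z
    rw [Fin.sum_univ_three, Fin.sum_univ_three, f_add_left, f_add_left, f_smul_left, f_smul_left, f_smul_left]
  have hsr : ∀ (g : Fin 3 → F) (z : Fin 6 → F), f z (∑ i, g i • e i) = ∑ i, g i ^ 2 * f z (e i) := by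
    intro g z
    rw [Fin.sum_univ_three, Fin.sum_univ_three, f_add_right hF, f_add_right hF, f_smul_right, f_smul_right, f_smul_right]
  let π : (Fin 6 → F) → (Fin 6 → F) := fun x => x + ∑ i, f x (e i) • e i
  have hπ : ∀ x j, f (π x) (e j) = 0 := by
    intro x j
    simp only [π]
    rw [f_add_left, hsl]
    have : ∑ i, f x (e i) * f (e i) (e j) = f x (e j) := by
      simp [he]
    rw [this]
    linear_combination (f x (e j)) * h2
  have hiso : ∀ x, f (π x) (π x) = 0 := fun x => hcon _ (hπ x)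
  obtain ⟨ω, hω0, hω1⟩ : ∃ ω : F, ω ≠ 0 ∧ ω ≠ 1 := by
    by_contra hne
    push Not at hne
    have hsub : (Finset.univ : Finset F) ⊆ {0, 1} := by
      intro x _
      by_cases hx : x = 0
      · simp [hx]
      · simp [hne x hx]
    have := Finset.card_le_card hsub
    rw [Finset.card_univ, hF] at this
    have h3 := Finset.card_le_two (a := (0 : F)) (b := 1)
    omega
  have hω : ω ^ 2 + ω + 1 = 0 := by
    have h1 := cube_eq_one hF hω0
    have h3 : (ω - 1) * (ω ^ 2 + ω + 1) = 0 := by linear_combination h1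
    rcases mul_eq_zero.1 h3 with h4 | h4
    · exact (hω1 (by linear_combination h4)).elim
    · exact h4
  -- the complement is totally isotropic
  have hperp : ∀ y z : Fin 6 → F, (∀ j, f y (e j) = 0) → (∀ j, f z (e j) = 0) → f y z = 0 := by
    intro y z hy hz
    have h3 : f (y + z) (y + z) = 0 := hcon _ (fun j => by rw [f_add_left, hy, hz, add_zero])
    have h4 : f (ω • y + z) (ω • y + z) = 0 := hcon _ (fun j => by rw [f_add_left, f_smul_left, hy, hz]; ring)
    have hyy := hcon y hy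
    have hzz := hcon z hz
    rw [f_add_left, f_add_right hF, f_add_right hF, hyy, hzz] at h3
    rw [f_add_left, f_add_right hF, f_add_right hF, f_smul_left, f_smul_left, f_smul_right, f_smul_right, hyy, hzz] at h4
    have h5 : f z y = f y z := by linear_combination h3 - (f y z) * h2
    rw [h5] at h4
    linear_combination (f y z) * hω - h4
  have hπ0 : ∀ x, π x = 0 := by
    intro x
    by_contra hne
    obtain ⟨-, y, hy⟩ := hu.nondegenerate _ hne
    apply hy
    have h3 : y = π y + ∑ i, f y (e i) • e i := by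
      simp only [π]
      rw [add_assoc, ← two_smul F]
      simp [h2]
    rw [h3, f_add_right hF, hperp _ _ (hπ x) (hπ y), hsr]
    simp [hπ]
  have htop : Submodule.span F (Set.range e) = ⊤ := by
    rw [eq_top_iff]
    intro x _
    have h3 : x = ∑ i, f x (e i) • e i := by
      have h4 := hπ0 x
      simp only [π] at h4
      have h5 : ∀ a b : Fin 6 → F, a + b = 0 → a = b := by
        intro a b hab
        funext i
        have h6 := congrFun hab i
        simp only [Pi.add_apply, Pi.zero_apply] at h6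
        linear_combination h6 - b i * h2
      exact h5 _ _ h4
    rw [h3]
    exact Submodule.sum_mem _ fun i _ => Submodule.smul_mem _ _ (Submodule.subset_span ⟨i, rfl⟩)
  have h6 : Module.finrank F (Fin 6 → F) = 6 := by simp
  have h7 := finrank_range_le_card (R := F) e
  rw [Set.finrank, htop, finrank_top, h6] at h7
  simp at h7

end Cfsg.Agent.Lib.CmaxX.U6Field
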