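/-
`SU₆(2)`, field normaliser: frames adapted to the field.
-/
import Cfsg.Agent.Lib.CmaxX.U6Field

set_option autoImplicit false
set_option linter.unusedSectionVars false
set_option linter.unusedVariables false
set_option linter.style.haveILetI false
set_option maxHeartbeats 1000000

namespace Cfsg.Agent.Lib.CmaxX.U6Field2

open Matrix Module Cfsg Cfsg.Geo Cfsg.Agent.Lib.Geo.Basic Cfsg.Agent.Lib.Geo.UnitaryInSL Cfsg.Agent.Lib.Geo.SUGen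
open Cfsg.Agent.Lib.NotMax.SetStab Cfsg.Agent.Lib.NotMax.SU2 Cfsg.Agent.Lib.CmaxX.Dual Cfsg.Agent.Lib.CmaxU.Proper
open Cfsg.Agent.Lib.CmaxX.U6Field
open scoped MatrixGroups

variable {F : Type*} [Field F] [Fintype F]

local notation "f" => hermForm 6 F 2

variable {L : Type*} [Field L] [Algebra F L]
  (ρ : L →ₐ[F] Matrix (Fin 6) (Fin 6) F)
  (hF : Fintype.card F = 4) (hF' : Fintype.card F = 2 ^ 2) (a : L →+* L)
  (hadj : ∀ (k : L) (u v : Fin 6 → F), hermForm 6 F 2 (act ρ k u) v = hermForm 6 F 2 u (act ρ (a k) v))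
  (haa : ∀ k, a (a k) = k)
  (ha8 : ∀ k, a k = k ^ 8)
  (hL3 : Module.finrank F L = 3)
  (ζ : L) (ω : F) (hζ3 : ζ ^ 3 = algebraMap F L ω) (hω1 : ω ≠ 1) (hω0 : ω ≠ 0)

include hF hF' hadj haa ha8 hL3 hζ3 hω1 hω0 in
theorem exists_frame : ∃ u₁ u₂ : Fin 6 → F,
    TT ρ u₁ (1 : L) = 1 ∧ TT ρ u₁ ζ = 0 ∧ TT ρ u₁ (ζ ^ 2) = 0 ∧ TT ρ u₂ (1 : L) = 1 ∧ TT ρ u₂ ζ = 0 ∧ TT ρ u₂ (ζ ^ 2) = 0 ∧
      ∀ l m : L, f (act ρ l u₂) (act ρ m u₁) = 0 := by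
  have hw3 := w_cube (L := L) hF ω hω0
  have hz := a_zeta hF a ha8 ζ ω hζ3 hω0
  have hz' := a_zeta2 hF a ha8 ζ ω hζ3 hω0
  let v : Fin 6 → F := Pi.single 0 1
  have hv : f v v ≠ 0 := by
    have : f v v = 1 := by
      simp [v, hermForm, Fin.sum_univ_six, Pi.single_apply]
    rw [this]
    exact one_ne_zero
  obtain ⟨k, h1, h2, h3⟩ := normalize ρ hF a hadj haa ha8 hL3 ζ ω hζ3 hω1 hω0 v hv
  set u₁ := act ρ k v with hu₁
  have horth := orth_three ρ a ζ ω hw3 h1 h2 h3 hζ3 hadj haa hz hz'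
  obtain ⟨y, hy, hyy⟩ := exists_perp hF hF' (fun i => act ρ (ζ ^ (i : ℕ)) u₁) horth
  obtain ⟨k', h1', h2', h3'⟩ := normalize ρ hF a hadj haa ha8 hL3 ζ ω hζ3 hω1 hω0 y hyy
  have hperp : ∀ r : L, f y (act ρ r u₁) = 0 := by
    intro r
    obtain ⟨c₀, c₁, c₂, rfl⟩ := span3 hF hL3 ζ ω hζ3 hω1 hω0 r
    have e0 : f y (act ρ (ζ ^ 0) u₁) = 0 := hy 0
    have e1 : f y (act ρ (ζ ^ 1) u₁) = 0 := hy 1
    have e2 : f y (act ρ (ζ ^ 2) u₁) = 0 := hy 2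
    rw [pow_zero, act_one] at e0
    rw [pow_one] at e1
    rw [act_add, act_add, act_algebraMap, ← Algebra.smul_def, ← Algebra.smul_def, act_smul, act_smul, f_add_right hF, f_add_right hF,
      f_smul_right, f_smul_right, f_smul_right, e0, e1, e2]
    simp
  refine ⟨u₁, act ρ k' y, h1, h2, h3, h1', h2', h3', ?_⟩
  intro l m
  rw [form_act ρ a hadj haa, ← act_mul, hadj]
  exact hperp _

section frame

variable (u₁ u₂ : Fin 6 → F)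
  (h₁₁ : TT ρ u₁ (1 : L) = 1) (h₁₂ : TT ρ u₁ ζ = 0) (h₁₃ : TT ρ u₁ (ζ ^ 2) = 0)
  (h₂₁ : TT ρ u₂ (1 : L) = 1) (h₂₂ : TT ρ u₂ ζ = 0) (h₂₃ : TT ρ u₂ (ζ ^ 2) = 0)
  (hperp : ∀ l m : L, hermForm 6 F 2 (act ρ l u₂) (act ρ m u₁) = 0)

/-- The first coefficient. -/
theorem T_coeff {x : Fin 6 → F} (h1 : TT ρ x (1 : L) = 1) (h2 : TT ρ x ζ = 0) (h3 : TT ρ x (ζ ^ 2) = 0) (c₀ c₁ c₂ : F) :
    TT ρ x (algebraMap F L c₀ + algebraMap F L c₁ * ζ + algebraMap F L c₂ * ζ ^ 2) = c₀ := by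
  have h4 : algebraMap F L c₀ = algebraMap F L c₀ * 1 := by ring
  rw [TT_add, TT_add, TT_algebraMap_mul, TT_algebraMap_mul, h4, TT_algebraMap_mul, h1, h2, h3]
  ring

include hF hL3 hζ3 hω1 hω0 h₁₁ h₁₂ h₁₃ h₂₁ h₂₂ h₂₃ in
theorem T_eq (l : L) : TT ρ u₂ l = TT ρ u₁ l := by
  obtain ⟨c₀, c₁, c₂, rfl⟩ := span3 hF hL3 ζ ω hζ3 hω1 hω0 l
  rw [T_coeff ρ ζ h₁₁ h₁₂ h₁₃, T_coeff ρ ζ h₂₁ h₂₂ h₂₃]

include hF hperp in
theorem perp' (l m : L) : f (act ρ m u₁) (act ρ l u₂) = 0 := by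
  rw [f_symm hF (act ρ l u₂) (act ρ m u₁), hperp]
  simp

include hF hadj haa hL3 hζ3 hω1 hω0 h₁₁ h₁₂ h₁₃ h₂₁ h₂₂ h₂₃ hperp in
/-- The form in coordinates. -/
theorem ff (p q r s : L) :
    f (act ρ p u₁ + act ρ q u₂) (act ρ r u₁ + act ρ s u₂) = TT ρ u₁ (a r * p + a s * q) := by
  rw [f_add_left, f_add_right hF, f_add_right hF, hperp, perp' ρ hF u₁ u₂ hperp, form_act ρ a hadj haa, form_act ρ a hadj haa,
    TT_add]
  have h1 : f (act ρ (a r * p) u₁) u₁ = TT ρ u₁ (a r * p) := rfl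
  have h2 : f (act ρ (a s * q) u₂) u₂ = TT ρ u₂ (a s * q) := rfl
  rw [h1, h2, T_eq ρ hF hL3 ζ ω hζ3 hω1 hω0 u₁ u₂ h₁₁ h₁₂ h₁₃ h₂₁ h₂₂ h₂₃]
  ring

include h₁₁ in
theorem T_nd {k : L} (h : ∀ l : L, TT ρ u₁ (l * k) = 0) : k = 0 := by
  by_contra hk
  have := h k⁻¹
  rw [inv_mul_cancel₀ hk, h₁₁] at this
  exact one_ne_zero this

include hF hadj haa hL3 hζ3 hω1 hω0 h₁₁ h₁₂ h₁₃ h₂₁ h₂₂ h₂₃ hperp in
/-- Coordinates are unique. -/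
theorem coord_unique {p q p' q' : L} (h : act ρ p u₁ + act ρ q u₂ = act ρ p' u₁ + act ρ q' u₂) : p = p' ∧ q = q' := by
  have h2 := two_L (L := L) hF
  have hF2 := two_zero hF
  have e1 : ∀ r s : L, TT ρ u₁ (a r * p + a s * q) = TT ρ u₁ (a r * p' + a s * q') := by
    intro r s
    rw [← ff ρ hF a hadj haa hL3 ζ ω hζ3 hω1 hω0 u₁ u₂ h₁₁ h₁₂ h₁₃ h₂₁ h₂₂ h₂₃ hperp,
      ← ff ρ hF a hadj haa hL3 ζ ω hζ3 hω1 hω0 u₁ u₂ h₁₁ h₁₂ h₁₃ h₂₁ h₂₂ h₂₃ hperp, h]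
  have hsum : ∀ x y : L, TT ρ u₁ x = TT ρ u₁ y → TT ρ u₁ (x + y) = 0 := by
    intro x y hxy
    rw [TT_add, hxy]
    linear_combination (TT ρ u₁ y) * hF2
  constructor
  · have : p + p' = 0 := by
      apply T_nd ρ u₁ h₁₁
      intro l
      have h3 := e1 (a l) 0
      rw [haa] at h3
      simp only [_root_.map_zero, zero_mul, add_zero] at h3
      have h4 := hsum _ _ h3
      rwa [← mul_add] at h4
    linear_combination this - p' * h2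
  · have : q + q' = 0 := by
      apply T_nd ρ u₁ h₁₁
      intro l
      have h3 := e1 0 (a l)
      rw [haa] at h3
      simp only [_root_.map_zero, zero_mul, zero_add] at h3
      have h4 := hsum _ _ h3
      rwa [← mul_add] at h4
    linear_combination this - q' * h2

include hF hF' hadj haa ha8 hL3 hζ3 hω1 hω0 h₁₁ h₁₂ h₁₃ h₂₁ h₂₂ h₂₃ hperp in
/-- The adapted frame. -/
theorem frame_dual (i j : Fin 6) :
    f ((![u₁, act ρ ζ u₁, act ρ (ζ ^ 2) u₁, u₂, act ρ ζ u₂, act ρ (ζ ^ 2) u₂] : Fin 6 → Fin 6 → F) i)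
      ((![u₁, act ρ ζ u₁, act ρ (ζ ^ 2) u₁, u₂, act ρ ζ u₂, act ρ (ζ ^ 2) u₂] : Fin 6 → Fin 6 → F) j) = if i = j then 1 else 0 := by
  have hw3 := w_cube (L := L) hF ω hω0
  have hz := a_zeta hF a ha8 ζ ω hζ3 hω0
  have hz' := a_zeta2 hF a ha8 ζ ω hζ3 hω0
  have o1 := orth_three ρ a ζ ω hw3 h₁₁ h₁₂ h₁₃ hζ3 hadj haa hz hz'
  have o2 := orth_three ρ a ζ ω hw3 h₂₁ h₂₂ h₂₃ hζ3 hadj haa hz hz'
  have p1 := hperp
  have p2 := perp' ρ hF u₁ u₂ hperp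
  have t1 : ∀ x : Fin 6 → F, act ρ (1 : L) x = x := act_one ρ
  have e00 := o1 0 0
  have e01 := o1 0 1
  have e02 := o1 0 2
  have e10 := o1 1 0
  have e11 := o1 1 1
  have e12 := o1 1 2
  have e20 := o1 2 0
  have e21 := o1 2 1
  have e22 := o1 2 2
  have g00 := o2 0 0
  have g01 := o2 0 1
  have g02 := o2 0 2
  have g10 := o2 1 0
  have g11 := o2 1 1
  have g12 := o2 1 2
  have g20 := o2 2 0
  have g21 := o2 2 1
  have g22 := o2 2 2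
  simp only [Fin.val_zero, Fin.val_one, Fin.val_two, pow_zero, pow_one, t1, if_true, Fin.isValue] at e00 e01 e02 e10 e11 e12 e20 e21 e22 g00 g01 g02 g10 g11 g12 g20 g21 g22
  have q1 : ∀ l m : L, f (act ρ l u₂) (act ρ m u₁) = 0 := p1
  have q2 : ∀ l m : L, f (act ρ m u₁) (act ρ l u₂) = 0 := p2
  have r1 : ∀ l : L, f u₂ (act ρ l u₁) = 0 := fun l => by simpa [t1] using q1 1 l
  have r2 : ∀ l : L, f (act ρ l u₂) u₁ = 0 := fun l => by simpa [t1] using q1 l 1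
  have r3 : f u₂ u₁ = 0 := by simpa [t1] using q1 1 1
  have r4 : ∀ l : L, f u₁ (act ρ l u₂) = 0 := fun l => by simpa [t1] using q2 l 1
  have r5 : ∀ l : L, f (act ρ l u₁) u₂ = 0 := fun l => by simpa [t1] using q2 1 l
  have r6 : f u₁ u₂ = 0 := by simpa [t1] using q2 1 1
  fin_cases i <;> fin_cases j <;> simp [e00, e01, e02, e10, e11, e12, e20, e21, e22, g00, g01, g02, g10, g11, g12, g20, g21, g22, q1, q2, r1, r2, r3, r4, r5, r6]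

include hF hF' hadj haa ha8 hL3 hζ3 hω1 hω0 h₁₁ h₁₂ h₁₃ h₂₁ h₂₂ h₂₃ hperp in
/-- Every vector has coordinates. -/
theorem coords (x : Fin 6 → F) : ∃ p q : L, x = act ρ p u₁ + act ρ q u₂ := by
  have hf := hermForm_isUnitary 6 hF'
  have hdual := frame_dual ρ hF hF' a hadj haa ha8 hL3 ζ ω hζ3 hω1 hω0 u₁ u₂ h₁₁ h₁₂ h₁₃ h₂₁ h₂₂ h₂₃ hperp
  have hexp := expand hf hdual x
  rw [Fin.sum_univ_six] at hexp
  simp only [Matrix.cons_val_zero, Matrix.cons_val_one, Matrix.cons_val] at hexp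
  refine ⟨algebraMap F L (f x u₁) + algebraMap F L (f x (act ρ ζ u₁)) * ζ + algebraMap F L (f x (act ρ (ζ ^ 2) u₁)) * ζ ^ 2,
    algebraMap F L (f x u₂) + algebraMap F L (f x (act ρ ζ u₂)) * ζ + algebraMap F L (f x (act ρ (ζ ^ 2) u₂)) * ζ ^ 2, ?_⟩
  simp only [act_add, ← Algebra.smul_def, act_smul, act_algebraMap, act_one, smul_eq_mul]
  conv_lhs => rw [hexp]
  simp only [Algebra.smul_def, mul_one, act_algebraMap]
  abel_nf

end frame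

end Cfsg.Agent.Lib.CmaxX.U6Field2
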