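/-
`SU₆(2)`, field normaliser: the form `V₀` and its stabiliser.
-/
import Cfsg.Agent.Lib.CmaxX.U6Field2

set_option autoImplicit false
set_option linter.unusedSectionVars false
set_option linter.unusedVariables false
set_option linter.style.haveILetI false
set_option maxHeartbeats 1000000

namespace Cfsg.Agent.Lib.CmaxX.U6Field3

open Matrix Module Cfsg Cfsg.Geo Cfsg.Agent.Lib.Geo.Basic Cfsg.Agent.Lib.Geo.UnitaryInSL Cfsg.Agent.Lib.Geo.SUGen
open Cfsg.Agent.Lib.NotMax.SetStab Cfsg.Agent.Lib.NotMax.SU2 Cfsg.Agent.Lib.CmaxX.Dual Cfsg.Agent.Lib.CmaxU.Proper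
open Cfsg.Agent.Lib.CmaxX.U6Field Cfsg.Agent.Lib.CmaxX.U6Field2
open scoped MatrixGroups

variable {F : Type*} [Field F] [Fintype F]

local notation "f" => hermForm 6 F 2

variable {L : Type*} [Field L] [Algebra F L]
  (ρ : L →ₐ[F] Matrix (Fin 6) (Fin 6) F)
  (hF : Fintype.card F = 4) (hF' : Fintype.card F = 2 ^ 2) (a : L →+* L)
  (hadj : ∀ (k : L) (u v : Fin 6 → F), hermForm 6 F 2 (act ρ k u) v = hermForm 6 F 2 u (act ρ (a k) v))
  (haa : ∀ k, a (a k) = k)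
  (ha8 : ∀ k, a k = k ^ 8)
  (hL3 : Module.finrank F L = 3)
  (ζ : L) (ω : F) (hζ3 : ζ ^ 3 = algebraMap F L ω) (hω1 : ω ≠ 1) (hω0 : ω ≠ 0)
  (u₁ u₂ : Fin 6 → F)
  (h₁₁ : TT ρ u₁ (1 : L) = 1) (h₁₂ : TT ρ u₁ ζ = 0) (h₁₃ : TT ρ u₁ (ζ ^ 2) = 0)
  (h₂₁ : TT ρ u₂ (1 : L) = 1) (h₂₂ : TT ρ u₂ ζ = 0) (h₂₃ : TT ρ u₂ (ζ ^ 2) = 0)
  (hperp : ∀ l m : L, hermForm 6 F 2 (act ρ l u₂) (act ρ m u₁) = 0)

/-- The form. -/
def vv (p : L) : Fin 6 → F := act ρ p u₁ + act ρ (a p) u₂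

theorem vv_add (p q : L) : vv ρ a u₁ u₂ (p + q) = vv ρ a u₁ u₂ p + vv ρ a u₁ u₂ q := by
  simp only [vv, map_add, act_add]
  abel

include hF in
/-- Cube roots of unity lie in `F`. -/
theorem cube_root (hω1 : ω ≠ 1) (hω0 : ω ≠ 0) {x : L} (hx : x ^ 3 = 1) : ∃ ε : F, ε ≠ 0 ∧ x = algebraMap F L ε := by
  have hw2 := w_eq (L := L) hF ω hω1 hω0
  have hw3 := w_cube (L := L) hF ω hω0
  set w := algebraMap F L ω with hw
  have h : (x - 1) * (x - w) * (x - w ^ 2) = 0 := by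
    linear_combination hx - (x ^ 2 - x) * hw2 + (x - 1) * hw3
  rcases mul_eq_zero.1 h with h | h
  · rcases mul_eq_zero.1 h with h | h
    · exact ⟨1, one_ne_zero, by rw [_root_.map_one]; linear_combination h⟩
    · exact ⟨ω, hω0, by linear_combination h⟩
  · exact ⟨ω ^ 2, pow_ne_zero _ hω0, by rw [map_pow]; linear_combination h⟩

include ha8 in
/-- Elements of `F₂`. -/
theorem vv_smul (x : F) (hx : x ^ 2 = x) (q : L) : vv ρ a u₁ u₂ (x • q) = x • vv ρ a u₁ u₂ q := by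
  have h1 : a (x • q) = x • a q := by
    rw [ha8, ha8, smul_pow, show x ^ 8 = x by
      calc x ^ 8 = ((x ^ 2) ^ 2) ^ 2 := by ring
        _ = x := by rw [hx, hx, hx]]
  simp only [vv, act_smul, h1, smul_add]

include hF ha8 hL3 hζ3 hω1 hω0 in
/-- The `𝔽₂`-basis of the form. -/
theorem vv_basis (p : L) : ∃ n : Fin 6 → F, (∀ i, n i ^ 2 = n i) ∧
    vv ρ a u₁ u₂ p = ∑ i, n i • (![vv ρ a u₁ u₂ 1, vv ρ a u₁ u₂ ζ, vv ρ a u₁ u₂ (ζ ^ 2), vv ρ a u₁ u₂ (algebraMap F L ω),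
      vv ρ a u₁ u₂ (algebraMap F L ω * ζ), vv ρ a u₁ u₂ (algebraMap F L ω * ζ ^ 2)] : Fin 6 → Fin 6 → F) i := by
  have hω2 := omega_eq hF ω hω1 hω0
  have hF2 := two_zero hF
  have hdec : ∀ c : F, ∃ x y : F, x ^ 2 = x ∧ y ^ 2 = y ∧ c = x + y * ω := by
    intro c
    have h4 := pow_four hF c
    have h5 : c * (c - 1) * (c - ω) * (c - ω - 1) = 0 := by
      have e1 : ω ^ 2 = ω + 1 := by linear_combination hω2 - (ω + 1) * hF2
      have e2 : c * (c - 1) * (c - ω) * (c - ω - 1) = c ^ 4 - c := by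
        linear_combination (c - (ω + 1) * c ^ 3 + ω * c ^ 2) * hF2 + (c ^ 2 - c) * hω2
      rw [e2, h4, sub_self]
    have p0 : (0 : F) ^ 2 = 0 := by norm_num
    have p1 : (1 : F) ^ 2 = 1 := by norm_num
    rcases mul_eq_zero.1 h5 with h6 | h6
    · rcases mul_eq_zero.1 h6 with h7 | h7
      · rcases mul_eq_zero.1 h7 with h8 | h8
        · exact ⟨0, 0, p0, p0, by rw [h8]; ring⟩
        · exact ⟨1, 0, p1, p0, by linear_combination h8⟩
      · exact ⟨0, 1, p0, p1, by linear_combination h7⟩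
    · exact ⟨1, 1, p1, p1, by linear_combination h6⟩
  obtain ⟨c₀, c₁, c₂, hp⟩ := span3 hF hL3 ζ ω hζ3 hω1 hω0 p
  obtain ⟨x₀, y₀, hx₀, hy₀, h0⟩ := hdec c₀
  obtain ⟨x₁, y₁, hx₁, hy₁, h1⟩ := hdec c₁
  obtain ⟨x₂, y₂, hx₂, hy₂, h2⟩ := hdec c₂
  refine ⟨![x₀, x₁, x₂, y₀, y₁, y₂], ?_, ?_⟩
  · intro i
    fin_cases i
    · exact hx₀
    · exact hx₁
    · exact hx₂
    · exact hy₀
    · exact hy₁
    · exact hy₂
  · rw [Fin.sum_univ_six]
    simp only [Matrix.cons_val_zero, Matrix.cons_val_one, Matrix.cons_val]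
    rw [← vv_smul ρ a ha8 u₁ u₂ x₀ hx₀, ← vv_smul ρ a ha8 u₁ u₂ x₁ hx₁, ← vv_smul ρ a ha8 u₁ u₂ x₂ hx₂,
      ← vv_smul ρ a ha8 u₁ u₂ y₀ hy₀, ← vv_smul ρ a ha8 u₁ u₂ y₁ hy₁, ← vv_smul ρ a ha8 u₁ u₂ y₂ hy₂]
    simp only [← vv_add]
    congr 1
    rw [hp, h0, h1, h2]
    simp only [Algebra.smul_def, map_add, map_mul]
    ring

section inv

include hF hF' hadj haa ha8 hL3 hζ3 hω1 hω0 h₁₁ h₁₂ h₁₃ h₂₁ h₂₂ h₂₃ hperp

theorem inv1 (h : GL (Fin 6) F) (hiso : IsIso f h) (τ : L →+* L)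
    (hτ : ∀ k x, (h : Matrix (Fin 6) (Fin 6) F) *ᵥ act ρ k x = act ρ (τ k) ((h : Matrix (Fin 6) (Fin 6) F) *ᵥ x))
    (hτs : Function.Surjective τ) (hτc : ∀ c, τ (algebraMap F L c) = algebraMap F L c) :
    ∃ c : L, c ^ 9 = 1 ∧ ∀ p, ∃ p', (h : Matrix (Fin 6) (Fin 6) F) *ᵥ vv ρ a u₁ u₂ p = act ρ c (vv ρ a u₁ u₂ p') := by
  have h2 := two_L (L := L) hF
  have hF2 := two_zero hF
  have hff := ff ρ hF a hadj haa hL3 ζ ω hζ3 hω1 hω0 u₁ u₂ h₁₁ h₁₂ h₁₃ h₂₁ h₂₂ h₂₃ hperp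
  have hnd : ∀ {k : L}, (∀ l : L, TT ρ u₁ (l * k) = 0) → k = 0 := fun {k} h => T_nd ρ u₁ h₁₁ h
  obtain ⟨α, β, hb₁⟩ := coords ρ hF hF' a hadj haa ha8 hL3 ζ ω hζ3 hω1 hω0 u₁ u₂ h₁₁ h₁₂ h₁₃ h₂₁ h₂₂ h₂₃ hperp ((h : Matrix (Fin 6) (Fin 6) F) *ᵥ u₁)
  obtain ⟨γ, δ, hb₂⟩ := coords ρ hF hF' a hadj haa ha8 hL3 ζ ω hζ3 hω1 hω0 u₁ u₂ h₁₁ h₁₂ h₁₃ h₂₁ h₂₂ h₂₃ hperp ((h : Matrix (Fin 6) (Fin 6) F) *ᵥ u₂)
  -- T is invariant
  have hTτ : ∀ k, TT ρ u₁ (τ k) = TT ρ u₁ k := by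
    have hζ0 := zeta_ne ζ ω hζ3 hω0
    have h3 : ((τ ζ) * ζ⁻¹) ^ 3 = 1 := by
      rw [mul_pow, ← map_pow, hζ3, hτc, inv_pow, hζ3]
      exact mul_inv_cancel₀ (by rw [← hζ3]; exact pow_ne_zero _ hζ0)
    obtain ⟨ε, hε0, hε⟩ := cube_root hF ω hω1 hω0 h3
    have h4 : τ ζ = algebraMap F L ε * ζ := by
      rw [← hε]
      field_simp
    intro k
    obtain ⟨c₀, c₁, c₂, rfl⟩ := span3 hF hL3 ζ ω hζ3 hω1 hω0 k
    rw [T_coeff ρ ζ h₁₁ h₁₂ h₁₃]
    rw [map_add, map_add, map_mul, map_mul, hτc, hτc, hτc, map_pow, h4, mul_pow, ← map_pow, ← mul_assoc, ← mul_assoc, ← map_mul, ← map_mul]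
    exact T_coeff ρ ζ h₁₁ h₁₂ h₁₃ _ _ _
  -- unitary relations
  have hcomp : ∀ (k : L) (x y : Fin 6 → F) (p q r s : L), (h : Matrix (Fin 6) (Fin 6) F) *ᵥ x = act ρ p u₁ + act ρ q u₂ →
      (h : Matrix (Fin 6) (Fin 6) F) *ᵥ y = act ρ r u₁ + act ρ s u₂ →
      f (act ρ k x) y = TT ρ u₁ (τ k * (a r * p + a s * q)) := by
    intro k x y p q r s hx hy
    rw [← hiso (act ρ k x) y, hτ, hx, hy, act_add_right, ← act_mul, ← act_mul, hff]
    congr 1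
    ring
  have hsum : ∀ x y : L, TT ρ u₁ x = TT ρ u₁ y → TT ρ u₁ (x + y) = 0 := by
    intro x y hxy
    rw [TT_add, hxy]
    linear_combination (TT ρ u₁ y) * hF2
  have hE₁ : a α * α + a β * β = 1 := by
    have h3 : a α * α + a β * β + 1 = 0 := by
      apply hnd
      intro l
      obtain ⟨k, rfl⟩ := hτs l
      have h4 := hcomp k u₁ u₁ α β α β hb₁ hb₁
      have h5 : TT ρ u₁ k = f (act ρ k u₁) u₁ := rfl
      have h6 := hsum (τ k * (a α * α + a β * β)) (τ k) (by rw [← h4, hTτ, h5])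
      rw [← mul_one (τ k), mul_assoc, ← mul_add, one_mul] at h6
      exact h6
    linear_combination h3 - h2
  have hE₂ : a γ * γ + a δ * δ = 1 := by
    have h3 : a γ * γ + a δ * δ + 1 = 0 := by
      apply hnd
      intro l
      obtain ⟨k, rfl⟩ := hτs l
      have h4 := hcomp k u₂ u₂ γ δ γ δ hb₂ hb₂
      have h5 : TT ρ u₁ k = f (act ρ k u₂) u₂ := (T_eq ρ hF hL3 ζ ω hζ3 hω1 hω0 u₁ u₂ h₁₁ h₁₂ h₁₃ h₂₁ h₂₂ h₂₃ k).symm
      have h6 := hsum (τ k * (a γ * γ + a δ * δ)) (τ k) (by rw [← h4, hTτ, h5])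
      rw [← mul_one (τ k), mul_assoc, ← mul_add, one_mul] at h6
      exact h6
    linear_combination h3 - h2
  have hE₃ : a γ * α + a δ * β = 0 := by
    apply hnd
    intro l
    obtain ⟨k, rfl⟩ := hτs l
    have h4 := hcomp k u₁ u₂ α β γ δ hb₁ hb₂
    have h5 : f (act ρ k u₁) u₂ = 0 := by
      have := perp' ρ hF u₁ u₂ hperp 1 k
      rwa [act_one] at this
    rw [← h4, h5]
  have hE₄ : γ * a α + δ * a β = 0 := by
    have := congrArg a hE₃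
    simpa [map_add, map_mul, haa] using this
  set A := a α with hA
  set B := a β with hB
  set C := a γ with hC
  set E := a δ with hE
  set D := α * δ + β * γ with hDdef
  have hδ : δ = D * A := by
    rw [hDdef]
    linear_combination (-δ) * hE₁ - β * hE₄ + (β * δ * B) * h2
  have hβ : β = D * C := by
    rw [hDdef]
    linear_combination (-δ) * hE₃ - β * hE₂ + (β * E * δ) * h2
  have hD0 : D ≠ 0 := by
    intro h0
    rw [h0, zero_mul] at hδ hβ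
    rw [hβ, mul_zero, add_zero] at hE₁ hE₃
    rw [hδ, mul_zero, add_zero] at hE₂
    rcases mul_eq_zero.1 hE₃ with h3 | h3
    · rw [h3, zero_mul] at hE₂
      exact zero_ne_one hE₂
    · rw [h3, mul_zero] at hE₁
      exact zero_ne_one hE₁
  have hν : D * a D = 1 := by
    have hE' : E = a D * α := by
      rw [hE, hδ, map_mul, hA, haa]
    have hB' : B = a D * γ := by
      rw [hB, hβ, map_mul, hC, haa]
    have h3 : A * α + C * γ = 1 := by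
      have h4 : D = D * (A * α + C * γ) := by
        conv_lhs => rw [hDdef, hδ, hβ]
        ring
      have h5 : D * (A * α + C * γ - 1) = 0 := by linear_combination -h4
      rcases mul_eq_zero.1 h5 with h6 | h6
      · exact (hD0 h6).elim
      · linear_combination h6
    set ν := D * a D with hν
    have h4 : A * α + ν * (C * γ) = 1 := by
      rw [hν]
      have h5 := hE₁
      rw [hB', hβ] at h5
      linear_combination h5
    have h5 : C * γ + ν * (A * α) = 1 := by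
      rw [hν]
      have h6 := hE₂
      rw [hE', hδ] at h6
      linear_combination h6
    have h6 : (ν - 1) * (A * α + C * γ) = 0 := by
      linear_combination h4 + h5 - 2 * h3 - (A * α + C * γ) * 0
    rw [h3, mul_one] at h6
    linear_combination h6
  have hD9 : D ^ 9 = 1 := by
    rw [ha8] at hν
    linear_combination hν
  refine ⟨D ^ 5, by rw [← pow_mul, mul_comm, pow_mul, hD9, one_pow], ?_⟩
  set c := D ^ 5 with hc
  have hc2 : c ^ 2 = D := by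
    rw [hc, ← pow_mul, show 5 * 2 = 9 + 1 from rfl, pow_succ, hD9, one_mul]
  have hc9 : c ^ 9 = 1 := by rw [hc, ← pow_mul, mul_comm, pow_mul, hD9, one_pow]
  have hca : c * a c = 1 := by
    rw [ha8, ← pow_succ']
    exact hc9
  intro p
  set p' := τ p with hp'
  have hτa : τ (a p) = a p' := by
    rw [ha8, ha8, map_pow]
  set X := p' * α + a p' * γ with hX
  have haX : a X = a p' * A + p' * C := by
    rw [hX, map_add, map_mul, map_mul, haa]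
  refine ⟨a c * X, ?_⟩
  simp only [vv]
  rw [Matrix.mulVec_add, hτ, hτ, hb₁, hb₂, ← hp', hτa, act_add_right, act_add_right, act_add_right, ← act_mul, ← act_mul, ← act_mul,
    ← act_mul, ← act_mul, ← act_mul, map_mul, haa]
  have e1 : p' * α + a p' * γ = c * (a c * X) := by
    rw [← mul_assoc, hca, one_mul]
  have e2 : p' * β + a p' * δ = c * (c * a X) := by
    rw [← mul_assoc, ← pow_two, hc2, haX]
    linear_combination p' * hβ + a p' * hδ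
  have e3 : act ρ (p' * α) u₁ + act ρ (p' * β) u₂ + (act ρ (a p' * γ) u₁ + act ρ (a p' * δ) u₂) =
      act ρ (p' * α + a p' * γ) u₁ + act ρ (p' * β + a p' * δ) u₂ := by
    rw [act_add, act_add]
    abel
  rw [e3, e1, e2]

end inv

end Cfsg.Agent.Lib.CmaxX.U6Field3
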