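/-
`SU₆(2)`, field normaliser: determinants, and the overgroup.
-/
import Cfsg.Agent.Lib.CmaxX.U6Field3

set_option autoImplicit false
set_option linter.unusedSectionVars false
set_option linter.unusedVariables false
set_option linter.style.haveILetI false
set_option maxHeartbeats 1000000

namespace Cfsg.Agent.Lib.CmaxX.U6Field4

open Matrix Module Cfsg Cfsg.Geo Cfsg.Agent.Lib.Geo.Basic Cfsg.Agent.Lib.Geo.UnitaryInSL Cfsg.Agent.Lib.Geo.SUGen
open Cfsg.Agent.Lib.NotMax.SetStab Cfsg.Agent.Lib.NotMax.SU2 Cfsg.Agent.Lib.CmaxX.Dual Cfsg.Agent.Lib.CmaxU.Proper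
open Cfsg.Agent.Lib.CmaxX.U6Field Cfsg.Agent.Lib.CmaxX.U6Field2 Cfsg.Agent.Lib.CmaxX.U6Field3
open scoped MatrixGroups

variable {F : Type*} [Field F] [Fintype F]

local notation "f" => hermForm 6 F 2

variable {L : Type*} [Field L] [Algebra F L]
  (ρ : L →ₐ[F] Matrix (Fin 6) (Fin 6) F)
  (hF : Fintype.card F = 4) (hF' : Fintype.card F = 2 ^ 2) (a : L →+* L)
  (hadj : ∀ (k : L) (u v : Fin 6 → F), hermForm 6 F 2 (act ρ k u) v = hermForm 6 F 2 u (act ρ (a k) v))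
  (haa : ∀ k, a (a k) = k)
  (ha8 : ∀ k, a k = k ^ 8)
  (hL3 : Module.finrank F L = 3)
  (ζ : L) (ω : F) (hζ3 : ζ ^ 3 = algebraMap F L ω) (hω1 : ω ≠ 1) (hω0 : ω ≠ 0)
  (u₁ u₂ : Fin 6 → F)
  (h₁₁ : TT ρ u₁ (1 : L) = 1) (h₁₂ : TT ρ u₁ ζ = 0) (h₁₃ : TT ρ u₁ (ζ ^ 2) = 0)
  (h₂₁ : TT ρ u₂ (1 : L) = 1) (h₂₂ : TT ρ u₂ ζ = 0) (h₂₃ : TT ρ u₂ (ζ ^ 2) = 0)
  (hperp : ∀ l m : L, hermForm 6 F 2 (act ρ l u₂) (act ρ m u₁) = 0)

/-- The six elements of the form. -/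
def PP (ζ : L) (ω : F) : Fin 6 → L := ![1, ζ, ζ ^ 2, algebraMap F L ω, algebraMap F L ω * ζ, algebraMap F L ω * ζ ^ 2]

section

include hF hadj haa ha8 hL3 hζ3 hω1 hω0 h₁₁ h₁₂ h₁₃ h₂₁ h₂₂ h₂₃ hperp

theorem det_B : (cols fun i => vv ρ a u₁ u₂ (PP ζ ω i)).det ≠ 0 := by
  have hω2 := omega_eq hF ω hω1 hω0
  have hF2 := two_zero hF
  have hw3 := w_cube (L := L) hF ω hω0
  have hz := a_zeta hF a ha8 ζ ω hζ3 hω0
  have hz' := a_zeta2 hF a ha8 ζ ω hζ3 hω0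
  intro h0
  obtain ⟨n, hn0, hn⟩ := Matrix.exists_mulVec_eq_zero_iff.2 h0
  rw [cols_mulVec, Fin.sum_univ_six] at hn
  simp only [PP, Matrix.cons_val_zero, Matrix.cons_val_one, Matrix.cons_val, vv] at hn
  set w := algebraMap F L ω with hw
  have haw : a w = w ^ 2 := by
    rw [ha8]
    linear_combination w ^ 2 * (w ^ 3 + 1) * hw3
  have hawz : a (w * ζ) = w * ζ ^ 2 := by
    rw [map_mul, haw, hz]
    linear_combination w * ζ ^ 2 * hw3
  have hawz2 : a (w * ζ ^ 2) = w * ζ := by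
    rw [map_mul, haw, hz']
    linear_combination w * ζ * hw3
  rw [hawz, hawz2, hz, hz', haw, _root_.map_one] at hn
  set P₁ : L := n 0 • 1 + n 1 • ζ + n 2 • ζ ^ 2 + n 3 • w + n 4 • (w * ζ) + n 5 • (w * ζ ^ 2) with hP₁
  set P₂ : L := n 0 • 1 + n 1 • (w ^ 2 * ζ ^ 2) + n 2 • (w ^ 2 * ζ) + n 3 • w ^ 2 + n 4 • (w * ζ ^ 2) + n 5 • (w * ζ) with hP₂
  have h1 : act ρ P₁ u₁ + act ρ P₂ u₂ = act ρ 0 u₁ + act ρ 0 u₂ := by
    rw [act_zero, act_zero, add_zero, ← hn, hP₁, hP₂]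
    simp only [act_add, act_smul, smul_add]
    abel
  obtain ⟨hp, hq⟩ := coord_unique ρ hF a hadj haa hL3 ζ ω hζ3 hω1 hω0 u₁ u₂ h₁₁ h₁₂ h₁₃ h₂₁ h₂₂ h₂₃ hperp h1
  have e1 := indep (L := L) hF ζ ω hζ3 hω1 hω0 (n 0 + ω * n 3) (n 1 + ω * n 4) (n 2 + ω * n 5) (by
    rw [hP₁] at hp
    simp only [Algebra.smul_def, mul_one] at hp
    simp only [map_add, map_mul, ← hw]
    linear_combination hp)
  have e2 := indep (L := L) hF ζ ω hζ3 hω1 hω0 (n 0 + ω ^ 2 * n 3) (ω ^ 2 * n 2 + ω * n 5) (ω ^ 2 * n 1 + ω * n 4) (by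
    rw [hP₂] at hq
    simp only [Algebra.smul_def, mul_one] at hq
    simp only [map_add, map_mul, map_pow, ← hw]
    linear_combination hq)
  obtain ⟨a1, a2, a3⟩ := e1
  obtain ⟨b1, b2, b3⟩ := e2
  have n3 : n 3 = 0 := by linear_combination a1 - b1 + n 3 * hω2 - (ω * n 3) * hF2
  have n0 : n 0 = 0 := by linear_combination a1 - ω * n3
  have hω3 := cube_eq_one hF hω0
  have n1 : n 1 = 0 := by
    linear_combination ω ^ 2 * (a2 - b3) - (ω ^ 2 * n 1) * hF2 + (ω ^ 2 * n 1) * hω2 - n 1 * hω3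
  have n2 : n 2 = 0 := by
    linear_combination ω ^ 2 * (a3 - b2) - (ω ^ 2 * n 2) * hF2 + (ω ^ 2 * n 2) * hω2 - n 2 * hω3
  have n4 : n 4 = 0 := by
    have : ω * n 4 = 0 := by linear_combination a2 - n1
    exact (mul_eq_zero.1 this).resolve_left hω0
  have n5 : n 5 = 0 := by
    have : ω * n 5 = 0 := by linear_combination a3 - n2
    exact (mul_eq_zero.1 this).resolve_left hω0
  apply hn0
  funext i
  fin_cases i
  · exact n0
  · exact n1
  · exact n2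
  · exact n3
  · exact n4
  · exact n5

theorem det_vv (hF' : Fintype.card F = 2 ^ 2) (g : Matrix (Fin 6) (Fin 6) F) (hg0 : g.det ≠ 0)
    (hg : ∀ p, ∃ p', g *ᵥ vv ρ a u₁ u₂ p = vv ρ a u₁ u₂ p') : g.det = 1 := by
  have hB := det_B ρ hF a hadj haa ha8 hL3 ζ ω hζ3 hω1 hω0 u₁ u₂ h₁₁ h₁₂ h₁₃ h₂₁ h₂₂ h₂₃ hperp
  set b : Fin 6 → Fin 6 → F := fun i => vv ρ a u₁ u₂ (PP ζ ω i) with hb
  have hstep : ∀ j, ∃ n : Fin 6 → F, (∀ i, n i ^ 2 = n i) ∧ g *ᵥ b j = ∑ i, n i • b i := by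
    intro j
    obtain ⟨p', hp'⟩ := hg (PP ζ ω j)
    obtain ⟨n, hn, hv⟩ := vv_basis ρ hF a ha8 hL3 ζ ω hζ3 hω1 hω0 u₁ u₂ p'
    refine ⟨n, hn, ?_⟩
    change g *ᵥ vv ρ a u₁ u₂ (PP ζ ω j) = _
    rw [hp', hv]
    refine Finset.sum_congr rfl fun i _ => ?_
    congr 1
    funext x
    fin_cases i <;> simp [hb, PP]
  choose n hn hgn using hstep
  let N : Matrix (Fin 6) (Fin 6) F := fun i j => n j i
  have h1 : g * cols b = cols b * N := by
    ext r j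
    have h2 := congrFun (hgn j) r
    rw [Matrix.mul_apply, Matrix.mul_apply]
    simp only [Matrix.mulVec, dotProduct, Finset.sum_apply, Pi.smul_apply, smul_eq_mul] at h2
    simp only [cols, N]
    rw [h2]
    exact Finset.sum_congr rfl fun k _ => mul_comm _ _
  have h3 := congrArg Matrix.det h1
  rw [Matrix.det_mul, Matrix.det_mul, mul_comm] at h3
  have h4 : g.det = N.det := mul_left_cancel₀ hB h3
  have h5 : N.det ^ 2 = N.det := by
    have h6 : N.map (frobEquiv hF' : F →+* F) = N := by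
      ext i j
      simp only [Matrix.map_apply]
      change (n j i) ^ 2 = n j i
      exact hn j i
    have h7 := RingHom.map_det (frobEquiv hF' : F →+* F) N
    have h8 : (frobEquiv hF' : F →+* F) N.det = N.det ^ 2 := rfl
    rw [h8] at h7
    rw [h7]
    change (N.map (frobEquiv hF' : F →+* F)).det = _
    rw [h6]
  rw [h4] at hg0 ⊢
  have h9 : N.det * (N.det - 1) = 0 := by linear_combination h5
  rcases mul_eq_zero.1 h9 with h10 | h10
  · exact (hg0 h10).elim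
  · linear_combination h10

theorem det_zeta (hF' : Fintype.card F = 2 ^ 2) : (ρ ζ).det = ω ^ 2 := by
  have hf := hermForm_isUnitary 6 hF'
  have hdual := frame_dual ρ hF hF' a hadj haa ha8 hL3 ζ ω hζ3 hω1 hω0 u₁ u₂ h₁₁ h₁₂ h₁₃ h₂₁ h₂₂ h₂₃ hperp
  let C : Matrix (Fin 6) (Fin 6) F :=
    !![0, 0, ω, 0, 0, 0; 1, 0, 0, 0, 0, 0; 0, 1, 0, 0, 0, 0; 0, 0, 0, 0, 0, ω; 0, 0, 0, 1, 0, 0; 0, 0, 0, 0, 1, 0]
  have hz2 : ∀ x, ρ ζ *ᵥ act ρ ζ x = act ρ (ζ ^ 2) x := by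
    intro x
    rw [pow_two, act_mul]
    rfl
  have hz3 : ∀ x, ρ ζ *ᵥ act ρ (ζ ^ 2) x = ω • x := by
    intro x
    rw [← act_algebraMap ρ ω x, ← hζ3, show ζ ^ 3 = ζ * ζ ^ 2 by ring, act_mul]
    rfl
  have h1 := det_eq hf hdual (ρ ζ) C (by
    intro j
    rw [Fin.sum_univ_six]
    fin_cases j <;> simp [C, hz2, hz3] <;> rfl)
  rw [h1]
  let π : Equiv.Perm (Fin 6) := ⟨![1, 2, 0, 4, 5, 3], ![2, 0, 1, 5, 3, 4], by decide, by decide⟩
  let ν : Fin 6 → F := ![1, 1, ω, 1, 1, ω]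
  have h4 : C = (Matrix.diagonal ν).submatrix π.symm id := by
    ext i j
    fin_cases i <;> fin_cases j <;> simp [C, ν, π, Matrix.diagonal_apply, Equiv.Perm.coe_mul]
  have h2 := two_zero hF
  have h8 : (((Equiv.Perm.sign π.symm : ℤˣ) : ℤ) : F) = 1 := by
    rcases Int.units_eq_one_or (Equiv.Perm.sign π.symm) with h9 | h9 <;> rw [h9]
    · simp
    · push_cast
      linear_combination -h2
  rw [h4, Matrix.det_permute, Matrix.det_diagonal, h8, one_mul, Fin.prod_univ_six]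
  simp [ν]
  ring

theorem inv2 (hF' : Fintype.card F = 2 ^ 2) (h : GL (Fin 6) F) (hiso : IsIso f h)
    (hdet : (h : Matrix (Fin 6) (Fin 6) F).det = 1) (τ : L →+* L)
    (hτ : ∀ k x, (h : Matrix (Fin 6) (Fin 6) F) *ᵥ act ρ k x = act ρ (τ k) ((h : Matrix (Fin 6) (Fin 6) F) *ᵥ x))
    (hτs : Function.Surjective τ) (hτc : ∀ c, τ (algebraMap F L c) = algebraMap F L c) :
    ∃ t : F, t ≠ 0 ∧ ∀ p, ∃ p', (h : Matrix (Fin 6) (Fin 6) F) *ᵥ vv ρ a u₁ u₂ p = t • vv ρ a u₁ u₂ p' := by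
  have hω2 := omega_eq hF ω hω1 hω0
  have hF2 := two_zero hF
  have hw2 := w_eq (L := L) hF ω hω1 hω0
  have hw3 := w_cube (L := L) hF ω hω0
  have hζ0 := zeta_ne ζ ω hζ3 hω0
  obtain ⟨c, hc9, hc⟩ := inv1 ρ hF hF' a hadj haa ha8 hL3 ζ ω hζ3 hω1 hω0 u₁ u₂ h₁₁ h₁₂ h₁₃ h₂₁ h₂₂ h₂₃ hperp h hiso τ hτ hτs hτc
  have hca : a c * c = 1 := by
    rw [ha8, ← pow_succ]
    exact hc9
  have hgm : ∀ g₁ g₂ : Matrix (Fin 6) (Fin 6) F, True := fun _ _ => trivial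
  have hdetmul : (ρ (a c)).det * (ρ c).det = 1 := by
    rw [← Matrix.det_mul, ← map_mul, hca, _root_.map_one, Matrix.det_one]
  have hdeta : (ρ (a c)).det ≠ 0 := left_ne_zero_of_mul_eq_one hdetmul
  have hg1 : (ρ (a c) * (h : Matrix (Fin 6) (Fin 6) F)).det = 1 := by
    refine det_vv ρ hF a hadj haa ha8 hL3 ζ ω hζ3 hω1 hω0 u₁ u₂ h₁₁ h₁₂ h₁₃ h₂₁ h₂₂ h₂₃ hperp hF' _ ?_ ?_
    · rw [Matrix.det_mul, hdet, mul_one]
      exact hdeta
    · intro p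
      obtain ⟨p', hp'⟩ := hc p
      refine ⟨p', ?_⟩
      rw [← Matrix.mulVec_mulVec, hp']
      change act ρ (a c) (act ρ c _) = _
      rw [← act_mul, hca, act_one]
  rw [Matrix.det_mul, hdet, mul_one] at hg1
  have hdc : (ρ c).det = 1 := by
    rw [hg1, one_mul] at hdetmul
    exact hdetmul
  have hζd := det_zeta ρ hF a hadj haa ha8 hL3 ζ ω hζ3 hω1 hω0 u₁ u₂ h₁₁ h₁₂ h₁₃ h₂₁ h₂₂ h₂₃ hperp hF'
  -- a scalar multiple of a matrix
  have hdetsc : ∀ (ε : F) (k : L), ε ≠ 0 → (ρ (algebraMap F L ε * k)).det = (ρ k).det := by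
    intro ε k hε
    rw [← Algebra.smul_def, map_smul, Matrix.det_smul, Fintype.card_fin]
    have : ε ^ 6 = 1 := by
      have h3 := cube_eq_one hF hε
      rw [show 6 = 3 * 2 from rfl, pow_mul, h3, one_pow]
    rw [this, one_mul]
  set w := algebraMap F L ω with hw
  have hfac : (c ^ 3 - 1) * (c ^ 3 - w) * (c ^ 3 - w ^ 2) = 0 := by
    linear_combination hc9 - ((c ^ 3) ^ 2 - c ^ 3) * hw2 + (c ^ 3 - 1) * hw3
  have hcase : c ^ 3 = 1 := by
    rcases mul_eq_zero.1 hfac with h1 | h1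
    · rcases mul_eq_zero.1 h1 with h1 | h1
      · linear_combination h1
      · -- the class of `ζ`
        exfalso
        have h3 : (c * ζ⁻¹) ^ 3 = 1 := by
          rw [mul_pow, inv_pow, hζ3]
          have : c ^ 3 = w := by linear_combination h1
          rw [this]
          exact mul_inv_cancel₀ (by rw [← hζ3]; exact pow_ne_zero _ hζ0)
        obtain ⟨ε, hε0, hε⟩ := cube_root hF ω hω1 hω0 h3
        have h4 : c = algebraMap F L ε * ζ := by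
          rw [← hε]
          field_simp
        rw [h4, hdetsc ε ζ hε0, hζd] at hdc
        have h5 : ω = 0 := by linear_combination hω2 - hdc - hF2
        exact hω0 h5
    · exfalso
      have h3 : (c * (ζ ^ 2)⁻¹) ^ 3 = 1 := by
        rw [mul_pow, inv_pow]
        have e1 : c ^ 3 = w ^ 2 := by linear_combination h1
        have e2 : (ζ ^ 2) ^ 3 = w ^ 2 := by
          rw [← hζ3]
          ring
        rw [e1, e2]
        exact mul_inv_cancel₀ (by rw [← e2]; exact pow_ne_zero _ (pow_ne_zero _ hζ0))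
      obtain ⟨ε, hε0, hε⟩ := cube_root hF ω hω1 hω0 h3
      have h4 : c = algebraMap F L ε * ζ ^ 2 := by
        rw [← hε]
        field_simp
      rw [h4, hdetsc ε _ hε0, map_pow, Matrix.det_pow, hζd] at hdc
      have h5 : ω = 1 := by
        have h6 := cube_eq_one hF hω0
        linear_combination hdc - ω * h6
      exact hω1 h5
  obtain ⟨t, ht0, ht⟩ := cube_root hF ω hω1 hω0 hcase
  refine ⟨t, ht0, ?_⟩
  intro p
  obtain ⟨p', hp'⟩ := hc p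
  refine ⟨p', ?_⟩
  rw [hp', ht, act_algebraMap]

end

end Cfsg.Agent.Lib.CmaxX.U6Field4
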