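/-
`SU₆(2)`: the normaliser of a field of degree three is not maximal.
-/
import Cfsg.Agent.Lib.CmaxX.U6Field4

set_option autoImplicit false
set_option linter.unusedSectionVars false
set_option linter.unusedVariables false
set_option linter.style.haveILetI false
set_option maxHeartbeats 1000000

namespace Cfsg.Agent.Lib.CmaxX.U6Field5

open Matrix Module Cfsg Cfsg.Geo Cfsg.Agent.Lib.Geo.Basic Cfsg.Agent.Lib.Geo.UnitaryInSL Cfsg.Agent.Lib.Geo.SUGen
open Cfsg.Agent.Lib.NotMax.SetStab Cfsg.Agent.Lib.NotMax.SU2 Cfsg.Agent.Lib.CmaxX.Dual Cfsg.Agent.Lib.CmaxU.Proper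
open Cfsg.Agent.Lib.CmaxX.U6Field Cfsg.Agent.Lib.CmaxX.U6Field2 Cfsg.Agent.Lib.CmaxX.U6Field3 Cfsg.Agent.Lib.CmaxX.U6Field4
open scoped MatrixGroups

variable {F : Type*} [Field F] [Fintype F]

local notation "f" => hermForm 6 F 2

section abstract

variable {L : Type*} [Field L] [Algebra F L]
  (ρ : L →ₐ[F] Matrix (Fin 6) (Fin 6) F)
  (hF : Fintype.card F = 4) (hF' : Fintype.card F = 2 ^ 2) (a : L →+* L)
  (hadj : ∀ (k : L) (u v : Fin 6 → F), hermForm 6 F 2 (act ρ k u) v = hermForm 6 F 2 u (act ρ (a k) v))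
  (haa : ∀ k, a (a k) = k)
  (ha8 : ∀ k, a k = k ^ 8)
  (hL3 : Module.finrank F L = 3)
  (ζ : L) (ω : F) (hζ3 : ζ ^ 3 = algebraMap F L ω) (hω1 : ω ≠ 1) (hω0 : ω ≠ 0)

include hF hF' hadj haa ha8 hL3 hζ3 hω1 hω0 in
theorem not_max_abstract (H : Subgroup (GL (Fin 6) F)) (hHSU : H ≤ GU 6 F 2 ⊓ specialLinear (Fin 6) F)
    (hN : ∀ h ∈ H, ∃ τ : L →+* L,
      (∀ k x, (h : Matrix (Fin 6) (Fin 6) F) *ᵥ act ρ k x = act ρ (τ k) ((h : Matrix (Fin 6) (Fin 6) F) *ᵥ x)) ∧
      Function.Surjective τ ∧ ∀ c, τ (algebraMap F L c) = algebraMap F L c) :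
    ∃ Y : Subgroup (GL (Fin 6) F), H < Y ∧ Y < GU 6 F 2 ⊓ specialLinear (Fin 6) F := by
  have hF2 := two_zero hF
  have h2L := two_L (L := L) hF
  obtain ⟨u₁, u₂, h₁₁, h₁₂, h₁₃, h₂₁, h₂₂, h₂₃, hperp⟩ :=
    exists_frame ρ hF hF' a hadj haa ha8 hL3 ζ ω hζ3 hω1 hω0
  have hf : IsUnitaryForm (frobEquiv hF') f := hermForm_isUnitary 6 hF'
  set I := GU 6 F 2 ⊓ specialLinear (Fin 6) F with hIdef
  have hS : ∀ g : GL (Fin 6) F, g ∈ I ↔ IsIso f g ∧ (g : Matrix (Fin 6) (Fin 6) F).det = 1 := by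
    intro g
    rw [hIdef, Subgroup.mem_inf, mem_GU_iff, mem_specialLinear_iff]
    rfl
  have hI : ∀ g : GL (Fin 6) F, IsIso f g → (g : Matrix (Fin 6) (Fin 6) F).det = 1 → g ∈ I :=
    fun g h1 h2 => (hS g).2 ⟨h1, h2⟩
  have hff := ff ρ hF a hadj haa hL3 ζ ω hζ3 hω1 hω0 u₁ u₂ h₁₁ h₁₂ h₁₃ h₂₁ h₂₂ h₂₃ hperp
  have hcu := @coord_unique _ _ _ _ _ _ ρ hF a hadj haa hL3 ζ ω hζ3 hω1 hω0 u₁ u₂ h₁₁ h₁₂ h₁₃ h₂₁ h₂₂ h₂₃ hperp
  have hone : (1 : F) + (frobEquiv hF') 1 = 0 := by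
    rw [_root_.map_one]
    linear_combination hF2
  let vv₀ := vv ρ a u₁ u₂
  let S₀ : Set (Fin 6 → F) := {x | ∃ t : F, t ≠ 0 ∧ ∃ p, x = t • vv₀ p}
  have hvv1 : vv₀ 1 = act ρ 1 u₁ + act ρ 1 u₂ := by
    change act ρ 1 u₁ + act ρ (a 1) u₂ = _
    rw [_root_.map_one]
  have hisoV : f (vv₀ 1) (vv₀ 1) = 0 := by
    rw [hvv1, hff, _root_.map_one, one_mul, show (1 : L) + 1 = 2 by norm_num, h2L]
    exact TT_zero ρ u₁
  let V' : Fin 6 → F := act ρ 1 u₁ + act ρ ζ u₂
  have hζ9 := zeta_nine hF ζ ω hζ3 hω0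
  have haζ : a ζ * ζ = 1 := by
    rw [ha8, ← pow_succ]
    exact hζ9
  have hisoV' : f V' V' = 0 := by
    simp only [V']
    rw [hff, _root_.map_one, one_mul, haζ, show (1 : L) + 1 = 2 by norm_num, h2L]
    exact TT_zero ρ u₁
  refine not_maximal_of_set S₀ hHSU ?_ (uT hf (vv₀ 1) 1 hisoV) (uT_mem_I hf hI _ 1 hisoV hone) ?_ ?_
    (uT hf V' 1 hisoV') (uT_mem_I hf hI _ 1 hisoV' hone) (vv₀ 1) ⟨1, one_ne_zero, 1, by rw [one_smul]⟩ ?_
  · -- the normaliser preserves the set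
    rintro h hh x ⟨t, ht, p, rfl⟩
    obtain ⟨τ, hτ, hτs, hτc⟩ := hN h hh
    have hhI := (hS h).1 (hHSU hh)
    obtain ⟨t', ht', hp⟩ := inv2 ρ hF a hadj haa ha8 hL3 ζ ω hζ3 hω1 hω0 u₁ u₂ h₁₁ h₁₂ h₁₃ h₂₁ h₂₂ h₂₃ hperp hF' h hhI.1 hhI.2 τ hτ hτs hτc
    obtain ⟨p', hp'⟩ := hp p
    refine ⟨t * t', mul_ne_zero ht ht', p', ?_⟩
    rw [Matrix.mulVec_smul, mul_smul]
    exact congrArg (fun y => t • y) hp'
  · -- the symplectic transvection preserves the set
    rintro x ⟨t, ht, p, rfl⟩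
    rw [uT_mulVec, one_smul, f_smul_left]
    have hval : f (vv₀ p) (vv₀ 1) = TT ρ u₁ p + (TT ρ u₁ p) ^ 2 := by
      rw [hvv1]
      change f (act ρ p u₁ + act ρ (a p) u₂) _ = _
      rw [hff, _root_.map_one, one_mul, one_mul, TT_add, TT_adj ρ hF a hadj haa]
    set y := TT ρ u₁ p with hy
    have hy4 := pow_four hF y
    rw [hval]
    have he : (y + y ^ 2) * (y + y ^ 2 - 1) = 0 := by
      linear_combination hy4 + y ^ 3 * hF2
    rcases mul_eq_zero.1 he with h0 | h1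
    · rw [h0, mul_zero, zero_smul, add_zero]
      exact ⟨t, ht, p, rfl⟩
    · have h1' : y + y ^ 2 = 1 := by linear_combination h1
      rw [h1', mul_one]
      refine ⟨t, ht, p + 1, ?_⟩
      rw [← smul_add]
      congr 1
      exact (vv_add ρ a u₁ u₂ p 1).symm
  · -- the transvection does not normalise
    intro hw
    obtain ⟨τ, hτ, -, -⟩ := hN _ hw
    have e1 := hτ ζ u₁
    have e2 : f (act ρ ζ u₁) (vv₀ 1) = 0 := by
      have h3 := hff ζ 0 1 1
      rw [act_zero, add_zero, _root_.map_one, one_mul, mul_zero, add_zero] at h3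
      rw [hvv1, h3]
      exact h₁₂
    have e3 : f u₁ (vv₀ 1) = 1 := by
      have h3 := hff 1 0 1 1
      rw [act_zero, add_zero, _root_.map_one, one_mul, mul_zero, add_zero, h₁₁] at h3
      rw [hvv1]
      have h4 : act ρ 1 u₁ = u₁ := act_one ρ u₁
      rw [h4] at h3
      rw [h4]
      exact h3
    rw [uT_mulVec, uT_mulVec, e2, e3, zero_smul, add_zero, one_smul, one_smul, hvv1, act_one, act_one] at e1
    have e4 : u₁ + (u₁ + u₂) = u₂ := by
      funext i
      simp only [Pi.add_apply]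
      linear_combination (u₁ i) * hF2
    rw [e4] at e1
    have e5 : act ρ ζ u₁ + act ρ 0 u₂ = act ρ 0 u₁ + act ρ (τ ζ) u₂ := by
      rw [act_zero, act_zero, add_zero, zero_add]
      exact e1
    exact zeta_ne ζ ω hζ3 hω0 (hcu e5).1
  · -- the other transvection moves the set
    rintro ⟨t, ht, p, hx⟩
    rw [uT_mulVec, one_smul] at hx
    have e1 : f (vv₀ 1) V' = 1 := by
      rw [hvv1]
      simp only [V']
      rw [hff, _root_.map_one, mul_one, mul_one, TT_add, TT_adj ρ hF a hadj haa, h₁₁, h₁₂]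
      norm_num
    rw [e1, one_smul, hvv1] at hx
    simp only [V'] at hx
    have e2 : act ρ 1 u₁ + act ρ 1 u₂ + (act ρ 1 u₁ + act ρ ζ u₂) = act ρ 0 u₁ + act ρ (1 + ζ) u₂ := by
      rw [act_zero, act_add]
      funext i
      simp only [Pi.add_apply, Pi.zero_apply]
      linear_combination ((act ρ 1 u₁) i) * hF2
    rw [e2] at hx
    have e3 : t • vv₀ p = act ρ (t • p) u₁ + act ρ (t • a p) u₂ := by
      simp only [vv₀, vv, act_smul, smul_add]
    rw [e3] at hx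
    obtain ⟨e4, e5⟩ := hcu hx
    have hp0 : p = 0 := by
      have := e4.symm
      exact (smul_eq_zero.1 this).resolve_left ht
    rw [hp0, _root_.map_zero, smul_zero] at e5
    have hz1 : ζ = 1 := by linear_combination e5 - h2L
    apply hω1
    apply (algebraMap F L).injective
    rw [_root_.map_one, ← hζ3, hz1, one_pow]

end abstract

/-- The adjoint on a field of degree `3` over `𝔽₄` is the power map. -/
theorem adj_eq_pow3 {E L : Type*} [Field E] [Fintype E] [Field L] [Algebra E L] [FiniteDimensional E L]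
    (hE : Fintype.card E = 4) (hL : Module.finrank E L = 3) (a : L →+* L) (haa : ∀ x, a (a x) = x)
    (hac : ∀ c : E, a (algebraMap E L c) = algebraMap E L (c ^ 2)) (x : L) : a x = x ^ 8 := by
  classical
  haveI : Finite L := Module.finite_of_finite E
  haveI : Fintype L := Fintype.ofFinite L
  have hcardL : Fintype.card L = 64 := by
    have := Module.card_eq_pow_finrank (K := E) (V := L)
    rw [this, hE, hL]
    norm_num
  have h2E : (2 : E) = 0 := Cfsg.Agent.Lib.NotMax.SU2.two_zero hE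
  have h2L : (2 : L) = 0 := by
    have h3 := congrArg (algebraMap E L) h2E
    rw [map_zero, map_ofNat] at h3
    exact h3
  haveI : CharP L 2 := by
    obtain ⟨p, hp⟩ := CharP.exists L
    have h3 : ((2 : ℕ) : L) = 0 := by exact_mod_cast h2L
    have h4 := (CharP.cast_eq_zero_iff L p 2).1 h3
    have h5 : p.Prime := CharP.char_is_prime L p
    have h6 : p = 2 := (Nat.prime_dvd_prime_iff_eq h5 Nat.prime_two).1 h4
    rw [h6] at hp
    exact hp
  haveI : Fact (Nat.Prime 2) := ⟨Nat.prime_two⟩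
  let φ : L →+* L := iterateFrobenius L 2 3
  have hφ : ∀ y, φ y = y ^ 8 := fun y => by
    change (iterateFrobenius L 2 3) y = _
    rw [iterateFrobenius_def]
    norm_num
  have hc4 : ∀ c : E, c ^ 4 = c := fun c => by
    have := FiniteField.pow_card c
    rwa [hE] at this
  let bR : L →+* L := a.comp φ
  have hb : ∀ y, bR y = a (y ^ 8) := fun y => by
    change a (φ y) = _
    rw [hφ]
  have hbc : ∀ c : E, bR (algebraMap E L c) = algebraMap E L c := by
    intro c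
    rw [hb, ← map_pow, hac]
    congr 1
    have h1 : (c ^ 8) ^ 2 = (c ^ 4) ^ 4 := by ring
    rw [h1, hc4, hc4]
  let bA : L →ₐ[E] L := { bR with commutes' := hbc }
  have hbA : ∀ y, bA y = a (y ^ 8) := hb
  have hp : ∀ y : L, y ^ 64 = y := fun y => by
    have := FiniteField.pow_card y
    rwa [hcardL] at this
  have hbb : ∀ y, bA (bA y) = y := by
    intro y
    rw [hbA, hbA, ← map_pow, haa, ← pow_mul]
    exact hp y
  let bE : L ≃ₐ[E] L := AlgEquiv.ofAlgHom bA bA (AlgHom.ext hbb) (AlgHom.ext hbb)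
  have hbE : ∀ y, bE y = bA y := fun y => rfl
  have hcard : Nat.card (L ≃ₐ[E] L) = 3 := by
    rw [IsGalois.card_aut_eq_finrank, hL]
  have h5 : bE ^ 3 = 1 := by
    have := pow_card_eq_one' (x := bE)
    rwa [hcard] at this
  have h2 : bE ^ 2 = 1 := by
    ext y
    change bE (bE y) = y
    rw [hbE, hbE]
    exact hbb y
  have h1 : bE = 1 := by
    calc bE = bE ^ 3 * (bE ^ 2)⁻¹ := by group
      _ = 1 := by rw [h5, h2]; simp
  have h3 : a (x ^ 8) = x := by
    have := congrArg (fun t : L ≃ₐ[E] L => t x) h1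
    simpa [hbE, hbA] using this
  calc a x = a (a (x ^ 8)) := by rw [h3]
    _ = x ^ 8 := haa _

section field

variable {K : Subalgebra F (Matrix (Fin 6) (Fin 6) F)}

theorem isField_of (hK : IsFieldSubalgebra 3 K) : IsField K where
  exists_pair_ne := exists_pair_ne K
  mul_comm := fun x y => Subtype.ext (hK.comm _ x.2 _ y.2)
  mul_inv_cancel := by
    intro x hx
    obtain ⟨y, hy, hxy⟩ := hK.inv x.1 x.2 (fun h => hx (Subtype.ext h))
    exact ⟨⟨y, hy⟩, Subtype.ext hxy⟩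

/-- A non-degeneracy consequence: adjoints are unique. -/
theorem adj_unique (hF : Fintype.card F = 4) {k₁ k₂ : Matrix (Fin 6) (Fin 6) F}
    (h : ∀ u v, f u (k₁ *ᵥ v) = f u (k₂ *ᵥ v)) : k₁ = k₂ := by
  have hu := hermForm_isUnitary 6 (by rw [hF]; norm_num : Fintype.card F = 2 ^ 2)
  apply Matrix.mulVec_injective
  funext v
  by_contra hne
  have h0 : k₁ *ᵥ v - k₂ *ᵥ v ≠ 0 := sub_ne_zero.2 hne
  obtain ⟨⟨x, hx⟩, -⟩ := hu.nondegenerate _ h0
  apply hx
  have h1 : k₁ *ᵥ v = (k₁ *ᵥ v - k₂ *ᵥ v) + k₂ *ᵥ v := by abel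
  have h2 := h x v
  rw [h1, f_add_right hF] at h2
  have h3 : ∀ a b : F, a + b = b → a = 0 := by
    intro a b hab
    simpa using hab
  exact h3 _ _ h2

/-- **The normaliser of a field of degree three is not maximal in `SU₆(2)`.** -/
theorem field3 (hF' : Fintype.card F = 2 ^ 2) (hK : IsFieldSubalgebra 3 K) (hcl : IsAdjointClosedFor (hermForm 6 F 2) K) :
    ∃ Y : Subgroup (GL (Fin 6) F), subalgebraNormalizer K ⊓ (GU 6 F 2 ⊓ specialLinear (Fin 6) F) < Y ∧
      Y < GU 6 F 2 ⊓ specialLinear (Fin 6) F := by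
  classical
  have hF : Fintype.card F = 4 := by rw [hF']; norm_num
  letI fld : Field K := (isField_of hK).toField
  haveI : Finite K := inferInstance
  haveI : FiniteDimensional F K := Module.Finite.of_finite
  letI : Fintype K := Fintype.ofFinite K
  have hcard : Fintype.card K = 64 := by
    rw [Module.card_eq_pow_finrank (K := F) (V := K), hK.finrank_eq, hF]
    norm_num
  choose adj hadjK hadj using fun k : K => hcl k.1 k.2
  let a : K → K := fun k => ⟨adj k, hadjK k⟩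
  have ha_spec : ∀ (k : K) u v, f (k.1 *ᵥ u) v = f u ((a k).1 *ᵥ v) := hadj
  have a_unique : ∀ k k' : K, (∀ u v, f (k.1 *ᵥ u) v = f u (k'.1 *ᵥ v)) → a k = k' := by
    intro k k' h
    apply Subtype.ext
    apply adj_unique hF
    intro u v
    rw [← ha_spec, h]
  let aR : K →+* K :=
    { toFun := a
      map_one' := a_unique 1 1 (fun u v => by
        change f ((1 : Matrix (Fin 6) (Fin 6) F) *ᵥ u) v = f u ((1 : Matrix (Fin 6) (Fin 6) F) *ᵥ v)
        simp)
      map_mul' := fun x y => a_unique (x * y) (a x * a y) (fun u v => by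
        have h1 : ((x * y : K) : Matrix (Fin 6) (Fin 6) F) = x.1 * y.1 := rfl
        have h2 : ((a x * a y : K) : Matrix (Fin 6) (Fin 6) F) = (a y).1 * (a x).1 := hK.comm _ (a x).2 _ (a y).2
        rw [h1, h2, ← Matrix.mulVec_mulVec, ← Matrix.mulVec_mulVec, ha_spec, ha_spec])
      map_zero' := a_unique 0 0 (fun u v => by
        change f ((0 : Matrix (Fin 6) (Fin 6) F) *ᵥ u) v = f u ((0 : Matrix (Fin 6) (Fin 6) F) *ᵥ v)
        simp [hermForm, Matrix.zero_mulVec])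
      map_add' := fun x y => a_unique (x + y) (a x + a y) (fun u v => by
        have h1 : ((x + y : K) : Matrix (Fin 6) (Fin 6) F) = x.1 + y.1 := rfl
        have h2 : ((a x + a y : K) : Matrix (Fin 6) (Fin 6) F) = (a x).1 + (a y).1 := rfl
        rw [h1, h2, Matrix.add_mulVec, Matrix.add_mulVec, f_add_left, f_add_right hF, ha_spec, ha_spec]) }
  have hA : ∀ x, aR x = a x := fun x => rfl
  have haa : ∀ x, aR (aR x) = x := by
    intro x
    rw [hA, hA]
    apply a_unique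
    intro u v
    rw [f_symm hF v, ← ha_spec, ← f_symm hF]
  have hac : ∀ c : F, aR (algebraMap F K c) = algebraMap F K (c ^ 2) := by
    intro c
    rw [hA]
    apply a_unique
    intro u v
    have h1 : ((algebraMap F K c : K) : Matrix (Fin 6) (Fin 6) F) = algebraMap F _ c := rfl
    have h2 : ((algebraMap F K (c ^ 2) : K) : Matrix (Fin 6) (Fin 6) F) = algebraMap F _ (c ^ 2) := rfl
    rw [h1, h2, Algebra.algebraMap_eq_smul_one, Algebra.algebraMap_eq_smul_one, Matrix.smul_mulVec, Matrix.smul_mulVec,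
      Matrix.one_mulVec, Matrix.one_mulVec, f_smul_left, f_smul_right]
    congr 1
    have := pow_four hF c
    rw [← pow_mul]
    exact this.symm
  have h8 : ∀ x : K, aR x = x ^ 8 := adj_eq_pow3 hF hK.finrank_eq aR haa hac
  let ρ : K →ₐ[F] Matrix (Fin 6) (Fin 6) F := K.val
  have hadj' : ∀ (k : K) (u v : Fin 6 → F), hermForm 6 F 2 (act ρ k u) v = hermForm 6 F 2 u (act ρ (aR k) v) := ha_spec
  -- an element of order nine
  obtain ⟨ω₀, hω₀0, hω₀1⟩ : ∃ ω : F, ω ≠ 0 ∧ ω ≠ 1 := by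
    by_contra hne
    push Not at hne
    have hsub : (Finset.univ : Finset F) ⊆ {0, 1} := by
      intro x _
      by_cases hx : x = 0
      · simp [hx]
      · simp [hne x hx]
    have := Finset.card_le_card hsub
    rw [Finset.card_univ, hF] at this
    have h3 := Finset.card_le_two (a := (0 : F)) (b := 1)
    omega
  obtain ⟨g, hg⟩ := IsCyclic.exists_generator (α := Kˣ)
  have hord : orderOf g = 63 := by
    rw [orderOf_eq_card_of_forall_mem_zpowers hg, Nat.card_units, Nat.card_eq_fintype_card, hcard]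
  have hz1 : ((g ^ 7 : Kˣ) : K) ^ 3 ≠ 1 := by
    intro h
    have h3 : g ^ 21 = 1 := by
      apply Units.ext
      rw [Units.val_pow_eq_pow_val, Units.val_one]
      rw [Units.val_pow_eq_pow_val, ← pow_mul] at h
      exact h
    have := orderOf_dvd_of_pow_eq_one h3
    rw [hord] at this
    omega
  have hz3 : (((g ^ 7 : Kˣ) : K) ^ 3) ^ 3 = 1 := by
    rw [Units.val_pow_eq_pow_val, ← pow_mul, ← pow_mul, ← Units.val_pow_eq_pow_val, show 7 * 3 * 3 = 63 from rfl, ← hord,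
      pow_orderOf_eq_one, Units.val_one]
  obtain ⟨ω, hω0, hω⟩ := cube_root hF ω₀ hω₀1 hω₀0 hz3
  have hω1 : ω ≠ 1 := by
    rintro rfl
    rw [_root_.map_one] at hω
    exact hz1 hω
  refine not_max_abstract ρ hF hF' aR hadj' haa h8 hK.finrank_eq _ ω hω hω1 hω0 _ inf_le_right ?_
  rintro h ⟨hh, -⟩
  have hmem : ∀ k : K, (h : Matrix (Fin 6) (Fin 6) F) * k.1 * ((h⁻¹ : GL (Fin 6) F) : Matrix (Fin 6) (Fin 6) F) ∈ K :=
    fun k => (hh k.1).1 k.2
  have hmem' : ∀ k : K, ((h⁻¹ : GL (Fin 6) F) : Matrix (Fin 6) (Fin 6) F) * k.1 * (h : Matrix (Fin 6) (Fin 6) F) ∈ K := by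
    intro k
    refine (hh _).2 ?_
    have e1 : (h : Matrix (Fin 6) (Fin 6) F) * (((h⁻¹ : GL (Fin 6) F) : Matrix (Fin 6) (Fin 6) F) * k.1 * (h : Matrix (Fin 6) (Fin 6) F)) *
        ((h⁻¹ : GL (Fin 6) F) : Matrix (Fin 6) (Fin 6) F) = k.1 := by
      simp [mul_assoc]
    rw [e1]
    exact k.2
  have hin : ((h⁻¹ : GL (Fin 6) F) : Matrix (Fin 6) (Fin 6) F) * (h : Matrix (Fin 6) (Fin 6) F) = 1 := by simp
  let τ : K →+* K :=
    { toFun := fun k => ⟨_, hmem k⟩
      map_one' := Subtype.ext (by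
        change (h : Matrix (Fin 6) (Fin 6) F) * 1 * ((h⁻¹ : GL (Fin 6) F) : Matrix (Fin 6) (Fin 6) F) = 1
        simp)
      map_mul' := fun x y => Subtype.ext (by
        change (h : Matrix (Fin 6) (Fin 6) F) * (x.1 * y.1) * ((h⁻¹ : GL (Fin 6) F) : Matrix (Fin 6) (Fin 6) F) =
          ((h : Matrix (Fin 6) (Fin 6) F) * x.1 * ((h⁻¹ : GL (Fin 6) F) : Matrix (Fin 6) (Fin 6) F)) *
            ((h : Matrix (Fin 6) (Fin 6) F) * y.1 * ((h⁻¹ : GL (Fin 6) F) : Matrix (Fin 6) (Fin 6) F))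
        simp [mul_assoc])
      map_zero' := Subtype.ext (by
        change (h : Matrix (Fin 6) (Fin 6) F) * 0 * ((h⁻¹ : GL (Fin 6) F) : Matrix (Fin 6) (Fin 6) F) = 0
        simp)
      map_add' := fun x y => Subtype.ext (by
        change (h : Matrix (Fin 6) (Fin 6) F) * (x.1 + y.1) * ((h⁻¹ : GL (Fin 6) F) : Matrix (Fin 6) (Fin 6) F) =
          ((h : Matrix (Fin 6) (Fin 6) F) * x.1 * ((h⁻¹ : GL (Fin 6) F) : Matrix (Fin 6) (Fin 6) F)) +
            ((h : Matrix (Fin 6) (Fin 6) F) * y.1 * ((h⁻¹ : GL (Fin 6) F) : Matrix (Fin 6) (Fin 6) F))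
        simp [mul_add, add_mul]) }
  refine ⟨τ, ?_, ?_, ?_⟩
  · intro k x
    change (h : Matrix (Fin 6) (Fin 6) F) *ᵥ (k.1 *ᵥ x) =
      ((h : Matrix (Fin 6) (Fin 6) F) * k.1 * ((h⁻¹ : GL (Fin 6) F) : Matrix (Fin 6) (Fin 6) F)) *ᵥ ((h : Matrix (Fin 6) (Fin 6) F) *ᵥ x)
    rw [Matrix.mulVec_mulVec, Matrix.mulVec_mulVec]
    congr 1
    simp [mul_assoc]
  · intro k
    refine ⟨⟨_, hmem' k⟩, Subtype.ext ?_⟩
    change (h : Matrix (Fin 6) (Fin 6) F) * (((h⁻¹ : GL (Fin 6) F) : Matrix (Fin 6) (Fin 6) F) * k.1 * (h : Matrix (Fin 6) (Fin 6) F)) *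
        ((h⁻¹ : GL (Fin 6) F) : Matrix (Fin 6) (Fin 6) F) = k.1
    simp [mul_assoc]
  · intro c
    apply Subtype.ext
    change (h : Matrix (Fin 6) (Fin 6) F) * algebraMap F _ c * ((h⁻¹ : GL (Fin 6) F) : Matrix (Fin 6) (Fin 6) F) = algebraMap F _ c
    rw [Algebra.algebraMap_eq_smul_one]
    simp

end field

end Cfsg.Agent.Lib.CmaxX.U6Field5
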