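/-
`SU₆(2)`: the stabiliser of an orthogonal frame is not maximal, it lies in `U₄(3).2`.
-/
import Cfsg.Agent.Lib.CmaxX.Dual
import Cfsg.Agent.Lib.NotMax.SU2
import Cfsg.Agent.Lib.PrimeGraph.G24Field

set_option autoImplicit false
set_option linter.unusedSectionVars false
set_option linter.unusedVariables false
set_option linter.style.haveILetI false
set_option maxHeartbeats 2000000
set_option maxRecDepth 100000

namespace Cfsg.Agent.Lib.CmaxX.U6Frame

open Matrix Module Cfsg Cfsg.Geo Cfsg.Agent.Lib.Geo.Basic Cfsg.Agent.Lib.Geo.UnitaryInSL Cfsg.Agent.Lib.Geo.SUGen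
open Cfsg.Agent.Lib.NotMax.SetStab Cfsg.Agent.Lib.NotMax.SU2 Cfsg.Agent.Lib.CmaxX.Dual Cfsg.Agent.Lib.CmaxU.Proper
open Cfsg.Agent.Lib.PrimeGraph.G24Field
open scoped MatrixGroups

/-- Weight two, or product one. -/
def Pr {E : Type*} [Field E] [DecidableEq E] (ξ : Fin 6 → E) : Prop :=
  (Finset.univ.filter fun i => ξ i ≠ 0).card = 2 ∨ ∏ i, ξ i = 1

instance {E : Type*} [Field E] [DecidableEq E] (ξ : Fin 6 → E) : Decidable (Pr ξ) := by
  unfold Pr
  infer_instance

/-- The transvection by the all-ones vector, in coordinates. -/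
def TT {E : Type*} [Field E] (ξ : Fin 6 → E) : Fin 6 → E := fun i => ξ i + ∑ j, ξ j

theorem TT_K4 : ∀ a b c d e f : K4, Pr ![a, b, c, d, e, f] → Pr (TT ![a, b, c, d, e, f]) := by
  decide +kernel

variable {F : Type*} [Field F] [Fintype F] [DecidableEq F]

theorem Pr_map (ψ : K4 ≃+* F) (ξ : Fin 6 → K4) : Pr (ψ ∘ ξ) ↔ Pr ξ := by
  unfold Pr
  have h1 : (Finset.univ.filter fun i => (ψ ∘ ξ) i ≠ 0) = Finset.univ.filter fun i => ξ i ≠ 0 := by
    ext i
    simp
  have h2 : ∏ i, (ψ ∘ ξ) i = ψ (∏ i, ξ i) := by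
    rw [map_prod]
    rfl
  rw [h1, h2]
  constructor
  · rintro (h | h)
    · exact Or.inl h
    · refine Or.inr (ψ.injective ?_)
      rw [h, map_one]
  · rintro (h | h)
    · exact Or.inl h
    · exact Or.inr (by rw [h, map_one])

theorem TT_map (ψ : K4 ≃+* F) (ξ : Fin 6 → K4) : TT (ψ ∘ ξ) = ψ ∘ TT ξ := by
  funext i
  simp [TT, map_add, map_sum]

theorem TT_F (ψ : K4 ≃+* F) (ξ : Fin 6 → F) (h : Pr ξ) : Pr (TT ξ) := by
  have h1 : ξ = ψ ∘ (ψ.symm ∘ ξ) := by
    funext i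
    simp
  have h2 : ![(ψ.symm ∘ ξ) 0, (ψ.symm ∘ ξ) 1, (ψ.symm ∘ ξ) 2, (ψ.symm ∘ ξ) 3, (ψ.symm ∘ ξ) 4, (ψ.symm ∘ ξ) 5] = ψ.symm ∘ ξ := by
    funext i
    fin_cases i <;> rfl
  rw [h1, Pr_map] at h
  rw [h1, TT_map, Pr_map]
  have h3 := TT_K4 ((ψ.symm ∘ ξ) 0) ((ψ.symm ∘ ξ) 1) ((ψ.symm ∘ ξ) 2) ((ψ.symm ∘ ξ) 3) ((ψ.symm ∘ ξ) 4) ((ψ.symm ∘ ξ) 5)
  rw [h2] at h3
  exact h3 h

theorem Pr_perm {η : Fin 6 → F} {ρ : Equiv.Perm (Fin 6)} (h0 : ∀ i, η i ≠ 0) (h1 : ∏ i, η i = 1) {ξ : Fin 6 → F}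
    (h : Pr ξ) : Pr (fun i => η i * ξ (ρ i)) := by
  unfold Pr at h ⊢
  rcases h with h | h
  · left
    rw [← h]
    apply Finset.card_bij (fun i _ => ρ i)
    · intro i hi
      simp only [Finset.mem_filter, Finset.mem_univ, true_and] at hi ⊢
      exact right_ne_zero_of_mul hi
    · intro a _ b _ hab
      exact ρ.injective hab
    · intro b hb
      simp only [Finset.mem_filter, Finset.mem_univ, true_and] at hb
      refine ⟨ρ.symm b, ?_, by simp⟩
      simp only [Finset.mem_filter, Finset.mem_univ, true_and, Equiv.apply_symm_apply]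
      exact mul_ne_zero (h0 _) hb
  · right
    rw [Finset.prod_mul_distrib, h1, one_mul, Equiv.prod_comp ρ ξ, h]

/-- **The stabiliser of a frame is not maximal in `SU₆(2)`.** -/
theorem frame_q2 (hF : Fintype.card F = 2 ^ 2) {D : Fin 6 → Submodule F (Fin 6 → F)}
    (hD : IsNondegenerateMDecomposition (hermForm 6 F 2) 1 D) :
    ∃ K : Subgroup (GL (Fin 6) F), decompositionStabilizer D ⊓ (GU 6 F 2 ⊓ specialLinear (Fin 6) F) < K ∧
      K < GU 6 F 2 ⊓ specialLinear (Fin 6) F := by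
  have hF4 : Fintype.card F = 4 := by rw [hF]; norm_num
  set f := hermForm 6 F 2 with hfdef
  have hf : IsUnitaryForm (frobEquiv hF) f := hermForm_isUnitary 6 hF
  set I := GU 6 F 2 ⊓ specialLinear (Fin 6) F with hIdef
  have S : ∀ g : GL (Fin 6) F, g ∈ I ↔ IsIso f g ∧ (g : Matrix (Fin 6) (Fin 6) F).det = 1 := by
    intro g
    rw [hIdef, Subgroup.mem_inf, mem_GU_iff, mem_specialLinear_iff]
    rfl
  have hI : ∀ g : GL (Fin 6) F, IsIso f g → (g : Matrix (Fin 6) (Fin 6) F).det = 1 → g ∈ I :=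
    fun g h1 h2 => (S g).2 ⟨h1, h2⟩
  have h2 : (2 : F) = 0 := two_zero hF4
  let ψ : K4 ≃+* F := FiniteField.ringEquivOfCardEq (K4.card_eq.trans hF4.symm)
  -- the frame
  have hex : ∀ i, ∃ v ∈ D i, f v v = 1 := by
    intro i
    have hne : D i ≠ ⊥ := by
      intro h
      have h1 := hD.decomp.finrank_eq i
      rw [h] at h1
      simp at h1
    obtain ⟨x, hx, hx0⟩ := Submodule.exists_mem_ne_zero_of_ne_bot hne
    obtain ⟨y, hy, hyx⟩ := (hD.nondegenerate i x hx hx0).1
    have hxx : f x x ≠ 0 := by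
      have hfr : Module.finrank F (D i) = 1 := hD.decomp.finrank_eq i
      have hx' : (⟨x, hx⟩ : D i) ≠ 0 := fun h => hx0 (congrArg Subtype.val h)
      obtain ⟨c, hc⟩ := (finrank_eq_one_iff_of_nonzero' _ hx').1 hfr ⟨y, hy⟩
      have hc' : c • x = y := congrArg Subtype.val hc
      rw [← hc', hf.smul_left] at hyx
      exact right_ne_zero_of_mul hyx
    refine ⟨x, hx, ?_⟩
    have h3 : f x x = (f x x) ^ 2 := f_symm hF4 x x
    have h4 : f x x * (f x x - 1) = 0 := by linear_combination -h3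
    rcases mul_eq_zero.1 h4 with h5 | h5
    · exact (hxx h5).elim
    · linear_combination h5
  choose v hv hvv using hex
  have hO : ∀ i j, i ≠ j → ∀ x ∈ D i, ∀ y ∈ D j, f x y = 0 := fun i j hij x hx y hy => hD.orthogonal i j hij x hx y hy
  have hdual : ∀ i j, f (v i) (v j) = if i = j then 1 else 0 := by
    intro i j
    by_cases h : i = j
    · subst h
      simp [hvv]
    · simp [h, hO i j h _ (hv i) _ (hv j)]
  have hexp := expand hf hdual
  have hmem : ∀ j x, x ∈ D j → x = f x (v j) • v j := by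
    intro j x hx
    conv_lhs => rw [hexp x]
    rw [Finset.sum_eq_single j]
    · intro b _ hb
      rw [hO j b (Ne.symm hb) x hx _ (hv b), zero_smul]
    · simp
  let ξ : (Fin 6 → F) → (Fin 6 → F) := fun x i => f x (v i)
  have hξv : ∀ j i, ξ (v j) i = if j = i then 1 else 0 := fun j i => hdual j i
  have hξadd : ∀ x y, ξ (x + y) = ξ x + ξ y := fun x y => by
    funext i
    exact hf.add_left _ _ _
  have hξsmul : ∀ (c : F) x, ξ (c • x) = c • ξ x := fun c x => by
    funext i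
    exact hf.smul_left _ _ _
  have fadd : ∀ x y z, f x (y + z) = f x y + f x z := f_add_right hF4
  have fsmulr : ∀ (c : F) x z, f x (c • z) = c ^ 2 * f x z := f_smul_right
  have hfsum : ∀ (x : Fin 6 → F) (s : Finset (Fin 6)), f x (∑ i ∈ s, v i) = ∑ i ∈ s, ξ x i := by
    intro x s
    induction s using Finset.induction_on with
    | empty =>
      have := f_smul_right (0 : F) x (0 : Fin 6 → F)
      simp only [hfdef] at *
      simpa [hermForm] using this
    | insert a s ha ih =>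
      rw [Finset.sum_insert ha, Finset.sum_insert ha, fadd, ih]
  have hξsum : ∀ (s : Finset (Fin 6)) (i : Fin 6), ξ (∑ j ∈ s, v j) i = if i ∈ s then 1 else 0 := by
    intro s i
    induction s using Finset.induction_on with
    | empty => simp [ξ, hfdef, hermForm]
    | insert a s ha ih =>
      rw [Finset.sum_insert ha, hξadd, Pi.add_apply, ih, hξv]
      by_cases h1 : a = i
      · subst h1
        simp [ha]
      · have h3 : i ≠ a := Ne.symm h1
        simp [h1, h3]
  -- isotropic vectors: an even number of frame vectors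
  have hiso : ∀ s : Finset (Fin 6), s.card % 2 = 0 → f (∑ j ∈ s, v j) (∑ j ∈ s, v j) = 0 := by
    intro s hs
    rw [hfsum]
    have h3 : ∀ i ∈ s, ξ (∑ j ∈ s, v j) i = 1 := fun i hi => by
      rw [hξsum, if_pos hi]
    rw [Finset.sum_congr rfl h3]
    simp only [Finset.sum_const, nsmul_eq_mul, mul_one]
    obtain ⟨m, hm⟩ : 2 ∣ s.card := Nat.dvd_of_mod_eq_zero hs
    rw [hm]
    push_cast
    rw [h2, zero_mul]
  have hone : (1 : F) + (frobEquiv hF) 1 = 0 := by
    rw [_root_.map_one]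
    linear_combination h2
  let S₀ : Set (Fin 6 → F) := {x | Pr (ξ x)}
  let V₁ : Fin 6 → F := ∑ j ∈ Finset.univ, v j
  let V₂ : Fin 6 → F := ∑ j ∈ ({0, 1, 2, 3} : Finset (Fin 6)), v j
  have hV₁ : f V₁ V₁ = 0 := hiso _ (by decide)
  have hV₂ : f V₂ V₂ = 0 := hiso _ (by decide)
  have hξV₁ : ξ V₁ = fun _ => 1 := by
    funext i
    simp [V₁, hξsum]
  have hw : ∀ x, ξ (((uT hf V₁ 1 hV₁ : GL (Fin 6) F) : Matrix (Fin 6) (Fin 6) F) *ᵥ x) = TT (ξ x) := by
    intro x
    rw [uT_mulVec, hξadd, one_smul, hξsmul, hξV₁]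
    funext i
    have h3 := hfsum x Finset.univ
    simp only [TT, Pi.add_apply, Pi.smul_apply, smul_eq_mul, mul_one]
    rw [show f x V₁ = _ from h3]
  refine not_maximal_of_set S₀ inf_le_right ?_ (uT hf V₁ 1 hV₁) (uT_mem_I hf hI V₁ 1 hV₁ hone) ?_ ?_
    (uT hf V₂ 1 hV₂) (uT_mem_I hf hI V₂ 1 hV₂ hone) (v 0 + v 4) ?_ ?_
  · -- the monomial group preserves the set
    rintro g ⟨hg1, hg2⟩ x hx
    have hgI := (S g).1 hg2
    set h := g⁻¹ with hh
    have hhI := (S h).1 (I.inv_mem hg2)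
    have hadj : ∀ x y, f ((g : Matrix _ _ F) *ᵥ x) y = f x ((h : Matrix _ _ F) *ᵥ y) := by
      intro x y
      have h1 := hgI.1 x ((h : Matrix _ _ F) *ᵥ y)
      rw [Matrix.mulVec_mulVec, ← Units.val_mul, hh, mul_inv_cancel, Units.val_one, Matrix.one_mulVec] at h1
      exact h1
    obtain ⟨ρ, hρ⟩ := mem_stab (Subgroup.inv_mem _ hg1)
    let ν : Fin 6 → F := fun i => f ((h : Matrix _ _ F) *ᵥ v i) (v (ρ i))
    have hνv : ∀ i, (h : Matrix _ _ F) *ᵥ v i = ν i • v (ρ i) := fun i => hmem _ _ (hρ i _ (hv i))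
    have hν0 : ∀ i, ν i ≠ 0 := by
      intro i h0
      have h1 := hhI.1 (v i) (v i)
      rw [hνv, h0, zero_smul, hvv] at h1
      have h3 : f (0 : Fin 6 → F) 0 = 0 := by simp [hfdef, hermForm]
      rw [h3] at h1
      exact zero_ne_one h1
    let η : Fin 6 → F := fun i => ν i ^ 2
    have hξg : ∀ x i, ξ ((g : Matrix _ _ F) *ᵥ x) i = η i * ξ x (ρ i) := by
      intro x i
      change f _ _ = _
      rw [hadj, hνv, fsmulr]
    have hη0 : ∀ i, η i ≠ 0 := fun i => pow_ne_zero _ (hν0 i)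
    have hprod : ∏ i, ν i = 1 := by
      let C : Matrix (Fin 6) (Fin 6) F := fun i j => if i = ρ j then ν j else 0
      have h1 := det_eq hf hdual (h : Matrix _ _ F) C (by
        intro j
        rw [hνv, Finset.sum_eq_single (ρ j)]
        · simp [C]
        · intro b _ hb
          simp [C, hb]
        · simp)
      rw [hhI.2] at h1
      have h4 : C = (Matrix.diagonal ν).submatrix ρ.symm id := by
        ext i j
        simp only [C, Matrix.submatrix_apply, id, Matrix.diagonal_apply]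
        by_cases h5 : i = ρ j
        · subst h5
          simp
        · have h6 : ρ.symm i ≠ j := fun h7 => h5 (by rw [← h7]; simp)
          simp [h5, h6]
      rw [h4, Matrix.det_permute, Matrix.det_diagonal] at h1
      have h8 : (((Equiv.Perm.sign ρ.symm : ℤˣ) : ℤ) : F) = 1 := by
        rcases Int.units_eq_one_or (Equiv.Perm.sign ρ.symm) with h9 | h9 <;> rw [h9]
        · simp
        · push_cast
          linear_combination -h2
      rw [h8, one_mul] at h1
      exact h1.symm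
    have hηprod : ∏ i, η i = 1 := by
      simp only [η]
      rw [Finset.prod_pow, hprod, one_pow]
    change Pr (ξ _)
    have h5 : ξ ((g : Matrix _ _ F) *ᵥ x) = fun i => η i * ξ x (ρ i) := funext (hξg x)
    rw [h5]
    exact Pr_perm hη0 hηprod hx
  · intro x hx
    change Pr (ξ _)
    rw [hw]
    exact TT_F ψ _ hx
  · -- the transvection moves the frame
    rintro ⟨hg1, -⟩
    obtain ⟨ρ, hρ⟩ := mem_stab hg1
    have h3 := hρ 0 _ (hv 0)
    have h4 := hmem _ _ h3
    set y := ((uT hf V₁ 1 hV₁ : GL (Fin 6) F) : Matrix (Fin 6) (Fin 6) F) *ᵥ v 0 with hy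
    have h5 : ξ y = fun i => ξ (v 0) i + ∑ j, ξ (v 0) j := hw _
    have h6 : ∑ j, ξ (v 0) j = 1 := by
      simp [hξv]
    have h5' : ∀ i, ξ y i = ξ (v 0) i + 1 := fun i => by rw [h5, h6]
    have h7 : ∀ i, i ≠ 0 → ξ y i = 1 := by
      intro i hi
      rw [h5', hξv, if_neg (Ne.symm hi), zero_add]
    have h8 : ∀ i, i ≠ ρ 0 → ξ y i = 0 := by
      intro i hi
      rw [h4, hξsmul, Pi.smul_apply, hξv, if_neg (Ne.symm hi), smul_zero]
    by_cases h9 : ρ 0 = 1
    · have h10 := h7 2 (by decide)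
      rw [h8 2 (by rw [h9]; decide)] at h10
      exact zero_ne_one h10
    · have h10 := h7 1 (by decide)
      rw [h8 1 (Ne.symm h9)] at h10
      exact zero_ne_one h10
  · -- a point of the set
    change Pr (ξ _)
    have h3 : ξ (v 0 + v 4) = ψ ∘ ![1, 0, 0, 0, 1, 0] := by
      funext i
      rw [hξadd, Pi.add_apply, hξv, hξv]
      fin_cases i <;> simp
    rw [h3, Pr_map]
    decide +kernel
  · -- moved out of the set
    change ¬ Pr (ξ _)
    have h3 : ξ (((uT hf V₂ 1 hV₂ : GL (Fin 6) F) : Matrix (Fin 6) (Fin 6) F) *ᵥ (v 0 + v 4)) = ψ ∘ ![0, 1, 1, 1, 1, 0] := by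
      rw [uT_mulVec, hξadd, one_smul, hξsmul, hfsum]
      funext i
      simp only [V₂, Pi.add_apply, Pi.smul_apply, smul_eq_mul, hξsum, hξadd, hξv]
      fin_cases i <;> simp [Finset.sum_insert] <;> linear_combination h2
    rw [h3, Pr_map]
    decide +kernel

end Cfsg.Agent.Lib.CmaxX.U6Frame
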