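/-
The list of maximal subgroups of `SU_6(q)`, given Aschbacher's theorem for the unitary groups.
-/
import Cfsg.Agent.Lib.CmaxU.Arith
import Cfsg.Agent.Lib.CmaxU.Master
import Cfsg.Agent.Lib.CmaxX.SU2b
import Cfsg.Agent.Lib.CmaxX.U6Frame
import Cfsg.Agent.Lib.CmaxX.U6Field5

set_option autoImplicit false
set_option linter.unusedVariables false
set_option maxHeartbeats 1000000

namespace Cfsg.Agent.Lib.CmaxX.RowU6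

theorem s5802  {F : Type*} [Field F] [Fintype F] (q : ℕ) (hF : Fintype.card F = q ^ 2) (H : Subgroup (Matrix.GeneralLinearGroup (Fin 6) F)) (hH : Cfsg.Geo.IsMaximalIn (Cfsg.GU 6 F q ⊓ Cfsg.Geo.specialLinear (Fin 6) F) H)
    (hA : (∃ M, Cfsg.Geo.InUnitaryClass 6 F q M ∧ H ≤ M) ∨ Cfsg.Geo.InUnitaryResidualClass H) :
    (∃ W : Submodule F (Fin 6 → F), W ≠ ⊥ ∧ Cfsg.Geo.IsTotallySingularFor (Cfsg.hermForm 6 F q) W ∧ H = Cfsg.Geo.subspaceStabilizer W ⊓ (Cfsg.GU 6 F q ⊓ Cfsg.Geo.specialLinear (Fin 6) F)) ∨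
    (∃ W : Submodule F (Fin 6 → F), W ≠ ⊥ ∧ Cfsg.Geo.IsNondegenerateOn (Cfsg.hermForm 6 F q) W ∧ 2 * Module.finrank F W < 6 ∧ H = Cfsg.Geo.subspaceStabilizer W ⊓ (Cfsg.GU 6 F q ⊓ Cfsg.Geo.specialLinear (Fin 6) F)) ∨
    (3 ≤ q ∧ ∃ D : Fin 6 → Submodule F (Fin 6 → F), Cfsg.Geo.IsNondegenerateMDecomposition (Cfsg.hermForm 6 F q) 1 D ∧ H = Cfsg.Geo.decompositionStabilizer D ⊓ (Cfsg.GU 6 F q ⊓ Cfsg.Geo.specialLinear (Fin 6) F)) ∨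
    (3 ≤ q ∧ ∃ D : Fin 3 → Submodule F (Fin 6 → F), Cfsg.Geo.IsNondegenerateMDecomposition (Cfsg.hermForm 6 F q) 2 D ∧ H = Cfsg.Geo.decompositionStabilizer D ⊓ (Cfsg.GU 6 F q ⊓ Cfsg.Geo.specialLinear (Fin 6) F)) ∨
    (∃ D : Fin 2 → Submodule F (Fin 6 → F), Cfsg.Geo.IsNondegenerateMDecomposition (Cfsg.hermForm 6 F q) 3 D ∧ H = Cfsg.Geo.decompositionStabilizer D ⊓ (Cfsg.GU 6 F q ⊓ Cfsg.Geo.specialLinear (Fin 6) F)) ∨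
    (∃ D : Fin 2 → Submodule F (Fin 6 → F), Cfsg.Geo.IsMDecomposition 3 D ∧ (∀ i, Cfsg.Geo.IsTotallySingularFor (Cfsg.hermForm 6 F q) (D i)) ∧ H = Cfsg.Geo.decompositionStabilizer D ⊓ (Cfsg.GU 6 F q ⊓ Cfsg.Geo.specialLinear (Fin 6) F)) ∨
    (3 ≤ q ∧ ∃ K : Subalgebra F (Matrix (Fin 6) (Fin 6) F), Cfsg.Geo.IsFieldSubalgebra 3 K ∧ Cfsg.Geo.IsAdjointClosedFor (Cfsg.hermForm 6 F q) K ∧ H = Cfsg.Geo.subalgebraNormalizer K ⊓ (Cfsg.GU 6 F q ⊓ Cfsg.Geo.specialLinear (Fin 6) F)) ∨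
    (3 ≤ q ∧ ∃ (e : Fin 6 ≃ Fin 2 × Fin 3) (P : Matrix.GeneralLinearGroup (Fin 6) F) (f₁ : (Fin 2 → F) → (Fin 2 → F) → F) (f₂ : (Fin 3 → F) → (Fin 3 → F) → F), Cfsg.Geo.IsUnitaryFormPow q f₁ ∧ Cfsg.Geo.IsUnitaryFormPow q f₂ ∧ Cfsg.Geo.IsTensorFormStructure (fun x : F => x ^ q) (Cfsg.hermForm 6 F q) f₁ f₂ e P ∧ H = Cfsg.Geo.tensorProductSubgroup 2 3 e P ⊓ (Cfsg.GU 6 F q ⊓ Cfsg.Geo.specialLinear (Fin 6) F)) ∨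
    (∃ (F₀ : Subfield F) (r : ℕ) (P : Matrix.GeneralLinearGroup (Fin 6) F), r.Prime ∧ Odd r ∧ Fintype.card F = Nat.card F₀ ^ r ∧ Cfsg.Geo.IsFormRationalStructure (Cfsg.hermForm 6 F q) F₀ 1 P ∧ H = Cfsg.Geo.subfieldSubgroup F₀ P ⊓ (Cfsg.GU 6 F q ⊓ Cfsg.Geo.specialLinear (Fin 6) F)) ∨
    (∃ (F₀ : Subfield F) (P : Matrix.GeneralLinearGroup (Fin 6) F) (ζ : F), Fintype.card F = Nat.card F₀ ^ 2 ∧ ζ ≠ 0 ∧ ζ + ζ ^ q = 0 ∧ Cfsg.Geo.IsFormRationalStructure (Cfsg.hermForm 6 F q) F₀ ζ P ∧ (∀ u : Fin 6 → F, (∀ i, u i ∈ F₀) → (Cfsg.hermForm 6 F q) (Matrix.mulVec (P : Matrix (Fin 6) (Fin 6) F) u) (Matrix.mulVec (P : Matrix (Fin 6) (Fin 6) F) u) = 0) ∧ H = Cfsg.Geo.subfieldSubgroup F₀ P ⊓ (Cfsg.GU 6 F q ⊓ Cfsg.Geo.specialLinear (Fin 6) F)) ∨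
    (Odd q ∧ ∃ (F₀ : Subfield F) (P : Matrix.GeneralLinearGroup (Fin 6) F), Fintype.card F = Nat.card F₀ ^ 2 ∧ Cfsg.Geo.IsFormRationalStructure (Cfsg.hermForm 6 F q) F₀ 1 P ∧ H = Cfsg.Geo.subfieldSubgroup F₀ P ⊓ (Cfsg.GU 6 F q ⊓ Cfsg.Geo.specialLinear (Fin 6) F)) ∨
    Cfsg.Geo.InUnitaryResidualClass H := by
  classical
  have hq2 : 2 ≤ q := Cfsg.Agent.Lib.HermCount.Field.two_le hF
  have hH' := hH
  rcases Cfsg.Agent.Lib.CmaxU.Master.master hF (by norm_num) (by omega) H hH hA with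
    ⟨W, h0, hW, hE⟩ | ⟨W, h0, hW, hlt, hE⟩ | ⟨t, k, D, hD, htk, hk2, hE⟩ | ⟨k, D, hk2, hD, hDs, hE⟩ |
    ⟨F₀, r, P, hr, hro, hc, hrat, hE⟩ | ⟨F₀, P, hodd, hc, hrat, hE⟩ | ⟨F₀, P, ζ, hev, hc, hζ, hζq, hrat, hzero, hE⟩ |
    ⟨r, R, p, e, k, hR, hRA, hRs, hrp, hmin, hrk, halts, hE⟩ | ⟨r, K, hr, hro, hrn, hK, hcl, hE⟩ |
    ⟨n₁, n₂, e, P, f₁, f₂, hn₁, hn₂, hcn, hq3, hf₁, hf₂, hT, hE⟩ | ⟨k, t, e, P, f₁, hk, ht, hcn, hex, hf₁, hT, hE⟩ | hres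
  · exact Or.inl ⟨W, h0, hW, hE⟩
  · exact Or.inr <| Or.inl ⟨W, h0, hW, hlt, hE⟩
  · obtain ⟨rfl, rfl⟩ | ⟨rfl, rfl⟩ | ⟨rfl, rfl⟩ := Cfsg.Agent.Lib.CmaxL.Arith.tm6 hD.decomp.two_le hD.decomp.pos htk
    · exact Or.inr <| Or.inr <| Or.inr <| Or.inr <| Or.inl ⟨D, hD, hE⟩
    · have h3 : 3 ≤ q := by
        by_contra hlt
        have hq : q = 2 := by omega
        subst hq
        exact Cfsg.Agent.Lib.CmaxS.Master.no_between hH' hE (Cfsg.Agent.Lib.CmaxX.SU2b.decomp_not_maximal' (by rw [hF]; norm_num) hD)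
      exact Or.inr <| Or.inr <| Or.inr <| Or.inl ⟨h3, D, hD, hE⟩
    · have h3 : 3 ≤ q := by
        by_contra hlt
        have hq : q = 2 := by omega
        subst hq
        exact Cfsg.Agent.Lib.CmaxS.Master.no_between hH' hE (Cfsg.Agent.Lib.CmaxX.U6Frame.frame_q2 hF hD)
      exact Or.inr <| Or.inr <| Or.inl ⟨h3, D, hD, hE⟩
  · obtain rfl : k = 3 := by omega
    exact Or.inr <| Or.inr <| Or.inr <| Or.inr <| Or.inr <| Or.inl ⟨D, hD, hDs, hE⟩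
  · exact Or.inr <| Or.inr <| Or.inr <| Or.inr <| Or.inr <| Or.inr <| Or.inr <| Or.inr <| Or.inl ⟨F₀, r, P, hr, hro, hc, hrat, hE⟩
  · exact Or.inr <| Or.inr <| Or.inr <| Or.inr <| Or.inr <| Or.inr <| Or.inr <| Or.inr <| Or.inr <| Or.inr <| Or.inl ⟨hodd, F₀, P, hc, hrat, hE⟩
  · exact Or.inr <| Or.inr <| Or.inr <| Or.inr <| Or.inr <| Or.inr <| Or.inr <| Or.inr <| Or.inr <| Or.inl ⟨F₀, P, ζ, hc, hζ, hζq, hrat, hzero, hE⟩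
  · exact (Cfsg.Agent.Lib.CmaxU.Arith.rk_six hR.prime hrk).elim
  · rcases Cfsg.Agent.Lib.CmaxL.Arith.pr6 hr hrn with rfl | rfl
    · exact absurd hro (by decide)
    · have h3 : 3 ≤ q := by
        by_contra hlt
        have hq : q = 2 := by omega
        subst hq
        exact Cfsg.Agent.Lib.CmaxS.Master.no_between hH' hE (Cfsg.Agent.Lib.CmaxX.U6Field5.field3 hF hK hcl)
      exact Or.inr <| Or.inr <| Or.inr <| Or.inr <| Or.inr <| Or.inr <| Or.inl ⟨h3, K, hK, hcl, hE⟩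
  · obtain ⟨rfl, rfl⟩ := Cfsg.Agent.Lib.CmaxL.Arith.ten6 hn₁ hn₂ hcn
    exact Or.inr <| Or.inr <| Or.inr <| Or.inr <| Or.inr <| Or.inr <| Or.inr <| Or.inl ⟨hq3 rfl, e, P, f₁, f₂, hf₁, hf₂, hT, hE⟩
  · have := Cfsg.Agent.Lib.CmaxL.Arith.pow_lower hk ht
    omega
  · exact Or.inr <| Or.inr <| Or.inr <| Or.inr <| Or.inr <| Or.inr <| Or.inr <| Or.inr <| Or.inr <| Or.inr <| Or.inr <| hres

end Cfsg.Agent.Lib.CmaxX.RowU6
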